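import Mathlib

/-! KU-M (job board piece for S4648, poster helper1): a full system of matrix units lifts
through a surjection onto a matrix algebra with nil kernel. -/

set_option maxHeartbeats 400000
set_option autoImplicit false

namespace Cfsg.Agent.Lib.Helper68.Kuls

universe u v

/-- One index: elements `U`, `V` with `U V = e i`, `V U = e 0`. -/
theorem kuls_units_step {F : Type u} {A : Type v} [Field F] [Ring A] [Algebra F A]
    (n : ℕ) [NeZero n] (π : A →ₐ[F] Matrix (Fin n) (Fin n) F) (hπ : Function.Surjective π)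
    (hnil : ∀ x, π x = 0 → IsNilpotent x)
    (e : Fin n → A) (he : CompleteOrthogonalIdempotents e)
    (hπe : ∀ i, π (e i) = Matrix.single i i 1) (i : Fin n) :
    ∃ U V : A, U * V = e i ∧ V * U = e 0 ∧ e i * U = U ∧ U * e 0 = U ∧ e 0 * V = V ∧
      V * e i = V ∧ π U = Matrix.single i 0 1 ∧ π V = Matrix.single 0 i 1 := by
  obtain ⟨a, ha⟩ := hπ (Matrix.single i 0 1)
  obtain ⟨b, hb⟩ := hπ (Matrix.single 0 i 1)
  have hei : e i * e i = e i := he.idem i
  have he0 : e 0 * e 0 = e 0 := he.idem 0
  obtain ⟨u, hu⟩ : ∃ u, u = e i * a * e 0 := ⟨_, rfl⟩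
  obtain ⟨v, hv⟩ : ∃ v, v = e 0 * b * e i := ⟨_, rfl⟩
  have hπu : π u = Matrix.single i 0 1 := by
    rw [hu, map_mul, map_mul, hπe, hπe, ha]
    simp
  have hπv : π v = Matrix.single 0 i 1 := by
    rw [hv, map_mul, map_mul, hπe, hπe, hb]
    simp
  have heiu : e i * u = u := by rw [hu]; simp only [← mul_assoc, hei]
  have hue0 : u * e 0 = u := by rw [hu]; simp only [mul_assoc, he0]
  have he0v : e 0 * v = v := by rw [hv]; simp only [← mul_assoc, he0]
  have hvei : v * e i = v := by rw [hv]; simp only [mul_assoc, hei]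
  obtain ⟨r, hr⟩ : ∃ r, r = e i - u * v := ⟨_, rfl⟩
  have hπr : π r = 0 := by
    rw [hr, map_sub, map_mul, hπu, hπv, hπe]
    simp
  obtain ⟨m, hm⟩ := hnil r hπr
  have heir : e i * r = r := by
    rw [hr, mul_sub, hei, ← mul_assoc, heiu]
  have hrei : r * e i = r := by
    rw [hr, sub_mul, hei, mul_assoc, hvei]
  obtain ⟨g, hg⟩ : ∃ g, g = ∑ k ∈ Finset.range m, r ^ k := ⟨_, rfl⟩
  have h1 : (1 - r) * g = 1 := by rw [hg, mul_neg_geom_sum, hm, sub_zero]
  have hcomm : Commute (e i) r := by
    show e i * r = r * e i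
    rw [heir, hrei]
  have hcg : Commute (e i) g := by
    rw [hg]; exact Commute.sum_right _ _ _ (fun k _ => hcomm.pow_right k)
  have huv : u * v = e i * (1 - r) := by
    rw [mul_sub, mul_one, heir, hr]; abel
  have hπg : π g = 1 := by
    have := congrArg π h1
    simpa [map_mul, map_sub, hπr] using this
  have huvg : u * (v * g) = e i := by
    rw [← mul_assoc, huv, mul_assoc, h1, mul_one]
  refine ⟨u, v * g, huvg, ?_, heiu, hue0, ?_, ?_, hπu, ?_⟩
  · have hf : IsIdempotentElem (v * g * u) := by
      show v * g * u * (v * g * u) = v * g * u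
      calc v * g * u * (v * g * u) = v * g * (u * (v * g)) * u := by simp only [mul_assoc]
        _ = v * g * (e i * u) := by rw [huvg, mul_assoc]
        _ = v * g * u := by rw [heiu]
    have h0f : e 0 * (v * g * u) = v * g * u := by
      rw [← mul_assoc, ← mul_assoc, he0v]
    have hf0 : v * g * u * e 0 = v * g * u := by
      rw [mul_assoc, hue0]
    have hnilp : IsNilpotent (e 0 - v * g * u) := by
      apply hnil
      rw [map_sub, map_mul, map_mul, hπu, hπv, hπg, hπe]
      simp
    have hc : Commute (e 0) (v * g * u) := by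
      show e 0 * (v * g * u) = v * g * u * e 0
      rw [h0f, hf0]
    exact (eq_of_isNilpotent_sub_of_isIdempotentElem_of_commute (he.idem 0) hf hnilp hc).symm
  · rw [← mul_assoc, he0v]
  · rw [mul_assoc, ← hcg.eq, ← mul_assoc, hvei]
  · rw [map_mul, hπv, hπg, mul_one]

/-- KU-M: a full system of matrix units lifts through a nil kernel. -/
theorem kuls_units {F : Type u} {A : Type v} [Field F] [Ring A] [Algebra F A]
    (n : ℕ) [NeZero n] (π : A →ₐ[F] Matrix (Fin n) (Fin n) F) (hπ : Function.Surjective π)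
    (hnil : ∀ x, π x = 0 → IsNilpotent x) :
    ∃ E : Fin n → Fin n → A, (∀ i j k l, E i j * E k l = if j = k then E i l else 0) ∧
      ∑ i, E i i = 1 ∧ ∀ i j, π (E i j) = Matrix.single i j 1 := by
  classical
  have hd : CompleteOrthogonalIdempotents (fun i : Fin n => Matrix.single i i (1 : F)) := by
    refine ⟨⟨fun i => ?_, fun i j hij => ?_⟩, ?_⟩
    · show Matrix.single i i (1 : F) * Matrix.single i i 1 = Matrix.single i i 1
      simp
    · show Matrix.single i i (1 : F) * Matrix.single j j 1 = 0
      exact Matrix.single_mul_single_of_ne _ _ _ _ hij _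
    · exact Matrix.sum_single_one
  obtain ⟨e, he, hfe⟩ := CompleteOrthogonalIdempotents.lift_of_isNilpotent_ker
    (π : A →+* Matrix (Fin n) (Fin n) F) (fun x hx => hnil x (RingHom.mem_ker.mp hx)) hd
    (fun i => RingHom.mem_range.mpr (hπ _))
  have hπe : ∀ i, π (e i) = Matrix.single i i 1 := fun i => congrFun hfe i
  choose U V hUV hVU hiU hU0 h0V hVi hπU hπV using kuls_units_step n π hπ hnil e he hπe
  refine ⟨fun i j => U i * V j, ?_, ?_, ?_⟩
  · intro i j k l
    by_cases hjk : j = k
    · subst hjk
      rw [if_pos rfl]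
      calc U i * V j * (U j * V l) = U i * (V j * U j) * V l := by simp only [mul_assoc]
        _ = U i * V l := by rw [hVU, hU0]
    · rw [if_neg hjk]
      calc U i * V j * (U k * V l) = U i * (V j * e j) * (e k * U k * V l) := by
            rw [hVi, hiU]
        _ = U i * V j * (e j * e k) * (U k * V l) := by simp only [mul_assoc]
        _ = 0 := by rw [he.ortho hjk, mul_zero, zero_mul]
  · simp only [hUV]
    exact he.complete
  · intro i j
    rw [map_mul, hπU, hπV]
    simp

end Cfsg.Agent.Lib.Helper68.Kuls
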