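import Mathlib
import Cfsg.Prelude.Def_Local
import Cfsg.Prelude.Def_Transfer
import Cfsg.Agent.S3790

/-!
# A normal subgroup of `p'`-index with a normal `p`-complement gives `p`-length one (helper68)
-/

set_option autoImplicit false

namespace Cfsg.Agent.Lib.Helper68

open Cfsg

universe u

theorem plength_one_of_npc {G : Type u} [Group G] [Finite G] (p : ℕ) [Fact p.Prime] (P : Sylow p G)
    (K : Subgroup G) [hKn : K.Normal] (hPK : (P : Subgroup G) ≤ K)
    (h : HasNormalPComplement p K) : PLengthLE p 1 G := by
  classical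
  have hp : p.Prime := Fact.out
  obtain ⟨P', Q, hQn, hcompl⟩ := h
  -- numerical facts
  obtain ⟨m, hm⟩ := (IsPGroup.iff_card).mp P'.isPGroup'
  have hQidx : Q.index = p ^ m := by
    rw [← hm]
    exact hcompl.symm.index_eq_card
  have hQcard : (Nat.card Q).Coprime p := by
    have h1 : (P' : Subgroup K).index = Nat.card Q := hcompl.index_eq_card
    have h2 : ¬ p ∣ (P' : Subgroup K).index := P'.not_dvd_index
    rw [h1] at h2
    exact ((Nat.Prime.coprime_iff_not_dvd hp).mpr h2).symm
  -- characterization of Q
  have hQchar : ∀ k : K, k ∈ Q ↔ (orderOf k).Coprime p := by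
    intro k
    constructor
    · intro hk
      have h1 : orderOf (⟨k, hk⟩ : Q) ∣ Nat.card Q := orderOf_dvd_natCard _
      have h2 : orderOf (⟨k, hk⟩ : Q) = orderOf k := by
        rw [← Subgroup.orderOf_coe]
      rw [h2] at h1
      exact Nat.Coprime.coprime_dvd_left h1 hQcard
    · intro hk
      have h1 : k ^ (p ^ m) ∈ Q := by
        rw [← hQidx]
        exact Subgroup.pow_index_mem Q k
      have h2 : k ^ orderOf k ∈ Q := by
        rw [pow_orderOf_eq_one]
        exact Q.one_mem
      have h3 := Cfsg.Agent.S3790.pow_gcd_mem Q k _ _ h1 h2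
      have h4 : Nat.gcd (p ^ m) (orderOf k) = 1 := (Nat.Coprime.pow_left m hk.symm)
      rwa [h4, pow_one] at h3
  set Q' : Subgroup G := Q.map K.subtype with hQ'
  have hQ'mem : ∀ g : G, g ∈ Q' ↔ ∃ hg : g ∈ K, (⟨g, hg⟩ : K) ∈ Q := by
    intro g
    rw [hQ', Subgroup.mem_map]
    constructor
    · rintro ⟨k, hk, rfl⟩
      exact ⟨k.2, hk⟩
    · rintro ⟨hg, hk⟩
      exact ⟨⟨g, hg⟩, hk, rfl⟩
  have hQ'char : ∀ g : G, g ∈ Q' ↔ g ∈ K ∧ (orderOf g).Coprime p := by
    intro g
    rw [hQ'mem]
    constructor
    · rintro ⟨hg, hk⟩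
      refine ⟨hg, ?_⟩
      have := (hQchar ⟨g, hg⟩).mp hk
      rwa [← Subgroup.orderOf_coe] at this
    · rintro ⟨hg, hk⟩
      refine ⟨hg, (hQchar ⟨g, hg⟩).mpr ?_⟩
      rwa [← Subgroup.orderOf_coe]
  have hQ'n : Q'.Normal := by
    constructor
    intro x hx g
    rw [hQ'char] at hx ⊢
    refine ⟨hKn.conj_mem x hx.1 g, ?_⟩
    have : orderOf (g * x * g⁻¹) = orderOf x := by
      have := (MulAut.conj g).orderOf_eq x
      rwa [MulAut.conj_apply] at this
    rw [this]
    exact hx.2
  have hKidx : K.index.Coprime p := by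
    have h1 : K.index ∣ (P : Subgroup G).index := Subgroup.index_dvd_of_le hPK
    have h2 : ¬ p ∣ (P : Subgroup G).index := P.not_dvd_index
    have h3 : ¬ p ∣ K.index := fun h => h2 (h.trans h1)
    exact ((Nat.Prime.coprime_iff_not_dvd hp).mpr h3).symm
  apply Cfsg.Agent.S3790.plength_of_chain p hp 1
  refine ⟨fun n => if n = 0 then ⊥ else if n = 1 then Q' else if n = 2 then K else ⊤,
    ?_, ?_, ?_, ?_, ?_⟩
  · simp
  · simp
  · intro n
    rcases n with _ | _ | _ | n
    · simp only [if_true]; infer_instance
    · simp only [show (0 + 1 = 0) = False from by simp, if_false, if_true]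
      exact hQ'n
    · simp only [show (0 + 1 + 1 = 0) = False from by simp,
        show (0 + 1 + 1 = 1) = False from by simp, if_false, if_true]
      exact hKn
    · simp only [show (n + 1 + 1 + 1 = 0) = False from by simp,
        show (n + 1 + 1 + 1 = 1) = False from by simp,
        show (n + 1 + 1 + 1 = 2) = False from by simp, if_false]
      infer_instance
  · intro n
    rcases n with _ | _ | _ | n
    · simp
    · simp only [show (0 + 1 = 0) = False from by simp,
        show (0 + 1 + 1 = 0) = False from by simp,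
        show (0 + 1 + 1 = 1) = False from by simp, if_false, if_true]
      intro g hg
      exact ((hQ'char g).mp hg).1
    · simp
    · simp
  · intro n
    rcases n with _ | _ | _ | n
    · -- ⊥ to Q'
      simp only [show (0 + 1 = 0) = False from by simp, if_false, if_true]
      intro x hx
      refine ⟨orderOf x, ?_, ?_⟩
      · show orderOf x ∈ (if Even 0 then Cfsg.Agent.S3790.EP p else Cfsg.Agent.S3790.EQ p)
        rw [if_pos (by decide)]
        exact ((hQ'char x).mp hx).2
      · rw [pow_orderOf_eq_one]
        exact Subgroup.one_mem _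
    · -- Q' to K
      simp only [show (0 + 1 = 0) = False from by simp,
        show (0 + 1 + 1 = 0) = False from by simp,
        show (0 + 1 + 1 = 1) = False from by simp, if_false, if_true]
      intro x hx
      refine ⟨p ^ m, ?_, ?_⟩
      · show p ^ m ∈ (if Even (0 + 1) then Cfsg.Agent.S3790.EP p else Cfsg.Agent.S3790.EQ p)
        rw [if_neg (by decide)]
        exact ⟨m, rfl⟩
      · rw [hQ'mem]
        refine ⟨K.pow_mem hx _, ?_⟩
        have h1 : (⟨x, hx⟩ : K) ^ (p ^ m) ∈ Q := by
          rw [← hQidx]
          exact Subgroup.pow_index_mem Q _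
        exact h1
    · -- K to ⊤
      simp only [show (0 + 1 + 1 = 0) = False from by simp,
        show (0 + 1 + 1 = 1) = False from by simp,
        show (0 + 1 + 1 + 1 = 0) = False from by simp,
        show (0 + 1 + 1 + 1 = 1) = False from by simp,
        show (0 + 1 + 1 + 1 = 2) = False from by simp, if_false, if_true]
      intro x _
      refine ⟨K.index, ?_, Subgroup.pow_index_mem K x⟩
      show K.index ∈ (if Even (0 + 1 + 1) then Cfsg.Agent.S3790.EP p else Cfsg.Agent.S3790.EQ p)
      rw [if_pos (by decide)]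
      exact hKidx
    · simp only [show (n + 1 + 1 + 1 = 0) = False from by simp,
        show (n + 1 + 1 + 1 = 1) = False from by simp,
        show (n + 1 + 1 + 1 = 2) = False from by simp,
        show (n + 1 + 1 + 1 + 1 = 0) = False from by simp,
        show (n + 1 + 1 + 1 + 1 = 1) = False from by simp,
        show (n + 1 + 1 + 1 + 1 = 2) = False from by simp, if_false]
      exact Cfsg.Agent.S3790.isStep_refl _ (Cfsg.Agent.S3790.stepSet_one p _) ⊤

end Cfsg.Agent.Lib.Helper68
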