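import Mathlib
import Cfsg.Prelude.Def_Characters
import Cfsg.Agent.Lib.Helper4.Eigen

/-!
# S4503 piece PDEC (helper68, for helper22): values of a character on a cyclic group of order `p`
-/

set_option autoImplicit false

namespace Cfsg.Agent.Lib.Helper68.BFT

open Cfsg

universe u

variable {G : Type u} [Group G] [Fintype G]

/-- PIECE PDEC -/
theorem pdec (p : ℕ) [Fact p.Prime] (ζ : ℂ) (hζ : IsPrimitiveRoot ζ p) (φ : G → ℂ)
    (hφ : IsCharacter G φ) (z : G) (hz : z ^ p = 1) :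
    ∃ a : ZMod p → ℕ, ∀ t : ZMod p,
      φ (z ^ t.val) = ∑ u : ZMod p, (a u : ℂ) * ζ ^ (u * t).val := by
  classical
  have hp : p.Prime := Fact.out
  have : NeZero p := ⟨hp.ne_zero⟩
  obtain ⟨n, ρ, rfl⟩ := hφ
  obtain ⟨ι, _, _, v, μ, h1, h2, -, -⟩ :=
    Cfsg.Agent.Lib.Helper4.exists_eigenbasis_rep (ρ := ρ) z
  have hμp : ∀ i, μ i ^ p = 1 := by
    intro i
    obtain ⟨d, hd⟩ := orderOf_dvd_of_pow_eq_one hz
    rw [hd, pow_mul, h2, one_pow]
  have hk : ∀ i, ∃ k : ℕ, k < p ∧ ζ ^ k = μ i := fun i => hζ.eq_pow_of_pow_eq_one (hμp i)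
  choose k hkp hkμ using hk
  have hpow : ∀ (j : ℕ) (i : ι), ρ (z ^ j) (v i) = μ i ^ j • v i := by
    intro j i
    induction j with
    | zero => simp
    | succ j ih =>
      rw [pow_succ, map_mul, Module.End.mul_apply, h1, map_smul, ih, smul_smul, pow_succ, mul_comm]
  have e2 : ∀ c : ℕ, ρ.character (z ^ c) = ∑ i, μ i ^ c := fun c =>
    Cfsg.Agent.Lib.Helper4.trace_eq_sum_of_eigenbasis v (ρ (z ^ c)) (fun i => μ i ^ c) (hpow c)
  refine ⟨fun u => (Finset.univ.filter (fun i => (k i : ZMod p) = u)).card, fun t => ?_⟩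
  rw [e2]
  have h3 : ∀ i, μ i ^ t.val = ζ ^ (((k i : ZMod p) * t).val) := by
    intro i
    rw [← hkμ i, ← pow_mul, ZMod.val_mul, ZMod.val_natCast_of_lt (hkp i)]
    exact pow_eq_pow_mod _ hζ.pow_eq_one
  rw [Finset.sum_congr rfl (fun i _ => h3 i)]
  rw [← Finset.sum_fiberwise Finset.univ (fun i => (k i : ZMod p))
    (fun i => ζ ^ (((k i : ZMod p) * t).val))]
  apply Finset.sum_congr rfl
  intro u _
  rw [Finset.sum_congr rfl (g := fun _ => ζ ^ (u * t).val) (by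
    intro i hi
    rw [(Finset.mem_filter.1 hi).2])]
  rw [Finset.sum_const, nsmul_eq_mul]

end Cfsg.Agent.Lib.Helper68.BFT
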