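import Mathlib
import Cfsg.Agent.Lib.Helper26.Gross2DefsA
import Cfsg.Agent.Lib.Helper57.GrossCent
import Cfsg.Agent.Lib.Helper26.FpfBasic
import Cfsg.Agent.Lib.Helper30.Basic
import Cfsg.Agent.S3794

/-!
# Piece CENT2 of S3795 (Gross, `p = 2`): `Aut3Stmt → Fit3Stmt → Cent2Stmt`
-/

set_option autoImplicit false

namespace Cfsg.Agent.Lib.Helper68.Gross2CENT2

universe u

open Cfsg.Agent.Lib.Helper26 Cfsg.Agent.Lib.Helper57.GrossCent

open scoped Pointwise

section generic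

variable {H : Type*} [Group H]

/-- if for every prime `s` a subgroup of index prime to `s` is mapped into the normal subgroup
`F` by `h ↦ h⁻¹ ψ(h)`, then so is the whole group -/
theorem cent2_lang_mem_of_sylow [Finite H] (ψ : MulAut H) (F : Subgroup H) [hF : F.Normal]
    (hS : ∀ s : ℕ, s.Prime → ∃ S : Subgroup H, ¬ s ∣ S.index ∧ ∀ y ∈ S, y⁻¹ * ψ y ∈ F) :
    ∀ h : H, h⁻¹ * ψ h ∈ F := by
  let K₀ : Subgroup H :=
    { carrier := {h | h⁻¹ * ψ h ∈ F}
      mul_mem' := by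
        intro a b ha hb
        show (a * b)⁻¹ * ψ (a * b) ∈ F
        have h1 : (a * b)⁻¹ * ψ (a * b) = (b⁻¹ * (a⁻¹ * ψ a) * b⁻¹⁻¹) * (b⁻¹ * ψ b) := by
          rw [map_mul]; group
        rw [h1]
        exact F.mul_mem (hF.conj_mem _ ha _) hb
      one_mem' := by
        show (1 : H)⁻¹ * ψ 1 ∈ F
        rw [map_one, inv_one, one_mul]
        exact F.one_mem
      inv_mem' := by
        intro a ha
        show (a⁻¹)⁻¹ * ψ a⁻¹ ∈ F
        have h1 : (a⁻¹)⁻¹ * ψ a⁻¹ = a * (a⁻¹ * ψ a)⁻¹ * a⁻¹ := by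
          rw [map_inv]; group
        rw [h1]
        exact hF.conj_mem _ (F.inv_mem ha) _ }
  have hK : K₀ = ⊤ := by
    rw [← Subgroup.index_eq_one]
    by_contra hne
    obtain ⟨s, hs, hsd⟩ := Nat.exists_prime_and_dvd hne
    obtain ⟨S, hSi, hSy⟩ := hS s hs
    have hle : S ≤ K₀ := fun y hy => hSy y hy
    exact hSi (hsd.trans (Subgroup.index_dvd_of_le hle))
  intro h
  have : h ∈ K₀ := by rw [hK]; exact Subgroup.mem_top h
  exact this

theorem cent2_mem_smul_sylow {s : ℕ} (x y : H) (P : Sylow s H) :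
    y ∈ x • P ↔ x⁻¹ * y * x ∈ P := by
  rw [← SetLike.mem_coe, Sylow.coe_smul, Set.mem_smul_set_iff_inv_smul_mem, MulAut.smul_def,
    ← map_inv, MulAut.conj_apply, inv_inv]
  rfl

/-- a fixed-point-free automorphism normalises some Sylow `s`-subgroup -/
theorem cent2_exists_inv_sylow [Finite H] (φ : MulAut H) (hfpf : ∀ h : H, φ h = h → h = 1)
    (s : ℕ) [Fact s.Prime] : ∃ P : Sylow s H, ∀ y ∈ P, φ y ∈ P := by
  let P₀ : Sylow s H := default
  obtain ⟨g, hg⟩ := MulAction.exists_smul_eq H P₀ (φ • P₀)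
  obtain ⟨x, hx⟩ := Cfsg.Agent.S3794.surj φ hfpf g⁻¹
  have hφx : φ x = x * g⁻¹ := by rw [← hx]; group
  refine ⟨x • P₀, ?_⟩
  intro y hy
  rw [cent2_mem_smul_sylow] at hy ⊢
  have h1 : φ (x⁻¹ * y * x) ∈ g • P₀ := by
    rw [hg]
    have h2 : φ • (x⁻¹ * y * x) ∈ φ • (P₀ : Subgroup H) :=
      Subgroup.smul_mem_pointwise_smul _ φ _ hy
    exact h2
  rw [cent2_mem_smul_sylow] at h1
  have h3 : x⁻¹ * φ y * x = g⁻¹ * φ (x⁻¹ * y * x) * g := by
    rw [map_mul, map_mul, map_inv, hφx]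
    group
  rw [h3]
  exact h1

end generic

section main

variable {G : Type u} [Group G] [Finite G]

theorem cent2_img_isPGroup (N : Subgroup G) [N.Normal] (C : Subgroup G)
    (hCdef : C = Subgroup.centralizer (N : Set G)) [C.Normal] {t : ℕ}
    (T : Subgroup (G ⧸ C)) (hT : IsPGroup t T) :
    IsPGroup t ((T.comap (QuotientGroup.mk' C)).map (MulAut.conjNormal : G →* MulAut N)) := by
  rintro ⟨x, hx⟩
  obtain ⟨g', hg', rfl⟩ := hx
  obtain ⟨j, hj⟩ := hT ⟨QuotientGroup.mk' C g', hg'⟩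
  refine ⟨j, Subtype.ext ?_⟩
  show (MulAut.conjNormal g' : MulAut N) ^ t ^ j = 1
  rw [← map_pow, conjNormal_eq_one_iff, ← hCdef]
  have h2 : (((⟨QuotientGroup.mk' C g', hg'⟩ : T) ^ t ^ j : T) : G ⧸ C) = ((1 : T) : G ⧸ C) :=
    congrArg Subtype.val hj
  rw [Subgroup.coe_pow, Subgroup.coe_one, ← map_pow] at h2
  exact (QuotientGroup.eq_one_iff _).mp h2

theorem cent2_img_inv (σ : MulAut G) (N : Subgroup G) [N.Normal]
    (hmapN : N.map (σ : G →* G) = N)
    (C : Subgroup G) [C.Normal] (hC : C.map (σ : G →* G) = C)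
    (T : Subgroup (G ⧸ C)) (hT : ∀ y ∈ T, quotAut σ C hC y ∈ T) :
    ∀ x ∈ (T.comap (QuotientGroup.mk' C)).map (MulAut.conjNormal : G →* MulAut N),
      (resAut σ N hmapN : MulAut N) * x * (resAut σ N hmapN : MulAut N)⁻¹ ∈
        (T.comap (QuotientGroup.mk' C)).map (MulAut.conjNormal : G →* MulAut N) := by
  rintro _ ⟨g', hg', rfl⟩
  rw [res_mul_conj, mul_inv_cancel_right]
  exact Subgroup.mem_map_of_mem _ (show QuotientGroup.mk' C (σ g') ∈ T from hT _ hg')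

theorem cent2_img_fpf (σ : MulAut G) (hfpf : ∀ g : G, σ g = g → g = 1) (N : Subgroup G)
    [N.Normal] (hmapN : N.map (σ : G →* G) = N)
    (C : Subgroup G) (hCdef : C = Subgroup.centralizer (N : Set G)) [C.Normal]
    (hC : C.map (σ : G →* G) = C) (T : Subgroup (G ⧸ C)) :
    ∀ x ∈ (T.comap (QuotientGroup.mk' C)).map (MulAut.conjNormal : G →* MulAut N),
      (resAut σ N hmapN : MulAut N) * x = x * (resAut σ N hmapN : MulAut N) → x = 1 := by
  rintro _ ⟨g', hg', rfl⟩ h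
  rw [res_mul_conj] at h
  have h1 : (MulAut.conjNormal (σ g') : MulAut N) = MulAut.conjNormal g' := mul_right_cancel h
  have h2 : (MulAut.conjNormal (g'⁻¹ * σ g') : MulAut N) = 1 := by
    rw [map_mul, map_inv, h1, inv_mul_cancel]
  rw [conjNormal_eq_one_iff, ← hCdef] at h2
  have h3 : quotAut σ C hC (QuotientGroup.mk g') = QuotientGroup.mk g' := by
    rw [quotAut_mk]
    exact (QuotientGroup.eq.mpr h2).symm
  have h4 := quotAut_fpf σ C hC hfpf _ h3
  rw [conjNormal_eq_one_iff, ← hCdef]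
  exact (QuotientGroup.eq_one_iff g').mp h4

/-- a normal invariant `r`-subgroup of `G ⧸ C_G(N)` is trivial -/
theorem cent2_rpart_trivial (σ : MulAut G) (N : Subgroup G) [hNn : N.Normal]
    (hσN : ∀ x ∈ N, σ x ∈ N)
    (hmin : ∀ N₀ : Subgroup G, N₀.Normal → N₀ ≤ N → (∀ x ∈ N₀, σ x ∈ N₀) → N₀ = ⊥ ∨ N₀ = N)
    (r : ℕ) (hr : r.Prime) (hrN : r ∣ Nat.card N)
    (C : Subgroup G) (hCdef : C = Subgroup.centralizer (N : Set G)) [hCn : C.Normal]
    (hC : C.map (σ : G →* G) = C)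
    (O : Subgroup (G ⧸ C)) (hOn : O.Normal)
    (hOmap : O.map ((quotAut σ C hC : G ⧸ C ≃* G ⧸ C) : G ⧸ C →* G ⧸ C) = O)
    (hOr : IsPGroup r O) : ∀ y ∈ O, y = 1 := by
  intro y hy
  have hÕn : (O.comap (QuotientGroup.mk' C)).Normal := hOn.comap _
  have hÕσ : ∀ g' ∈ O.comap (QuotientGroup.mk' C), σ g' ∈ O.comap (QuotientGroup.mk' C) := by
    intro g' hg'
    exact mem_of_map_eq hOmap (show QuotientGroup.mk' C g' ∈ O from hg')
  have hQ_pgroup := cent2_img_isPGroup N C hCdef O hOr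
  obtain ⟨g, rfl⟩ := QuotientGroup.mk_surjective y
  have hgÕ : g ∈ O.comap (QuotientGroup.mk' C) := hy
  rw [QuotientGroup.eq_one_iff]
  have : Fact r.Prime := ⟨hr⟩
  have h1fix : (1 : N) ∈ MulAction.fixedPoints ((O.comap (QuotientGroup.mk' C)).map
      (MulAut.conjNormal : G →* MulAut N)) N := by
    rintro ⟨x, hx⟩
    exact map_one x
  obtain ⟨b, hb, hb1⟩ :=
    hQ_pgroup.exists_fixed_point_of_prime_dvd_card_of_fixed_point N hrN h1fix
  have hN₀ : N ⊓ Subgroup.centralizer ((O.comap (QuotientGroup.mk' C) : Subgroup G) : Set G)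
      = N := by
    have hÕmap : (O.comap (QuotientGroup.mk' C)).map (σ : G →* G)
        = O.comap (QuotientGroup.mk' C) := map_eq_of_forall_mem σ _ hÕσ
    have hcn := centralizer_normal (O.comap (QuotientGroup.mk' C))
    rcases hmin (N ⊓ Subgroup.centralizer ((O.comap (QuotientGroup.mk' C) : Subgroup G) : Set G))
      inferInstance inf_le_left
      (fun x hx => ⟨hσN x hx.1, centralizer_invariant σ _ hÕmap x hx.2⟩) with h | h
    · exfalso
      have hbmem : (b : G) ∈ N ⊓ Subgroup.centralizer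
          ((O.comap (QuotientGroup.mk' C) : Subgroup G) : Set G) := by
        refine Subgroup.mem_inf.mpr ⟨b.2, ?_⟩
        rw [Subgroup.mem_centralizer_iff]
        intro g' hg'
        have h3 := hb ⟨MulAut.conjNormal g', Subgroup.mem_map_of_mem _ hg'⟩
        have h2 : ((MulAut.conjNormal g' b : N) : G) = b := congrArg Subtype.val h3
        rw [MulAut.conjNormal_apply] at h2
        exact mul_inv_eq_iff_eq_mul.mp h2
      rw [h, Subgroup.mem_bot] at hbmem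
      exact hb1 (Subtype.ext hbmem.symm)
    · exact h
  rw [hCdef, Subgroup.mem_centralizer_iff]
  intro x hx
  have hx' : x ∈ Subgroup.centralizer ((O.comap (QuotientGroup.mk' C) : Subgroup G) : Set G) := by
    rw [← hN₀] at hx
    exact hx.2
  rw [Subgroup.mem_centralizer_iff] at hx'
  exact (hx' g hgÕ).symm

/-- the commutators `y⁻¹ ψ(y)`, `y` in an invariant `s`-subgroup, centralise a normal invariant
`q`-subgroup of `G ⧸ C_G(N)` -/
theorem cent2_comm_of_aut (hA : Gross2.Aut3Stmt.{u}) (σ : MulAut G) (n : ℕ)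
    (hσ : σ ^ 2 ^ (n + 1) = 1) (hfpf : ∀ g : G, σ g = g → g = 1)
    (N : Subgroup G) [hNn : N.Normal] (hσN : ∀ x ∈ N, σ x ∈ N)
    (hmin : ∀ N₀ : Subgroup G, N₀.Normal → N₀ ≤ N → (∀ x ∈ N₀, σ x ∈ N₀) → N₀ = ⊥ ∨ N₀ = N)
    (hab : ∀ x ∈ N, ∀ y ∈ N, x * y = y * x) (r : ℕ) (hr : r.Prime) (hrN : r ∣ Nat.card N)
    (hexp : ∀ x ∈ N, x ^ r = 1)
    (C : Subgroup G) (hCdef : C = Subgroup.centralizer (N : Set G)) [hCn : C.Normal]
    (hC : C.map (σ : G →* G) = C)
    (q s : ℕ) (hq : q.Prime) (hs : s.Prime) (hqs : q ≠ s)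
    (O : Subgroup (G ⧸ C)) (hOn : O.Normal)
    (hOmap : O.map ((quotAut σ C hC : G ⧸ C ≃* G ⧸ C) : G ⧸ C →* G ⧸ C) = O)
    (hOq : IsPGroup q O)
    (S : Subgroup (G ⧸ C)) (hSinv : ∀ y ∈ S, quotAut σ C hC y ∈ S) (hSs : IsPGroup s S) :
    ∀ y ∈ S, ∀ x ∈ O,
      (y⁻¹ * ((quotAut σ C hC : MulAut (G ⧸ C)) ^ 2 ^ n) y) * x =
        x * (y⁻¹ * ((quotAut σ C hC : MulAut (G ⧸ C)) ^ 2 ^ n) y) := by
  intro y hy x hx
  have h2G : ¬ 2 ∣ Nat.card G := fpf_not_dvd_card Nat.prime_two σ (n + 1) hσ hfpf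
  have h2H : ¬ 2 ∣ Nat.card (G ⧸ C) := fun h =>
    h2G (h.trans (Subgroup.card_quotient_dvd_card C))
  have hmapN : N.map (σ : G →* G) = N := map_eq_of_forall_mem σ N hσN
  by_cases hs2 : s = 2
  · subst hs2
    obtain ⟨j, hj⟩ := hSs ⟨y, hy⟩
    have hj' : y ^ 2 ^ j = 1 := by
      have := congrArg Subtype.val hj
      simpa using this
    have hy1 : y = 1 := eq_one_of_pow_prime_pow Nat.prime_two h2H hj'
    rw [hy1, map_one, inv_one, one_mul, one_mul, mul_one]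
  by_cases hq2 : q = 2
  · subst hq2
    obtain ⟨j, hj⟩ := hOq ⟨x, hx⟩
    have hj' : x ^ 2 ^ j = 1 := by
      have := congrArg Subtype.val hj
      simpa using this
    have hx1 : x = 1 := eq_one_of_pow_prime_pow Nat.prime_two h2H hj'
    rw [hx1, mul_one, one_mul]
  by_cases hqr : q = r
  · subst hqr
    have hx1 := cent2_rpart_trivial σ N hσN hmin q hq hrN C hCdef hC O hOn hOmap hOq x hx
    rw [hx1, mul_one, one_mul]
  have hr2 : r ≠ 2 := by
    rintro rfl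
    exact h2G (hrN.trans (Subgroup.card_subgroup_dvd_card N))
  have hOinv : ∀ y ∈ O, quotAut σ C hC y ∈ O := fun y hy => mem_of_map_eq hOmap hy
  obtain ⟨gy, rfl⟩ := QuotientGroup.mk_surjective y
  obtain ⟨gx, rfl⟩ := QuotientGroup.mk_surjective x
  have hcomm := hA N (fun x y => Subtype.ext (hab x x.2 y y.2)) r q s n hr
    (fun x => Subtype.ext (by rw [Subgroup.coe_pow]; exact hexp x x.2)) hq hs hr2 hq2 hs2 hqr hqs
    ((O.comap (QuotientGroup.mk' C)).map (MulAut.conjNormal : G →* MulAut N))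
    ((S.comap (QuotientGroup.mk' C)).map (MulAut.conjNormal : G →* MulAut N))
    (resAut σ N hmapN) (cent2_img_isPGroup N C hCdef O hOq) (cent2_img_isPGroup N C hCdef S hSs)
    (by
      ext x
      rw [res_pow_coe, hσ]
      rfl)
    (cent2_img_inv σ N hmapN C hC O hOinv) (cent2_img_inv σ N hmapN C hC S hSinv)
    (by
      rintro _ ⟨g₁, hg₁, rfl⟩ _ ⟨g₂, hg₂, rfl⟩
      rw [← map_inv, ← map_mul, ← map_mul]
      refine Subgroup.mem_map_of_mem _ ?_
      show QuotientGroup.mk' C (g₁ * g₂ * g₁⁻¹) ∈ O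
      rw [map_mul, map_mul, map_inv]
      exact hOn.conj_mem _ hg₂ _)
    (cent2_img_fpf σ hfpf N hmapN C hCdef hC O) (cent2_img_fpf σ hfpf N hmapN C hCdef hC S)
    (resAut_fpf σ N hmapN hfpf)
    (MulAut.conjNormal gy) (Subgroup.mem_map_of_mem _ hy)
    (MulAut.conjNormal gx) (Subgroup.mem_map_of_mem _ hx)
  rw [res_pow_mul_conj, mul_inv_cancel_right, ← map_inv, ← map_mul, ← map_mul, ← map_mul]
    at hcomm
  have h2 : (MulAut.conjNormal ((gx * (gy⁻¹ * (σ ^ 2 ^ n) gy))⁻¹ *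
      (gy⁻¹ * (σ ^ 2 ^ n) gy * gx)) : MulAut N) = 1 := by
    rw [map_mul, map_inv, hcomm, inv_mul_cancel]
  rw [conjNormal_eq_one_iff, ← hCdef] at h2
  rw [quot_pow_mk]
  exact (QuotientGroup.eq.mpr h2).symm

end main

/-- **Piece CENT2 of S3795.** -/
theorem gross2_cent_of_aut (hA : Cfsg.Agent.Lib.Helper26.Gross2.Aut3Stmt.{u})
    (hF : Cfsg.Agent.Lib.Helper26.Gross2.Fit3Stmt.{u}) :
    Cfsg.Agent.Lib.Helper26.Gross2.Cent2Stmt.{u} := by
  intro G _ _ hG σ n hσ hfpf ih N hNn hN0 hσN hmin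
  have hab := min_inv_abelian hG σ N hN0 hσN hmin
  obtain ⟨r, hr, hrN, hexp⟩ := min_inv_exponent σ N hN0 hσN hmin hab
  have hmapN : N.map (σ : G →* G) = N := map_eq_of_forall_mem σ N hσN
  have hCn : (Subgroup.centralizer (N : Set G)).Normal := centralizer_normal N
  have hC : (Subgroup.centralizer (N : Set G)).map (σ : G →* G)
      = Subgroup.centralizer (N : Set G) :=
    map_eq_of_forall_mem σ _ (centralizer_invariant σ N hmapN)
  obtain ⟨C, hCdef⟩ : ∃ C : Subgroup G, C = Subgroup.centralizer (N : Set G) := ⟨_, rfl⟩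
  rw [← hCdef] at hCn hC ⊢
  have hNC : N ≤ C := by
    intro x hx
    rw [hCdef, Subgroup.mem_centralizer_iff]
    intro y hy
    exact hab y hy x hx
  have hσ' : (quotAut σ C hC : MulAut (G ⧸ C)) ^ 2 ^ (n + 1) = 1 :=
    mulAut_pow_eq_one _ (quotAut_pow σ C hC (mulAut_iterate_eq_id σ hσ))
  have hfpf' : ∀ h : G ⧸ C, (quotAut σ C hC : MulAut (G ⧸ C)) h = h → h = 1 :=
    quotAut_fpf σ C hC hfpf
  have hcard : Nat.card (G ⧸ C) < Nat.card G := by
    rw [Subgroup.card_eq_card_quotient_mul_card_subgroup C]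
    have h1 : 1 < Nat.card C :=
      C.one_lt_card_iff_ne_bot.mpr (fun h => hN0 (le_bot_iff.mp (h ▸ hNC)))
    have h2 : 0 < Nat.card (G ⧸ C) := Nat.card_pos
    nlinarith
  obtain ⟨A, hAn, hAσ, hFA, hlcs, hAψ⟩ :=
    ih (G ⧸ C) hcard inferInstance (quotAut σ C hC) hσ' hfpf'
  have hFn : (Cfsg.fittingSubgroup (G ⧸ C)).Normal := Cfsg.Agent.Lib.Helper30.fitting_normal
  have hFmap : (Cfsg.fittingSubgroup (G ⧸ C)).map
      ((quotAut σ C hC : G ⧸ C ≃* G ⧸ C) : G ⧸ C →* G ⧸ C) = Cfsg.fittingSubgroup (G ⧸ C) :=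
    Cfsg.Agent.Lib.Helper30.fitting_map_equiv (quotAut σ C hC)
  have claim : ∀ h : G ⧸ C, h⁻¹ * ((quotAut σ C hC : MulAut (G ⧸ C)) ^ 2 ^ n) h ∈
      Cfsg.fittingSubgroup (G ⧸ C) := by
    apply cent2_lang_mem_of_sylow
    intro s hs
    have : Fact s.Prime := ⟨hs⟩
    obtain ⟨P, hP⟩ := cent2_exists_inv_sylow (quotAut σ C hC : MulAut (G ⧸ C)) hfpf' s
    refine ⟨(P : Subgroup (G ⧸ C)), P.not_dvd_index, ?_⟩
    intro y hy
    have hPpow : ∀ k : ℕ, ∀ z ∈ (P : Subgroup (G ⧸ C)),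
        ((quotAut σ C hC : MulAut (G ⧸ C)) ^ k) z ∈ (P : Subgroup (G ⧸ C)) := by
      intro k
      induction k with
      | zero =>
        intro z hz
        simpa using hz
      | succ k ihk =>
        intro z hz
        rw [pow_succ', MulAut.mul_apply]
        exact hP _ (ihk z hz)
    have hcP : y⁻¹ * ((quotAut σ C hC : MulAut (G ⧸ C)) ^ 2 ^ n) y ∈ (P : Subgroup (G ⧸ C)) :=
      Subgroup.mul_mem _ (Subgroup.inv_mem _ hy) (hPpow _ y hy)
    apply hF (G ⧸ C) A hAn hFA hlcs s hs _ (hAψ y)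
    · obtain ⟨j, hj⟩ := P.isPGroup' ⟨_, hcP⟩
      exact ⟨j, by simpa using congrArg Subtype.val hj⟩
    · intro q hq hqs x hxF hxq
      have : Fact q.Prime := ⟨hq⟩
      obtain ⟨O, hO⟩ := exists_tPart (Cfsg.fittingSubgroup (G ⧸ C))
        Cfsg.Agent.Lib.Helper30.fitting_nilpotent q
      have hOn : O.Normal := tPart_normal hO
      have hOmap := tPart_map (quotAut σ C hC) hFmap hO
      exact cent2_comm_of_aut hA σ n hσ hfpf N hσN hmin hab r hr hrN hexp C hCdef hC q s hq hs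
        hqs O hOn hOmap (tPart_isPGroup hO) (P : Subgroup (G ⧸ C)) hP P.isPGroup' y hy x
        ((hO x).mpr ⟨hxF, hxq⟩)
  refine ⟨(Cfsg.fittingSubgroup (G ⧸ C)).comap (QuotientGroup.mk' C), hFn.comap _, ?_, ?_, ?_⟩
  · intro x hx
    exact mem_of_map_eq hFmap
      (show QuotientGroup.mk' C x ∈ Cfsg.fittingSubgroup (G ⧸ C) from hx)
  · obtain ⟨k, hk⟩ := (Subgroup.isNilpotent_iff_lowerCentralSeries _).mp
      (Cfsg.Agent.Lib.Helper30.fitting_nilpotent (G := G ⧸ C))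
    refine ⟨k, ?_⟩
    have h1 : (((Cfsg.fittingSubgroup (G ⧸ C)).comap
        (QuotientGroup.mk' C)).lowerCentralSeries k).map (QuotientGroup.mk' C) = ⊥ := by
      rw [Subgroup.map_lowerCentralSeries,
        Subgroup.map_comap_eq_self_of_surjective (QuotientGroup.mk'_surjective C), hk]
    rw [Subgroup.map_eq_bot_iff, QuotientGroup.ker_mk'] at h1
    exact h1
  · intro g
    show QuotientGroup.mk' C (g⁻¹ * (σ ^ 2 ^ n) g) ∈ Cfsg.fittingSubgroup (G ⧸ C)
    have h1 := claim (QuotientGroup.mk g)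
    rw [quot_pow_mk] at h1
    exact h1

end Cfsg.Agent.Lib.Helper68.Gross2CENT2
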