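import Mathlib
import Cfsg.Prelude.Def_GeometricClasses
import Cfsg.Prelude.Def_LieClassical

/-! Piece TG of sub-project TIF (helper71, S5662): the Gram matrix of a symplectic form in
rectangular coordinates, delivered by helper68. -/

set_option autoImplicit false
set_option linter.unusedVariables false
set_option linter.unusedSectionVars false

namespace Cfsg.Agent.Lib.Helper68.TIFTG

open Matrix Cfsg.Geo

variable {n : ℕ} {F : Type*} [Field F] [Fintype F]

omit [Fintype F] in
/-- a bilinear form vanishes at zero on the left -/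
theorem tg_zero_left {ι : Type} [Fintype ι] [DecidableEq ι] (f : (ι → F) → (ι → F) → F)
    (hb : IsBilinearForm f) (w : ι → F) : f 0 w = 0 := by
  have h := hb.smul_left 0 0 w
  rw [zero_smul, zero_mul] at h
  exact h

omit [Fintype F] in
/-- a bilinear form vanishes at zero on the right -/
theorem tg_zero_right {ι : Type} [Fintype ι] [DecidableEq ι] (f : (ι → F) → (ι → F) → F)
    (hb : IsBilinearForm f) (w : ι → F) : f w 0 = 0 := by
  have h := hb.smul_right 0 w 0
  rw [zero_smul, zero_mul] at h
  exact h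

omit [Fintype F] in
/-- expansion of a bilinear form on the left -/
theorem tg_sum_left {ι : Type} [Fintype ι] [DecidableEq ι] (f : (ι → F) → (ι → F) → F)
    (hb : IsBilinearForm f) {J : Type} (s : Finset J) (c : J → F) (v : J → ι → F) (w : ι → F) :
    f (∑ a ∈ s, c a • v a) w = ∑ a ∈ s, c a * f (v a) w := by
  classical
  induction s using Finset.induction_on with
  | empty => simp [tg_zero_left f hb]
  | insert a s ha ih =>
    rw [Finset.sum_insert ha, Finset.sum_insert ha, hb.add_left, hb.smul_left, ih]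

omit [Fintype F] in
/-- expansion of a bilinear form on the right -/
theorem tg_sum_right {ι : Type} [Fintype ι] [DecidableEq ι] (f : (ι → F) → (ι → F) → F)
    (hb : IsBilinearForm f) {J : Type} (s : Finset J) (c : J → F) (v : J → ι → F) (w : ι → F) :
    f w (∑ a ∈ s, c a • v a) = ∑ a ∈ s, c a * f w (v a) := by
  classical
  induction s using Finset.induction_on with
  | empty => simp [tg_zero_right f hb]
  | insert a s ha ih =>
    rw [Finset.sum_insert ha, Finset.sum_insert ha, hb.add_right, hb.smul_right, ih]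

omit [Fintype F] in
/-- a vector in rectangular coordinates as a combination of the images of the basis vectors -/
theorem tg_mulVec_eq {I : Type} [Fintype I] [DecidableEq I] (P : Matrix (Fin n) I F)
    (x : I → F) : P *ᵥ x = ∑ a, x a • (P *ᵥ Pi.single a 1) := by
  funext i
  rw [Finset.sum_apply]
  simp only [Pi.smul_apply, Matrix.mulVec_single_one, Matrix.col_apply, smul_eq_mul]
  rw [Matrix.mulVec, dotProduct]
  exact Finset.sum_congr rfl fun a _ => mul_comm _ _

/-- TG: the Gram matrix of a symplectic form in rectangular coordinates. -/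
theorem TG (hn : 1 ≤ n) (f : (Fin n → F) → (Fin n → F) → F) (hf : IsSymplecticForm f) {I : Type}
    [Fintype I] [DecidableEq I] (P : Matrix (Fin n) I F) (Q : Matrix I (Fin n) F)
    (hPQ : P * Q = 1) (hQP : Q * P = 1) :
    ∃ G : Matrix I I F, G ≠ 0 ∧ Gᵀ = -G ∧ (∀ a, G a a = 0) ∧
      (∀ x y : I → F, f (P *ᵥ x) (P *ᵥ y) = ∑ a, ∑ b, x a * G a b * y b) ∧
      (∀ (h : Matrix (Fin n) (Fin n) F) (g : Matrix I I F),
        (∀ u v, f (h *ᵥ u) (h *ᵥ v) = f u v) → Q * h * P = g → gᵀ * G * g = G) := by
  have hform : ∀ x y : I → F, f (P *ᵥ x) (P *ᵥ y) =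
      ∑ a, ∑ b, x a * f (P *ᵥ Pi.single a 1) (P *ᵥ Pi.single b 1) * y b := by
    intro x y
    rw [tg_mulVec_eq P x, tg_sum_left f hf.bilinear]
    refine Finset.sum_congr rfl fun a _ => ?_
    rw [tg_mulVec_eq P y, tg_sum_right f hf.bilinear, Finset.mul_sum]
    refine Finset.sum_congr rfl fun b _ => ?_
    ring
  refine ⟨Matrix.of fun a b => f (P *ᵥ Pi.single a 1) (P *ᵥ Pi.single b 1), ?_, ?_, ?_, ?_, ?_⟩
  · intro hG
    have hv : (fun _ : Fin n => (1 : F)) ≠ 0 := by
      intro h0
      have := congrFun h0 ⟨0, hn⟩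
      simp at this
    obtain ⟨w, hw⟩ := (hf.nondegenerate _ hv).2
    apply hw
    have h1 : ∀ u : Fin n → F, P *ᵥ (Q *ᵥ u) = u := by
      intro u
      rw [Matrix.mulVec_mulVec, hPQ, Matrix.one_mulVec]
    rw [← h1 (fun _ : Fin n => (1 : F)), ← h1 w, hform]
    refine Finset.sum_eq_zero fun a _ => Finset.sum_eq_zero fun b _ => ?_
    have h2 := congrFun (congrFun hG a) b
    rw [Matrix.of_apply, Matrix.zero_apply] at h2
    rw [h2, mul_zero, zero_mul]
  · ext a b
    rw [Matrix.transpose_apply, Matrix.neg_apply, Matrix.of_apply, Matrix.of_apply]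
    exact hf.skew _ _
  · intro a
    rw [Matrix.of_apply]
    exact hf.alternating _
  · intro x y
    rw [hform]
    rfl
  · intro h g hh hg
    ext a b
    have h1 : ∀ u : I → F, P *ᵥ (g *ᵥ u) = h *ᵥ (P *ᵥ u) := by
      intro u
      rw [← hg, Matrix.mulVec_mulVec, Matrix.mulVec_mulVec]
      congr 1
      rw [← Matrix.mul_assoc, ← Matrix.mul_assoc, hPQ, Matrix.one_mul]
    have h2 : f (P *ᵥ (g *ᵥ Pi.single a 1)) (P *ᵥ (g *ᵥ Pi.single b 1)) =
        f (P *ᵥ Pi.single a 1) (P *ᵥ Pi.single b 1) := by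
      rw [h1, h1, hh]
    rw [hform] at h2
    rw [Matrix.of_apply, ← h2, Matrix.mul_apply]
    simp only [Matrix.mul_apply, Matrix.transpose_apply, Matrix.of_apply,
      Matrix.mulVec_single_one, Matrix.col_apply, Finset.sum_mul]
    exact Finset.sum_comm

end Cfsg.Agent.Lib.Helper68.TIFTG
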