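import Mathlib

/-!
# S2041 piece J3M-ABEL3 (helper68, for helper37): lifts of three commuting elements commute
-/

set_option autoImplicit false
set_option linter.unusedSimpArgs false

open scoped commutatorElement

universe u v

namespace Cfsg.Agent.Lib.Helper68.J3MABEL3

section Pairing

variable {Γ : Type u} [Group Γ] (H : Subgroup Γ)

/-- the commutator pairing on a subgroup -/
def bb (U V : H) : Γ := ⁅(U : Γ), (V : Γ)⁆

variable {H}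

theorem bb_mul_left (hcen : ∀ u ∈ H, ∀ v ∈ H, ⁅u, v⁆ ∈ Subgroup.center Γ) (U U' V : H) :
    bb H (U * U') V = bb H U V * bb H U' V := by
  have hc := Subgroup.mem_center_iff.1 (hcen U'.1 U'.2 V.1 V.2)
  unfold bb
  rw [Subgroup.coe_mul]
  have e : ⁅(U : Γ) * (U' : Γ), (V : Γ)⁆ = (U : Γ) * ⁅(U' : Γ), (V : Γ)⁆ * ((V : Γ) * (U : Γ)⁻¹ * (V : Γ)⁻¹) := by
    simp only [commutatorElement_def]
    group
  calc ⁅(U : Γ) * (U' : Γ), (V : Γ)⁆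
      = (U : Γ) * ⁅(U' : Γ), (V : Γ)⁆ * ((V : Γ) * (U : Γ)⁻¹ * (V : Γ)⁻¹) := e
    _ = ⁅(U' : Γ), (V : Γ)⁆ * (U : Γ) * ((V : Γ) * (U : Γ)⁻¹ * (V : Γ)⁻¹) := by rw [hc (U : Γ)]
    _ = ⁅(U' : Γ), (V : Γ)⁆ * ⁅(U : Γ), (V : Γ)⁆ := by
      simp only [commutatorElement_def]
      group
    _ = ⁅(U : Γ), (V : Γ)⁆ * ⁅(U' : Γ), (V : Γ)⁆ := (hc _).symm

theorem bb_mul_right (hcen : ∀ u ∈ H, ∀ v ∈ H, ⁅u, v⁆ ∈ Subgroup.center Γ) (U V V' : H) :
    bb H U (V * V') = bb H U V * bb H U V' := by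
  have hc := Subgroup.mem_center_iff.1 (hcen U.1 U.2 V'.1 V'.2)
  unfold bb
  rw [Subgroup.coe_mul]
  have e : ⁅(U : Γ), (V : Γ) * (V' : Γ)⁆ = (U : Γ) * (V : Γ) * (U : Γ)⁻¹ * (⁅(U : Γ), (V' : Γ)⁆ * (V : Γ)⁻¹) := by
    simp only [commutatorElement_def]
    group
  rw [e, ← hc ((V : Γ)⁻¹)]
  simp only [commutatorElement_def]
  group

theorem bb_self (U : H) : bb H U U = 1 := by
  unfold bb
  exact commutatorElement_self _

theorem bb_swap (U V : H) : bb H V U = (bb H U V)⁻¹ := by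
  unfold bb
  exact (commutatorElement_inv _ _).symm

theorem bb_central_left {K : H} (hK : (K : Γ) ∈ Subgroup.center Γ) (V : H) : bb H K V = 1 := by
  unfold bb
  rw [commutatorElement_eq_one_iff_mul_comm]
  exact (Subgroup.mem_center_iff.1 hK (V : Γ)).symm

theorem bb_central_right {K : H} (hK : (K : Γ) ∈ Subgroup.center Γ) (U : H) : bb H U K = 1 := by
  unfold bb
  rw [commutatorElement_eq_one_iff_mul_comm]
  exact Subgroup.mem_center_iff.1 hK (U : Γ)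

theorem bb_one_left (V : H) : bb H 1 V = 1 := by
  unfold bb
  simp

theorem bb_one_right (U : H) : bb H U 1 = 1 := by
  unfold bb
  simp

theorem bb_pow_left (hcen : ∀ u ∈ H, ∀ v ∈ H, ⁅u, v⁆ ∈ Subgroup.center Γ) (U V : H) (n : ℕ) :
    bb H (U ^ n) V = bb H U V ^ n := by
  induction n with
  | zero => rw [pow_zero, pow_zero, bb_one_left]
  | succ n ih => rw [pow_succ, pow_succ, bb_mul_left hcen, ih]

theorem bb_pow_right (hcen : ∀ u ∈ H, ∀ v ∈ H, ⁅u, v⁆ ∈ Subgroup.center Γ) (U V : H) (n : ℕ) :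
    bb H U (V ^ n) = bb H U V ^ n := by
  induction n with
  | zero => rw [pow_zero, pow_zero, bb_one_right]
  | succ n ih => rw [pow_succ, pow_succ, bb_mul_right hcen, ih]

theorem bb_inv_left (hcen : ∀ u ∈ H, ∀ v ∈ H, ⁅u, v⁆ ∈ Subgroup.center Γ) (U V : H) :
    bb H U⁻¹ V = (bb H U V)⁻¹ := by
  have h := bb_mul_left hcen U⁻¹ U V
  rw [inv_mul_cancel, bb_one_left] at h
  exact eq_inv_of_mul_eq_one_left h.symm

theorem bb_conj (hcen : ∀ u ∈ H, ∀ v ∈ H, ⁅u, v⁆ ∈ Subgroup.center Γ) (γ : Γ) (U V U' V' : H)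
    (hU : (U' : Γ) = γ * U * γ⁻¹) (hV : (V' : Γ) = γ * V * γ⁻¹) : bb H U' V' = bb H U V := by
  have hc := Subgroup.mem_center_iff.1 (hcen U.1 U.2 V.1 V.2)
  unfold bb
  rw [hU, hV]
  have e : ⁅γ * (U : Γ) * γ⁻¹, γ * (V : Γ) * γ⁻¹⁆ = γ * ⁅(U : Γ), (V : Γ)⁆ * γ⁻¹ := by
    simp only [commutatorElement_def]
    group
  rw [e, hc γ, mul_inv_cancel_right]

end Pairing


theorem lifts_commute {Γ : Type u} {G : Type v} [Group Γ] [Group G] (σ : Γ →* G)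
    (hc : σ.ker ≤ Subgroup.center Γ) (a t₁ t₂ c : G)
    (h12 : t₁ * t₂ = t₂ * t₁) (ha1 : a * t₁ = t₁ * a) (ha2 : a * t₂ = t₂ * a)
    (ht13 : t₁ ^ 3 = 1) (ht23 : t₂ ^ 3 = 1)
    (hca : ∃ i j : ℕ, c * a * c⁻¹ = a⁻¹ * (t₁ ^ i * t₂ ^ j))
    (hct1 : c * t₁ * c⁻¹ = t₁ ^ 2 * t₂) (hct2 : c * t₂ * c⁻¹ = t₁ ^ 2 * t₂ ^ 2)
    (α β₁ β₂ : Γ) (hα : σ α = a) (hβ1 : σ β₁ = t₁) (hβ2 : σ β₂ = t₂) (hcr : c ∈ σ.range) :
    α * β₁ = β₁ * α ∧ α * β₂ = β₂ * α ∧ β₁ * β₂ = β₂ * β₁ := by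
  obtain ⟨γ, hγ⟩ := hcr
  obtain ⟨i, j, hca⟩ := hca
  obtain ⟨D, hDdef⟩ : ∃ D : Subgroup G, D = Subgroup.closure ({a, t₁, t₂} : Set G) := ⟨_, rfl⟩
  have haD : a ∈ D := by rw [hDdef]; exact Subgroup.subset_closure (by simp)
  have ht1D : t₁ ∈ D := by rw [hDdef]; exact Subgroup.subset_closure (by simp)
  have ht2D : t₂ ∈ D := by rw [hDdef]; exact Subgroup.subset_closure (by simp)
  have hDcomm : ∀ x ∈ D, ∀ y ∈ D, x * y = y * x := by
    have h1 : D ≤ Subgroup.centralizer ({a, t₁, t₂} : Set G) := by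
      rw [hDdef, Subgroup.closure_le]
      intro x hx
      rw [SetLike.mem_coe, Subgroup.mem_centralizer_iff]
      intro y hy
      simp only [Set.mem_insert_iff, Set.mem_singleton_iff] at hx hy
      rcases hx with rfl | rfl | rfl <;> rcases hy with rfl | rfl | rfl
      all_goals first | rfl | exact ha1 | exact ha1.symm | exact ha2 | exact ha2.symm | exact h12 | exact h12.symm
    intro x hx y hy
    rw [hDdef] at hy
    have hy' := Subgroup.closure_le_centralizer_centralizer _ hy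
    exact Subgroup.mem_centralizer_iff.1 hy' x (h1 hx)
  obtain ⟨H, hHdef⟩ : ∃ H : Subgroup Γ, H = D.comap σ := ⟨_, rfl⟩
  have hmemH : ∀ u : Γ, u ∈ H ↔ σ u ∈ D := by
    intro u
    rw [hHdef, Subgroup.mem_comap]
  have hcen : ∀ u ∈ H, ∀ v ∈ H, ⁅u, v⁆ ∈ Subgroup.center Γ := by
    intro u hu v hv
    apply hc
    rw [MonoidHom.mem_ker, map_commutatorElement, commutatorElement_eq_one_iff_mul_comm]
    exact hDcomm _ ((hmemH u).1 hu) _ ((hmemH v).1 hv)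
  have hkerH : ∀ k : Γ, k ∈ σ.ker → k ∈ H := by
    intro k hk
    rw [hmemH, MonoidHom.mem_ker.1 hk]
    exact D.one_mem
  have hαH : α ∈ H := by rw [hmemH, hα]; exact haD
  have hβ1H : β₁ ∈ H := by rw [hmemH, hβ1]; exact ht1D
  have hβ2H : β₂ ∈ H := by rw [hmemH, hβ2]; exact ht2D
  obtain ⟨A, hA⟩ : ∃ A : H, (A : Γ) = α := ⟨⟨α, hαH⟩, rfl⟩
  obtain ⟨B1, hB1⟩ : ∃ B : H, (B : Γ) = β₁ := ⟨⟨β₁, hβ1H⟩, rfl⟩
  obtain ⟨B2, hB2⟩ : ∃ B : H, (B : Γ) = β₂ := ⟨⟨β₂, hβ2H⟩, rfl⟩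
  have hconjH : ∀ U : H, ∀ W : H, σ (γ * (U : Γ) * γ⁻¹) = σ (W : Γ) →
      ∃ K : H, (K : Γ) ∈ Subgroup.center Γ ∧ ((W * K : H) : Γ) = γ * (U : Γ) * γ⁻¹ := by
    intro U W hUW
    have hk : (W : Γ)⁻¹ * (γ * (U : Γ) * γ⁻¹) ∈ σ.ker := by
      rw [MonoidHom.mem_ker, map_mul, map_inv, hUW, inv_mul_cancel]
    refine ⟨⟨_, hkerH _ hk⟩, hc hk, ?_⟩
    rw [Subgroup.coe_mul]
    show (W : Γ) * ((W : Γ)⁻¹ * (γ * (U : Γ) * γ⁻¹)) = _
    group
  obtain ⟨KA, hKA, hUA⟩ := hconjH A (A⁻¹ * (B1 ^ i * B2 ^ j)) (by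
    rw [map_mul, map_mul, map_inv, hγ, hA, hα, hca]
    simp only [Subgroup.coe_mul, Subgroup.coe_inv, Subgroup.coe_pow, hA, hB1, hB2, map_mul,
      map_inv, map_pow, hα, hβ1, hβ2])
  obtain ⟨K1, hK1, hU1⟩ := hconjH B1 (B1 ^ 2 * B2) (by
    rw [map_mul, map_mul, map_inv, hγ, hB1, hβ1, hct1]
    simp only [Subgroup.coe_mul, Subgroup.coe_pow, hB1, hB2, map_mul, map_pow, hβ1, hβ2])
  obtain ⟨K2, hK2, hU2⟩ := hconjH B2 (B1 ^ 2 * B2 ^ 2) (by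
    rw [map_mul, map_mul, map_inv, hγ, hB2, hβ2, hct2]
    simp only [Subgroup.coe_mul, Subgroup.coe_pow, hB1, hB2, map_mul, map_pow, hβ1, hβ2])
  have E3 : bb H B1 B2 = bb H (B1 ^ 2 * B2 * K1) (B1 ^ 2 * B2 ^ 2 * K2) :=
    (bb_conj hcen γ B1 B2 _ _ hU1 hU2).symm
  have E1 : bb H A B1 = bb H (A⁻¹ * (B1 ^ i * B2 ^ j) * KA) (B1 ^ 2 * B2 * K1) :=
    (bb_conj hcen γ A B1 _ _ hUA hU1).symm
  have E2 : bb H A B2 = bb H (A⁻¹ * (B1 ^ i * B2 ^ j) * KA) (B1 ^ 2 * B2 ^ 2 * K2) :=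
    (bb_conj hcen γ A B2 _ _ hUA hU2).symm
  simp only [bb_mul_left hcen, bb_mul_right hcen, bb_pow_left hcen, bb_pow_right hcen,
    bb_inv_left hcen, bb_self, bb_central_left hK1, bb_central_left hK2, bb_central_left hKA,
    bb_central_right hK1, bb_central_right hK2, bb_central_right hKA, one_pow, mul_one,
    one_mul] at E1 E2 E3
  rw [bb_swap B1 B2] at E1 E2 E3
  have h3 : bb H B1 B2 = 1 := by
    have e : (bb H B1 B2 ^ 2) ^ 2 * (bb H B1 B2)⁻¹ ^ 2 = bb H B1 B2 ^ 2 := by group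
    rw [e, pow_two] at E3
    have h := mul_left_cancel (a := bb H B1 B2) (b := 1) (c := bb H B1 B2) (by
      rw [mul_one]
      exact E3)
    exact h.symm
  rw [h3] at E1 E2
  simp only [one_pow, inv_one, mul_one] at E1 E2
  have hk13 : bb H A B1 ^ 3 = 1 := by
    rw [← bb_pow_right hcen]
    apply bb_central_right
    apply hc
    rw [MonoidHom.mem_ker, Subgroup.coe_pow, hB1, map_pow, hβ1, ht13]
  have h2' : bb H A B2 = 1 := by
    have e1 : (bb H A B2)⁻¹ = bb H A B1 ^ 2 * ((bb H A B1)⁻¹ ^ 2 * (bb H A B2)⁻¹) := by group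
    rw [← E1] at e1
    have e2 : bb H A B1 ^ 2 * bb H A B1 = bb H A B1 ^ 3 := (pow_succ (bb H A B1) 2).symm
    rw [e2, hk13] at e1
    exact inv_eq_one.1 e1
  rw [h2'] at E2
  simp only [inv_one, one_pow, mul_one] at E2
  have h1' : bb H A B1 = 1 := by
    have e3 : bb H A B1 = bb H A B1 ^ 3 * (bb H A B1)⁻¹ ^ 2 := by group
    rw [hk13, ← E2, mul_one] at e3
    exact e3
  refine ⟨?_, ?_, ?_⟩
  · have h := h1'
    unfold bb at h
    rw [hA, hB1] at h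
    exact commutatorElement_eq_one_iff_mul_comm.1 h
  · have h := h2'
    unfold bb at h
    rw [hA, hB2] at h
    exact commutatorElement_eq_one_iff_mul_comm.1 h
  · have h := h3
    unfold bb at h
    rw [hB1, hB2] at h
    exact commutatorElement_eq_one_iff_mul_comm.1 h

end Cfsg.Agent.Lib.Helper68.J3MABEL3
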