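import Mathlib
import Cfsg.Prelude.Def_GeometricClasses
import Cfsg.Prelude.Def_LieClassical
import Cfsg.Agent.Lib.Helper71.Asch5
import Cfsg.Agent.Lib.Helper44.BADDefs

/-! Project BAD (helper44; sub-project of helper49's SUG = S5663), piece SCOM, delivered by
helper68: commutators in `bS` are scalar. -/

set_option autoImplicit false
set_option linter.unusedSectionVars false
set_option linter.unusedVariables false
set_option linter.unusedSimpArgs false
set_option linter.unnecessarySeqFocus false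

namespace Cfsg.Agent.Lib.Helper44.BAD

open Matrix Cfsg.Geo Cfsg.Agent.Lib.Helper71.Asch
open scoped Kronecker

variable {n : ℕ} {F : Type*} [Field F] [Fintype F] {q : ℕ}

/-- the key identity `Y * D(d) = d² • (D(d) * Y)` -/
theorem SCOM_aux1 (hF : Fintype.card F = 4) (d : F) (hd : d ≠ 0) :
    bY F * Matrix.diagonal ![1, d, d ^ 2] = d ^ 2 • (Matrix.diagonal ![1, d, d ^ 2] * bY F) := by
  have hd3 : d ^ 3 = 1 := by
    have h := FiniteField.pow_card_sub_one_eq_one d hd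
    rw [hF] at h
    exact h
  ext i j
  fin_cases i <;> fin_cases j <;>
    simp [bY, Matrix.mul_apply, Fin.sum_univ_three, Matrix.diagonal_apply] <;>
    first
      | linear_combination hd3
      | linear_combination -hd3
      | linear_combination d * hd3
      | linear_combination -d * hd3

/-- the key identity for powers of `Y` -/
theorem SCOM_aux2 (hF : Fintype.card F = 4) (d : F) (hd : d ≠ 0) (k : ℕ) :
    bY F ^ k * Matrix.diagonal ![1, d, d ^ 2]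
      = (d ^ 2) ^ k • (Matrix.diagonal ![1, d, d ^ 2] * bY F ^ k) := by
  induction k with
  | zero => simp
  | succ k ih =>
    calc bY F ^ (k + 1) * Matrix.diagonal ![1, d, d ^ 2]
        = bY F ^ k * (bY F * Matrix.diagonal ![1, d, d ^ 2]) := by
          rw [pow_succ, Matrix.mul_assoc]
      _ = d ^ 2 • ((bY F ^ k * Matrix.diagonal ![1, d, d ^ 2]) * bY F) := by
          rw [SCOM_aux1 hF d hd, Matrix.mul_smul, Matrix.mul_assoc]
      _ = (d ^ 2) ^ (k + 1) • (Matrix.diagonal ![1, d, d ^ 2] * bY F ^ (k + 1)) := by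
          rw [ih, Matrix.smul_mul, smul_smul, Matrix.mul_assoc, ← pow_succ, ← pow_succ']

/-- the product of two elements in normal form -/
theorem SCOM_aux3 (hF : Fintype.card F = 4) (d₁ d₂ : F) (hd₂ : d₂ ≠ 0) (k₁ k₂ : ℕ) :
    Matrix.diagonal ![1, d₁, d₁ ^ 2] * bY F ^ k₁ * (Matrix.diagonal ![1, d₂, d₂ ^ 2] * bY F ^ k₂)
      = (d₂ ^ 2) ^ k₁ • (Matrix.diagonal ![1, d₁, d₁ ^ 2] * Matrix.diagonal ![1, d₂, d₂ ^ 2]
          * bY F ^ (k₁ + k₂)) := by
  calc Matrix.diagonal ![1, d₁, d₁ ^ 2] * bY F ^ k₁ * (Matrix.diagonal ![1, d₂, d₂ ^ 2] * bY F ^ k₂)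
      = Matrix.diagonal ![1, d₁, d₁ ^ 2] * (bY F ^ k₁ * Matrix.diagonal ![1, d₂, d₂ ^ 2])
          * bY F ^ k₂ := by simp only [Matrix.mul_assoc]
    _ = (d₂ ^ 2) ^ k₁ • (Matrix.diagonal ![1, d₁, d₁ ^ 2] * Matrix.diagonal ![1, d₂, d₂ ^ 2]
          * bY F ^ (k₁ + k₂)) := by
        rw [SCOM_aux2 hF d₂ hd₂ k₁, Matrix.mul_smul, Matrix.smul_mul, pow_add]
        simp only [Matrix.mul_assoc]

/-- SCOM: commutators in `bS` are scalar. -/
theorem SCOM (hF : Fintype.card F = 4) : SCOMp F := by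
  rintro M ⟨c₁, d₁, k₁, hc₁, hd₁, rfl⟩ M' ⟨c₂, d₂, k₂, hc₂, hd₂, rfl⟩
  refine ⟨(d₂ ^ 2) ^ k₁ * ((d₁ ^ 2) ^ k₂)⁻¹,
    mul_ne_zero (pow_ne_zero _ (pow_ne_zero _ hd₂))
      (inv_ne_zero (pow_ne_zero _ (pow_ne_zero _ hd₁))), ?_⟩
  have hcomm : Matrix.diagonal ![1, d₂, d₂ ^ 2] * Matrix.diagonal ![1, d₁, d₁ ^ 2]
      = Matrix.diagonal ![1, d₁, d₁ ^ 2] * Matrix.diagonal ![1, d₂, d₂ ^ 2] := by
    rw [Matrix.diagonal_mul_diagonal, Matrix.diagonal_mul_diagonal]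
    congr 1
    funext i
    exact mul_comm _ _
  have hne : (d₁ ^ 2) ^ k₂ ≠ 0 := pow_ne_zero _ (pow_ne_zero _ hd₁)
  rw [Matrix.smul_mul, Matrix.mul_smul, Matrix.smul_mul, Matrix.mul_smul,
    SCOM_aux3 hF d₁ d₂ hd₂ k₁ k₂, SCOM_aux3 hF d₂ d₁ hd₁ k₂ k₁, hcomm, add_comm k₂ k₁]
  simp only [smul_smul]
  congr 1
  field_simp

end Cfsg.Agent.Lib.Helper44.BAD
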