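import Mathlib
import Cfsg.Prelude.Def_GeometricClasses
import Cfsg.Prelude.Def_LieClassical
import Cfsg.Agent.Lib.Helper71.SUP0

/-!
Project SUQ (S5841, architect helper50), piece ADJ (helper68): a field subalgebra in the centre of
the commutant of a homogeneous subgroup of `GU` is closed under adjoints for the hermitian form.
Hermitian twin of `Cfsg/Agent/Lib/Helper89/SPPADJ.lean` (the adjoint is the conjugate transpose
`SUP.adj` of `Cfsg/Agent/Lib/Helper71/SUP0.lean`; it is only semilinear, so the dimension of the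
image of `K` is computed by counting).
-/

set_option autoImplicit false
set_option linter.unusedVariables false

namespace Cfsg.Agent.Lib.Helper68.SUQADJ

open Matrix Cfsg.Geo

variable {n : ℕ} {F : Type*} [Field F] [Fintype F] {q : ℕ}

/-- ADJ: a field subalgebra in the centre of the commutant of a homogeneous subgroup of `GU`
is closed under adjoints. -/
theorem ADJ (hF : Fintype.card F = q ^ 2) (hn : 1 ≤ n) (L : Subgroup (GL (Fin n) F))
    (hL : L ≤ Cfsg.GU n F q)
    (hhom : ∀ W : Submodule F (Fin n → F), (∀ x ∈ L, W.map (Matrix.toLin' x.1) ≤ W) →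
      (∀ X : Matrix (Fin n) (Fin n) F, (∀ x ∈ L, X * x.1 = x.1 * X) →
        W.map (Matrix.toLin' X) ≤ W) →
      W = ⊥ ∨ W = ⊤)
    (huniq : ∀ Z : Subalgebra F (Matrix (Fin n) (Fin n) F),
      (∀ x ∈ Z, ∀ y ∈ Z, x * y = y * x) → (∀ x ∈ Z, x ≠ 0 → ∃ y ∈ Z, x * y = 1) →
      ∀ (r : ℕ) (K K' : Subalgebra F (Matrix (Fin n) (Fin n) F)), IsFieldSubalgebra r K →
        IsFieldSubalgebra r K' → K ≤ Z → K' ≤ Z → K = K')
    (r : ℕ) (K : Subalgebra F (Matrix (Fin n) (Fin n) F)) (hK : IsFieldSubalgebra r K)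
    (hKc : ∀ z ∈ K, (∀ x ∈ L, z * x.1 = x.1 * z) ∧
      ∀ X : Matrix (Fin n) (Fin n) F, (∀ x ∈ L, X * x.1 = x.1 * X) → z * X = X * z) :
    IsAdjointClosedFor (Cfsg.hermForm n F q) K := by
  classical
  obtain ⟨adj, hadjdef⟩ : ∃ adj : Matrix (Fin n) (Fin n) F → Matrix (Fin n) (Fin n) F,
      adj = Cfsg.Agent.Lib.Helper71.SUP.adj q := ⟨_, rfl⟩
  have hadj : ∀ (X : Matrix (Fin n) (Fin n) F) (u v : Fin n → F),
      Cfsg.hermForm n F q (X *ᵥ u) v = Cfsg.hermForm n F q u (adj X *ᵥ v) := by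
    intro X u v
    rw [hadjdef]
    exact Cfsg.Agent.Lib.Helper71.SUP.hf_adj hF X u v
  have adj_adj : ∀ X, adj (adj X) = X := by
    intro X
    rw [hadjdef]
    exact Cfsg.Agent.Lib.Helper71.SUP.adj_adj hF X
  have adj_mul : ∀ X X', adj (X * X') = adj X' * adj X := by
    intro X X'
    rw [hadjdef]
    exact Cfsg.Agent.Lib.Helper71.SUP.adj_mul hF X X'
  have adj_add : ∀ X X', adj (X + X') = adj X + adj X' := by
    intro X X'
    rw [hadjdef]
    exact Cfsg.Agent.Lib.Helper71.SUP.adj_add hF X X'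
  have adj_smul : ∀ (c : F) X, adj (c • X) = c ^ q • adj X := by
    intro c X
    rw [hadjdef]
    exact Cfsg.Agent.Lib.Helper71.SUP.adj_smul c X
  have adj_one : adj 1 = 1 := by
    rw [hadjdef]
    exact Cfsg.Agent.Lib.Helper71.SUP.adj_one hF
  have adj_zero : adj 0 = 0 := by
    rw [hadjdef]
    exact Cfsg.Agent.Lib.Helper71.SUP.adj_zero hF
  -- the adjoint preserves the commutant
  have hC : ∀ X : Matrix (Fin n) (Fin n) F, (∀ x ∈ L, X * x.1 = x.1 * X) →
      ∀ x ∈ L, adj X * x.1 = x.1 * adj X := by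
    intro X hX x hx
    rw [hadjdef]
    exact Cfsg.Agent.Lib.Helper71.SUP.adj_comm hF (hL hx) (hX x hx)
  -- the centre of the commutant
  let Zc : Subalgebra F (Matrix (Fin n) (Fin n) F) :=
    { carrier := {z | (∀ x ∈ L, z * x.1 = x.1 * z) ∧
        ∀ X : Matrix (Fin n) (Fin n) F, (∀ x ∈ L, X * x.1 = x.1 * X) → z * X = X * z}
      mul_mem' := by
        rintro a b ⟨ha1, ha2⟩ ⟨hb1, hb2⟩
        refine ⟨fun x hx => ?_, fun X hX => ?_⟩
        · rw [mul_assoc, hb1 x hx, ← mul_assoc, ha1 x hx, mul_assoc]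
        · rw [mul_assoc, hb2 X hX, ← mul_assoc, ha2 X hX, mul_assoc]
      add_mem' := by
        rintro a b ⟨ha1, ha2⟩ ⟨hb1, hb2⟩
        refine ⟨fun x hx => ?_, fun X hX => ?_⟩
        · rw [add_mul, mul_add, ha1 x hx, hb1 x hx]
        · rw [add_mul, mul_add, ha2 X hX, hb2 X hX]
      algebraMap_mem' := by
        intro c
        refine ⟨fun x _ => ?_, fun X _ => ?_⟩
        · exact Algebra.commutes c x.1
        · exact Algebra.commutes c X }
  have hmemZ : ∀ z, z ∈ Zc ↔ (∀ x ∈ L, z * x.1 = x.1 * z) ∧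
      ∀ X : Matrix (Fin n) (Fin n) F, (∀ x ∈ L, X * x.1 = x.1 * X) → z * X = X * z :=
    fun z => Iff.rfl
  have hZcomm : ∀ x ∈ Zc, ∀ y ∈ Zc, x * y = y * x := by
    intro x hx y hy
    exact ((hmemZ x).mp hx).2 y ((hmemZ y).mp hy).1
  have hZinv : ∀ x ∈ Zc, x ≠ 0 → ∃ y ∈ Zc, x * y = 1 := by
    intro z hz hz0
    obtain ⟨hz1, hz2⟩ := (hmemZ z).mp hz
    have key : ∀ A : Matrix (Fin n) (Fin n) F, z * A = A * z →
        (LinearMap.ker (Matrix.toLin' z)).map (Matrix.toLin' A) ≤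
          LinearMap.ker (Matrix.toLin' z) := by
      rintro A hA _ ⟨w, hw, rfl⟩
      rw [SetLike.mem_coe, LinearMap.mem_ker, Matrix.toLin'_apply] at hw
      rw [LinearMap.mem_ker, Matrix.toLin'_apply, Matrix.toLin'_apply, Matrix.mulVec_mulVec, hA,
        ← Matrix.mulVec_mulVec, hw, Matrix.mulVec_zero]
    rcases hhom _ (fun x hx => key x.1 (hz1 x hx)) (fun X hX => key X (hz2 X hX)) with
      hbot | htop
    · have hinj : Function.Injective z.mulVec := by
        intro a b hab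
        have h3 : a - b ∈ LinearMap.ker (Matrix.toLin' z) := by
          rw [LinearMap.mem_ker, Matrix.toLin'_apply, Matrix.mulVec_sub, hab, sub_self]
        rw [hbot, Submodule.mem_bot] at h3
        exact sub_eq_zero.mp h3
      have hu : IsUnit z := Matrix.mulVec_injective_iff_isUnit.mp hinj
      have hdet : IsUnit z.det := (Matrix.isUnit_iff_isUnit_det z).mp hu
      have h1 : z * z⁻¹ = 1 := Matrix.mul_nonsing_inv z hdet
      have h2 : z⁻¹ * z = 1 := Matrix.nonsing_inv_mul z hdet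
      have hcomm : ∀ A : Matrix (Fin n) (Fin n) F, z * A = A * z → z⁻¹ * A = A * z⁻¹ := by
        intro A hA
        calc z⁻¹ * A = z⁻¹ * A * (z * z⁻¹) := by rw [h1, mul_one]
          _ = z⁻¹ * (A * z) * z⁻¹ := by simp only [mul_assoc]
          _ = z⁻¹ * (z * A) * z⁻¹ := by rw [hA]
          _ = (z⁻¹ * z) * A * z⁻¹ := by simp only [mul_assoc]
          _ = A * z⁻¹ := by rw [h2, one_mul]
      exact ⟨z⁻¹, (hmemZ _).mpr ⟨fun x hx => hcomm x.1 (hz1 x hx),
        fun X hX => hcomm X (hz2 X hX)⟩, h1⟩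
    · exfalso
      apply hz0
      have h3 : Matrix.toLin' z = 0 := by
        apply LinearMap.ext
        intro v
        have hv : v ∈ LinearMap.ker (Matrix.toLin' z) := by rw [htop]; exact Submodule.mem_top
        rw [LinearMap.mem_ker] at hv
        rw [hv]; rfl
      exact Matrix.toLin'.injective (by rw [h3, map_zero])
  have hZadj : ∀ z ∈ Zc, adj z ∈ Zc := by
    intro z hz
    obtain ⟨hz1, hz2⟩ := (hmemZ z).mp hz
    refine (hmemZ _).mpr ⟨hC z hz1, fun X hX => ?_⟩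
    have h1 := hz2 (adj X) (hC X hX)
    have h2 := congrArg adj h1
    rw [adj_mul, adj_mul, adj_adj] at h2
    exact h2.symm
  -- the image of `K` under the adjoint
  let K' : Subalgebra F (Matrix (Fin n) (Fin n) F) :=
    { carrier := {Y | ∃ k ∈ K, adj k = Y}
      mul_mem' := by
        rintro _ _ ⟨a, ha, rfl⟩ ⟨b, hb, rfl⟩
        exact ⟨b * a, K.mul_mem hb ha, adj_mul b a⟩
      add_mem' := by
        rintro _ _ ⟨a, ha, rfl⟩ ⟨b, hb, rfl⟩
        exact ⟨a + b, K.add_mem ha hb, adj_add a b⟩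
      algebraMap_mem' := by
        intro c
        refine ⟨algebraMap F _ (c ^ q), K.algebraMap_mem (c ^ q), ?_⟩
        have h1 : adj (algebraMap F (Matrix (Fin n) (Fin n) F) c) =
            algebraMap F (Matrix (Fin n) (Fin n) F) (c ^ q) := by
          rw [Algebra.algebraMap_eq_smul_one, adj_smul, adj_one, Algebra.algebraMap_eq_smul_one]
        rw [← h1, adj_adj] }
  have hmemK' : ∀ Y, Y ∈ K' ↔ ∃ k ∈ K, adj k = Y := fun Y => Iff.rfl
  have hcard : Nat.card K' = Nat.card K := by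
    refine (Nat.card_congr (Equiv.ofBijective
      (fun k : K => (⟨adj k.1, (hmemK' _).mpr ⟨k.1, k.2, rfl⟩⟩ : K')) ⟨?_, ?_⟩)).symm
    · intro a b hab
      have h1 : adj a.1 = adj b.1 := congrArg Subtype.val hab
      have h2 := congrArg adj h1
      rw [adj_adj, adj_adj] at h2
      exact Subtype.ext h2
    · rintro ⟨Y, hY⟩
      obtain ⟨k, hk, rfl⟩ := (hmemK' Y).mp hY
      exact ⟨⟨k, hk⟩, rfl⟩
  have hfr : Module.finrank F K' = r := by
    rw [← hK.finrank_eq]
    have h1 : Nat.card K' = Nat.card F ^ Module.finrank F K' := Module.natCard_eq_pow_finrank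
    have h2 : Nat.card K = Nat.card F ^ Module.finrank F K := Module.natCard_eq_pow_finrank
    rw [hcard, h2] at h1
    have h3 : 2 ≤ Nat.card F := Finite.one_lt_card
    exact (Nat.pow_right_injective h3 h1).symm
  have hK' : IsFieldSubalgebra r K' := by
    refine ⟨?_, ?_, hfr⟩
    · intro Y hY Y' hY'
      obtain ⟨a, ha, rfl⟩ := (hmemK' Y).mp hY
      obtain ⟨b, hb, rfl⟩ := (hmemK' Y').mp hY'
      rw [← adj_mul, ← adj_mul, hK.comm b hb a ha]
    · intro Y hY hne
      obtain ⟨a, ha, rfl⟩ := (hmemK' Y).mp hY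
      have ha0 : a ≠ 0 := by
        rintro rfl
        exact hne adj_zero
      obtain ⟨b, hb, hab⟩ := hK.inv a ha ha0
      refine ⟨adj b, (hmemK' _).mpr ⟨b, hb, rfl⟩, ?_⟩
      rw [← adj_mul, hK.comm b hb a ha, hab, adj_one]
  have hKZ : K ≤ Zc := fun z hz => (hmemZ z).mpr (hKc z hz)
  have hK'Z : K' ≤ Zc := by
    intro Y hY
    obtain ⟨k, hk, rfl⟩ := (hmemK' Y).mp hY
    exact hZadj k (hKZ hk)
  have hEq : K = K' := huniq Zc hZcomm hZinv r K K' hK hK' hKZ hK'Z
  intro k hk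
  refine ⟨adj k, ?_, hadj k⟩
  exact (SetLike.ext_iff.mp hEq (adj k)).mpr ((hmemK' _).mpr ⟨k, hk, rfl⟩)

end Cfsg.Agent.Lib.Helper68.SUQADJ
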