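import Mathlib
import Cfsg.Agent.Lib.Helper45.MinIdxA
import Cfsg.Agent.Lib.Helper8.MinIdxLT1

/-! LTPP (job board piece for S2140, poster helper45): four small lemmas on `perp`. -/

set_option maxHeartbeats 400000
set_option autoImplicit false

namespace Cfsg.Agent.Lib.Helper68.MinIdx

open Matrix Cfsg.Agent.Lib.Helper50 Cfsg.Agent.Lib.Helper45.MinIdx

theorem card_perp {F : Type*} [Field F] [Fintype F] (p : ℕ) [Fact p.Prime] [CharP F p]
    (τ : F →+ ZMod p) (hτ : τ ≠ 0) (k : ℕ) (W : AddSubgroup (Fin k → F)) :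
    Nat.card (perp τ W) = W.index :=
  Cfsg.Agent.Lib.Helper8.MinIdx.perp_card p τ hτ k W

theorem perp_perp {F : Type*} [Field F] [Fintype F] (p : ℕ) [Fact p.Prime] [CharP F p]
    (τ : F →+ ZMod p) (hτ : τ ≠ 0) (k : ℕ) (W : AddSubgroup (Fin k → F)) :
    perp τ (perp τ W) = W := by
  have hle : W ≤ perp τ (perp τ W) := by
    intro w hw x hx
    rw [dotProduct_comm]
    exact hx w hw
  have h1 : Nat.card (perp τ (perp τ W)) = (perp τ W).index := card_perp p τ hτ k _
  have h2 : Nat.card (perp τ W) = W.index := card_perp p τ hτ k W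
  have h3 : Nat.card (perp τ W) * (perp τ W).index = Nat.card (Fin k → F) :=
    AddSubgroup.card_mul_index _
  have h4 : Nat.card W * W.index = Nat.card (Fin k → F) := AddSubgroup.card_mul_index _
  have hpos : 0 < W.index := Nat.pos_of_ne_zero AddSubgroup.index_ne_zero_of_finite
  have h5 : Nat.card (perp τ (perp τ W)) = Nat.card W := by
    rw [h1]
    have : W.index * (perp τ W).index = W.index * Nat.card W := by
      rw [← h2, h3, h2, mul_comm, h4]
    exact Nat.eq_of_mul_eq_mul_left hpos this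
  exact (AddSubgroup.eq_of_le_of_card_ge hle (le_of_eq h5)).symm

theorem perp_bot_top {F : Type*} [Field F] [Fintype F] (p : ℕ) [Fact p.Prime] [CharP F p]
    (τ : F →+ ZMod p) (hτ : τ ≠ 0) (k : ℕ) :
    perp τ (⊥ : AddSubgroup (Fin k → F)) = ⊤ ∧ perp τ (⊤ : AddSubgroup (Fin k → F)) = ⊥ := by
  constructor
  · rw [eq_top_iff]
    intro w _ x hx
    rw [AddSubgroup.mem_bot] at hx
    rw [hx, dotProduct_zero, map_zero]
  · have h1 : Nat.card (perp τ (⊤ : AddSubgroup (Fin k → F))) = 1 := by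
      rw [card_perp p τ hτ k, AddSubgroup.index_top]
    exact AddSubgroup.eq_bot_of_card_eq _ h1

theorem mem_perp_line {F : Type*} [Field F] {p : ℕ} (τ : F →+ ZMod p) (hτ : τ ≠ 0) (k : ℕ)
    (P : AddSubgroup (Fin k → F)) (w : Fin k → F) (hP : ∀ x, x ∈ P ↔ ∃ c : F, x = c • w)
    (x : Fin k → F) : x ∈ perp τ P ↔ w ⬝ᵥ x = 0 := by
  constructor
  · intro hx
    by_contra hd
    have hy : ∃ y, τ y ≠ 0 := by
      by_contra hcon
      apply hτ
      ext y
      by_contra hy
      exact hcon ⟨y, fun h => hy (by rw [h]; rfl)⟩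
    obtain ⟨y, hy⟩ := hy
    have hmem : (y / (w ⬝ᵥ x)) • w ∈ P := (hP _).mpr ⟨_, rfl⟩
    have := hx _ hmem
    rw [dotProduct_smul, dotProduct_comm x w, smul_eq_mul, div_mul_cancel₀ _ hd] at this
    exact hy this
  · intro h z hz
    obtain ⟨c, rfl⟩ := (hP z).mp hz
    rw [dotProduct_smul, dotProduct_comm, h, smul_zero, map_zero]

end Cfsg.Agent.Lib.Helper68.MinIdx
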