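import Mathlib
import Cfsg.Prelude.Def_GeometricClasses
import Cfsg.Prelude.Def_LieClassical
import Cfsg.Agent.Lib.Helper71.Asch0
import Cfsg.Agent.Lib.Helper50.SUQTFS
import Cfsg.Agent.Lib.Helper93.SUPair

/-! Project SU4 (helper50, S5784), piece TSN, by helper68: the stabiliser in `SU_4(q)`, `q ≤ 3`,
of a pair of complementary totally isotropic planes has an absolutely irreducible normal subgroup
fixing a non-degenerate bilinear form. -/

set_option autoImplicit false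
set_option linter.unusedSectionVars false
set_option linter.unusedVariables false
set_option linter.unusedSimpArgs false
set_option linter.unnecessarySeqFocus false

namespace Cfsg.Agent.Lib.Helper68.SU4TSN

open Matrix Cfsg.Geo Cfsg.Agent.Lib.Helper71.Asch
open scoped Kronecker

variable {n : ℕ} {F : Type*} [Field F] [Fintype F] {q : ℕ}

/-- the hyperbolic hermitian form in coordinates -/
def su4tsn_h0 (q : ℕ) (x y : Fin 2 ⊕ Fin 2 → F) : F :=
  x (Sum.inl 0) * y (Sum.inr 0) ^ q + x (Sum.inl 1) * y (Sum.inr 1) ^ q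
    + x (Sum.inr 0) * y (Sum.inl 0) ^ q + x (Sum.inr 1) * y (Sum.inl 1) ^ q

/-- the bilinear form in coordinates -/
def su4tsn_beta (x y : Fin 2 ⊕ Fin 2 → F) : F :=
  x (Sum.inl 0) * y (Sum.inl 1) - x (Sum.inl 1) * y (Sum.inl 0)
    + x (Sum.inr 0) * y (Sum.inr 1) - x (Sum.inr 1) * y (Sum.inr 0)

theorem su4tsn_coord (hF : Fintype.card F = q ^ 2) (D : Fin 2 → Submodule F (Fin 4 → F))
    (hD : IsMDecomposition 2 D) (hts : ∀ i, IsTotallySingularFor (Cfsg.hermForm 4 F q) (D i)) :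
    ∃ (P : Matrix (Fin 4) (Fin 2 ⊕ Fin 2) F) (Q : Matrix (Fin 2 ⊕ Fin 2) (Fin 4) F),
      P * Q = 1 ∧ Q * P = 1 ∧
      (∀ x y, Cfsg.hermForm 4 F q (P *ᵥ x) (P *ᵥ y) = su4tsn_h0 q x y) ∧
      (∀ x, P *ᵥ x ∈ D 0 ↔ x (Sum.inr 0) = 0 ∧ x (Sum.inr 1) = 0) ∧
      (∀ x, P *ᵥ x ∈ D 1 ↔ x (Sum.inl 0) = 0 ∧ x (Sum.inl 1) = 0) := by
  classical
  have hq := (Cfsg.Agent.Lib.Helper50.SUQTFS.suqtfs_q_pos hF).ne'
  have hadd_l : ∀ u u' v : Fin 4 → F, Cfsg.hermForm 4 F q (u + u') v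
      = Cfsg.hermForm 4 F q u v + Cfsg.hermForm 4 F q u' v := by
    intro u u' v
    simp [Cfsg.hermForm, add_mul, Finset.sum_add_distrib]
  have hsmul_l : ∀ (c : F) (u v : Fin 4 → F), Cfsg.hermForm 4 F q (c • u) v
      = c * Cfsg.hermForm 4 F q u v := by
    intro c u v
    simp [Cfsg.hermForm, Finset.mul_sum, mul_assoc]
  have hadd_r : ∀ u v v' : Fin 4 → F, Cfsg.hermForm 4 F q u (v + v')
      = Cfsg.hermForm 4 F q u v + Cfsg.hermForm 4 F q u v' := by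
    intro u v v'
    simp [Cfsg.hermForm, Cfsg.Agent.Lib.Helper50.SUQTFS.suqtfs_add_pow hF, mul_add,
      Finset.sum_add_distrib]
  have hsmul_r : ∀ (c : F) (u v : Fin 4 → F), Cfsg.hermForm 4 F q u (c • v)
      = c ^ q * Cfsg.hermForm 4 F q u v := by
    intro c u v
    simp only [Cfsg.hermForm, Pi.smul_apply, smul_eq_mul, mul_pow, Finset.mul_sum]
    exact Finset.sum_congr rfl fun i _ => by ring
  have hconj : ∀ u v : Fin 4 → F, (Cfsg.hermForm 4 F q u v) ^ q = Cfsg.hermForm 4 F q v u := by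
    intro u v
    unfold Cfsg.hermForm
    rw [Cfsg.Agent.Lib.Helper50.SUQTFS.suqtfs_sum_pow hF]
    refine Finset.sum_congr rfl fun i _ => ?_
    rw [mul_pow, Cfsg.Agent.Lib.Helper50.SUQTFS.suqtfs_frob2 hF, mul_comm]
  have hnd : ∀ w : Fin 4 → F, (∀ x, Cfsg.hermForm 4 F q x w = 0) → w = 0 := by
    intro w hw
    funext i
    have h1 : Cfsg.hermForm 4 F q (Pi.single i 1) w = (w i) ^ q := by
      simp [Cfsg.hermForm, Pi.single_apply]
    have h2 := hw (Pi.single i 1)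
    rw [h1] at h2
    exact pow_eq_zero_iff hq |>.mp h2
  have hf0 : Module.finrank F (D 0) = 2 := hD.finrank_eq 0
  have hf1 : Module.finrank F (D 1) = 2 := hD.finrank_eq 1
  obtain ⟨bu⟩ : Nonempty (Module.Basis (Fin 2) F (D 0)) := ⟨Module.finBasisOfFinrankEq F (D 0) hf0⟩
  have hsup : D 0 ⊔ D 1 = ⊤ := by
    rw [← hD.iSup_eq_top]
    apply le_antisymm
    · exact sup_le (le_iSup D 0) (le_iSup D 1)
    · refine iSup_le fun i => ?_
      fin_cases i
      · exact le_sup_left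
      · exact le_sup_right
  have hspan : ∀ x : Fin 4 → F, ∃ u ∈ D 0, ∃ w ∈ D 1, u + w = x := by
    intro x
    have hx : x ∈ D 0 ⊔ D 1 := by rw [hsup]; exact Submodule.mem_top
    exact Submodule.mem_sup.1 hx
  -- the pairing is perfect
  have hpair : ∀ w ∈ D 1, (∀ i, Cfsg.hermForm 4 F q w (bu i : Fin 4 → F) = 0) → w = 0 := by
    intro w hw hwi
    apply hnd
    intro x
    rw [← hconj]
    obtain ⟨u, hu, w', hw', rfl⟩ := hspan x
    have hu0 : Cfsg.hermForm 4 F q w u = 0 := by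
      have h1 := bu.sum_repr ⟨u, hu⟩
      have h2 := congrArg (Subtype.val) h1
      rw [Fin.sum_univ_two] at h2
      simp only [Submodule.coe_add, Submodule.coe_smul] at h2
      rw [← h2, hadd_r, hsmul_r, hsmul_r, hwi, hwi, mul_zero, mul_zero, add_zero]
    rw [hadd_r, hu0, hts 1 w hw w' hw', add_zero, zero_pow hq]
  obtain ⟨φ, hφ⟩ : ∃ φ : (D 1) →ₗ[F] (Fin 2 → F),
      ∀ (w : D 1) (i : Fin 2), φ w i = Cfsg.hermForm 4 F q (w : Fin 4 → F) (bu i : Fin 4 → F) :=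
    ⟨{ toFun := fun w i => Cfsg.hermForm 4 F q (w : Fin 4 → F) (bu i : Fin 4 → F)
       map_add' := fun w w' => by
         funext i
         simp only [Submodule.coe_add, Pi.add_apply, hadd_l]
       map_smul' := fun c w => by
         funext i
         simp only [Submodule.coe_smul, Pi.smul_apply, smul_eq_mul, RingHom.id_apply, hsmul_l] },
      fun w i => rfl⟩
  have hφinj : Function.Injective φ := by
    rw [← LinearMap.ker_eq_bot, LinearMap.ker_eq_bot']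
    intro w hw
    apply Subtype.ext
    apply hpair w w.2
    intro i
    rw [← hφ, hw]
    rfl
  have hφsurj : Function.Surjective φ :=
    (LinearMap.injective_iff_surjective_of_finrank_eq_finrank
      (by rw [hf1, Module.finrank_fin_fun])).1 hφinj
  choose v hv using fun j : Fin 2 => hφsurj (Pi.single j 1)
  have g11 : ∀ i j, Cfsg.hermForm 4 F q (bu i : Fin 4 → F) (bu j : Fin 4 → F) = 0 :=
    fun i j => hts 0 _ (bu i).2 _ (bu j).2
  have g22 : ∀ i j, Cfsg.hermForm 4 F q (v i : Fin 4 → F) (v j : Fin 4 → F) = 0 :=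
    fun i j => hts 1 _ (v i).2 _ (v j).2
  have g21 : ∀ j i, Cfsg.hermForm 4 F q (v j : Fin 4 → F) (bu i : Fin 4 → F)
      = if i = j then 1 else 0 := by
    intro j i
    rw [← hφ, hv j, Pi.single_apply]
  have g12 : ∀ i j, Cfsg.hermForm 4 F q (bu i : Fin 4 → F) (v j : Fin 4 → F)
      = if i = j then 1 else 0 := by
    intro i j
    rw [← hconj, g21]
    split_ifs <;> simp [hq]
  obtain ⟨P, hP⟩ : ∃ P : Matrix (Fin 4) (Fin 2 ⊕ Fin 2) F, P = Matrix.of fun k a =>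
      Sum.elim (fun i => (bu i : Fin 4 → F)) (fun j => (v j : Fin 4 → F)) a k := ⟨_, rfl⟩
  have hPx : ∀ x, P *ᵥ x = x (Sum.inl 0) • (bu 0 : Fin 4 → F) + x (Sum.inl 1) • (bu 1 : Fin 4 → F)
      + x (Sum.inr 0) • (v 0 : Fin 4 → F) + x (Sum.inr 1) • (v 1 : Fin 4 → F) := by
    intro x
    funext k
    simp [hP, Matrix.mulVec, dotProduct, Fintype.sum_sum_type, Fin.sum_univ_two]
    ring
  have hform : ∀ x y, Cfsg.hermForm 4 F q (P *ᵥ x) (P *ᵥ y) = su4tsn_h0 q x y := by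
    intro x y
    rw [hPx, hPx]
    simp only [hadd_l, hsmul_l, hadd_r, hsmul_r, g11, g22, g12, g21]
    simp [su4tsn_h0]
  have hinjP : ∀ x, P *ᵥ x = 0 → x = 0 := by
    intro x hx
    have key : ∀ y, su4tsn_h0 q x y = 0 := fun y => by
      rw [← hform, hx]
      simp [Cfsg.hermForm]
    funext a
    rcases a with a | a <;> fin_cases a
    · have h1 := key (Pi.single (Sum.inr 0) 1)
      simpa [su4tsn_h0, Pi.single_apply, hq] using h1
    · have h1 := key (Pi.single (Sum.inr 1) 1)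
      simpa [su4tsn_h0, Pi.single_apply, hq] using h1
    · have h1 := key (Pi.single (Sum.inl 0) 1)
      simpa [su4tsn_h0, Pi.single_apply, hq] using h1
    · have h1 := key (Pi.single (Sum.inl 1) 1)
      simpa [su4tsn_h0, Pi.single_apply, hq] using h1
  have hinj : Function.Injective (Matrix.toLin' P) := by
    intro x y hxy
    rw [Matrix.toLin'_apply, Matrix.toLin'_apply] at hxy
    have h0 : P *ᵥ (x - y) = 0 := by rw [Matrix.mulVec_sub, hxy, sub_self]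
    exact sub_eq_zero.mp (hinjP _ h0)
  have hfr : Module.finrank F (Fin 2 ⊕ Fin 2 → F) = Module.finrank F (Fin 4 → F) := by simp
  have hbij : Function.Bijective (Matrix.toLin' P) :=
    ⟨hinj, (LinearMap.injective_iff_surjective_of_finrank_eq_finrank hfr).1 hinj⟩
  obtain ⟨e, he⟩ : ∃ e : (Fin 2 ⊕ Fin 2 → F) ≃ₗ[F] (Fin 4 → F), ∀ x, e x = P *ᵥ x :=
    ⟨LinearEquiv.ofBijective (Matrix.toLin' P) hbij, fun x => by
      rw [LinearEquiv.ofBijective_apply, Matrix.toLin'_apply]⟩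
  have hm0 : ∀ x, P *ᵥ x ∈ D 0 ↔ x (Sum.inr 0) = 0 ∧ x (Sum.inr 1) = 0 := by
    intro x
    constructor
    · intro hx
      have key : ∀ y, P *ᵥ y ∈ D 0 → su4tsn_h0 q x y = 0 := fun y hy => by
        rw [← hform]
        exact hts 0 _ hx _ hy
      have hb : ∀ i, P *ᵥ (Pi.single (Sum.inl i) 1) ∈ D 0 := by
        intro i
        rw [Matrix.mulVec_single_one]
        have : P.col (Sum.inl i) = (bu i : Fin 4 → F) := by rw [hP]; rfl
        rw [this]
        exact (bu i).2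
      constructor
      · have h1 := key _ (hb 0)
        simpa [su4tsn_h0, Pi.single_apply, hq] using h1
      · have h1 := key _ (hb 1)
        simpa [su4tsn_h0, Pi.single_apply, hq] using h1
    · rintro ⟨h0, h1⟩
      rw [hPx, h0, h1, zero_smul, zero_smul, add_zero, add_zero]
      exact add_mem (Submodule.smul_mem _ _ (bu 0).2) (Submodule.smul_mem _ _ (bu 1).2)
  have hm1 : ∀ x, P *ᵥ x ∈ D 1 ↔ x (Sum.inl 0) = 0 ∧ x (Sum.inl 1) = 0 := by
    intro x
    constructor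
    · intro hx
      have key : ∀ y, P *ᵥ y ∈ D 1 → su4tsn_h0 q x y = 0 := fun y hy => by
        rw [← hform]
        exact hts 1 _ hx _ hy
      have hb : ∀ i, P *ᵥ (Pi.single (Sum.inr i) 1) ∈ D 1 := by
        intro i
        rw [Matrix.mulVec_single_one]
        have : P.col (Sum.inr i) = (v i : Fin 4 → F) := by rw [hP]; rfl
        rw [this]
        exact (v i).2
      constructor
      · have h1 := key _ (hb 0)
        simpa [su4tsn_h0, Pi.single_apply, hq] using h1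
      · have h1 := key _ (hb 1)
        simpa [su4tsn_h0, Pi.single_apply, hq] using h1
    · rintro ⟨h0, h1⟩
      rw [hPx, h0, h1, zero_smul, zero_smul, zero_add, zero_add]
      exact add_mem (Submodule.smul_mem _ _ (v 0).2) (Submodule.smul_mem _ _ (v 1).2)
  refine ⟨P, LinearMap.toMatrix' (e.symm : (Fin 4 → F) →ₗ[F] (Fin 2 ⊕ Fin 2 → F)), ?_, ?_,
    hform, hm0, hm1⟩
  · apply Matrix.toLin'.injective
    refine LinearMap.ext fun y => ?_
    rw [Matrix.toLin'_mul, Matrix.toLin'_toMatrix', Matrix.toLin'_one, LinearMap.comp_apply,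
      Matrix.toLin'_apply, LinearMap.id_apply, LinearEquiv.coe_coe, ← he,
      LinearEquiv.apply_symm_apply]
  · apply Matrix.toLin'.injective
    refine LinearMap.ext fun y => ?_
    rw [Matrix.toLin'_mul, Matrix.toLin'_toMatrix', Matrix.toLin'_one, LinearMap.comp_apply,
      Matrix.toLin'_apply, LinearMap.id_apply, LinearEquiv.coe_coe, ← he,
      LinearEquiv.symm_apply_apply]

/-- Frobenius of a difference -/
theorem su4tsn_sub_pow (hF : Fintype.card F = q ^ 2) (a b : F) : (a - b) ^ q = a ^ q - b ^ q := by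
  have h := Cfsg.Agent.Lib.Helper50.SUQTFS.suqtfs_add_pow hF (a - b) b
  rw [sub_add_cancel] at h
  rw [h]
  ring

/-- the determinant of the block swap -/
theorem su4tsn_det_swap : (Matrix.fromBlocks (0 : Matrix (Fin 2) (Fin 2) F)
    (1 : Matrix (Fin 2) (Fin 2) F) (1 : Matrix (Fin 2) (Fin 2) F)
    (0 : Matrix (Fin 2) (Fin 2) F)).det = 1 := by
  have h : (Matrix.fromBlocks (0 : Matrix (Fin 2) (Fin 2) F) (1 : Matrix (Fin 2) (Fin 2) F)
      (1 : Matrix (Fin 2) (Fin 2) F) (0 : Matrix (Fin 2) (Fin 2) F))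
      = Matrix.fromBlocks (1 : Matrix (Fin 2) (Fin 2) F) (1 : Matrix (Fin 2) (Fin 2) F)
          (0 : Matrix (Fin 2) (Fin 2) F) (1 : Matrix (Fin 2) (Fin 2) F)
        * Matrix.fromBlocks (1 : Matrix (Fin 2) (Fin 2) F) (0 : Matrix (Fin 2) (Fin 2) F)
          (-1 : Matrix (Fin 2) (Fin 2) F) (1 : Matrix (Fin 2) (Fin 2) F)
        * Matrix.fromBlocks (1 : Matrix (Fin 2) (Fin 2) F) (1 : Matrix (Fin 2) (Fin 2) F)
          (0 : Matrix (Fin 2) (Fin 2) F) (1 : Matrix (Fin 2) (Fin 2) F)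
        * Matrix.fromBlocks (-1 : Matrix (Fin 2) (Fin 2) F) (0 : Matrix (Fin 2) (Fin 2) F)
          (0 : Matrix (Fin 2) (Fin 2) F) (1 : Matrix (Fin 2) (Fin 2) F) := by
    simp [Matrix.fromBlocks_multiply]
  rw [h, Matrix.det_mul, Matrix.det_mul, Matrix.det_mul, Matrix.det_fromBlocks_zero₂₁,
    Matrix.det_fromBlocks_zero₁₂, Matrix.det_fromBlocks_zero₂₁]
  simp [Matrix.det_neg]

/-- the two blocks have the same determinant -/
theorem su4tsn_det_eq (hF : Fintype.card F = q ^ 2) (hq3 : q ≤ 3) (A B : Matrix (Fin 2) (Fin 2) F)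
    (hdet : A.det * B.det = 1)
    (E00 : A 0 0 * B 0 0 ^ q + A 1 0 * B 1 0 ^ q = 1)
    (E01 : A 0 0 * B 0 1 ^ q + A 1 0 * B 1 1 ^ q = 0)
    (E10 : A 0 1 * B 0 0 ^ q + A 1 1 * B 1 0 ^ q = 0)
    (E11 : A 0 1 * B 0 1 ^ q + A 1 1 * B 1 1 ^ q = 1) : B.det = A.det := by
  have h2 : A.det * B.det ^ q = 1 := by
    rw [Matrix.det_fin_two A, Matrix.det_fin_two B, su4tsn_sub_pow hF, mul_pow, mul_pow]
    linear_combination (A 0 1 * B 0 1 ^ q + A 1 1 * B 1 1 ^ q) * E00 + E11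
      - (A 0 1 * B 0 0 ^ q + A 1 1 * B 1 0 ^ q) * E01
  interval_cases q
  · exfalso
    have h := Fintype.card_pos (α := F)
    rw [hF] at h
    simp at h
  · exfalso
    have h := Fintype.one_lt_card (α := F)
    rw [hF] at h
    simp at h
  · linear_combination (A.det + 1) * (h2 - B.det * hdet) - hdet
  · linear_combination A.det * (h2 - B.det ^ 2 * hdet) - B.det * hdet

/-- semi-invariance of the bilinear form under block (anti)diagonal isometries of determinant 1 -/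
theorem su4tsn_semi (hF : Fintype.card F = q ^ 2) (hq3 : q ≤ 3)
    (g' : Matrix (Fin 2 ⊕ Fin 2) (Fin 2 ⊕ Fin 2) F) (hdet : g'.det = 1)
    (hu : ∀ x y, su4tsn_h0 q (g' *ᵥ x) (g' *ᵥ y) = su4tsn_h0 q x y)
    (hblk : (g'.toBlocks₁₂ = 0 ∧ g'.toBlocks₂₁ = 0) ∨ (g'.toBlocks₁₁ = 0 ∧ g'.toBlocks₂₂ = 0)) :
    ∃ c : F, ∀ x y, su4tsn_beta (g' *ᵥ x) (g' *ᵥ y) = c * su4tsn_beta x y := by
  have hq := (Cfsg.Agent.Lib.Helper50.SUQTFS.suqtfs_q_pos hF).ne'
  have E00 := hu (Pi.single (Sum.inl 0) 1) (Pi.single (Sum.inr 0) 1)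
  have E01 := hu (Pi.single (Sum.inl 0) 1) (Pi.single (Sum.inr 1) 1)
  have E10 := hu (Pi.single (Sum.inl 1) 1) (Pi.single (Sum.inr 0) 1)
  have E11 := hu (Pi.single (Sum.inl 1) 1) (Pi.single (Sum.inr 1) 1)
  rcases hblk with ⟨h12, h21⟩ | ⟨h11, h22⟩
  · obtain ⟨A, B, rfl⟩ : ∃ A B : Matrix (Fin 2) (Fin 2) F, g' = Matrix.fromBlocks A 0 0 B :=
      ⟨g'.toBlocks₁₁, g'.toBlocks₂₂, by
        conv_lhs => rw [← Matrix.fromBlocks_toBlocks g']
        rw [h12, h21]⟩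
    rw [Matrix.det_fromBlocks_zero₂₁] at hdet
    simp [su4tsn_h0, Matrix.mulVec_single_one, Matrix.col_apply, Pi.single_apply, hq] at E00 E01 E10 E11
    have hAB := su4tsn_det_eq hF hq3 A B hdet E00 E01 E10 E11
    rw [Matrix.det_fin_two A, Matrix.det_fin_two B] at hAB
    refine ⟨A.det, fun x y => ?_⟩
    rw [Matrix.det_fin_two A]
    simp only [su4tsn_beta, Matrix.mulVec, dotProduct, Fintype.sum_sum_type, Fin.sum_univ_two,
      Matrix.fromBlocks_apply₁₁, Matrix.fromBlocks_apply₁₂, Matrix.fromBlocks_apply₂₁,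
      Matrix.fromBlocks_apply₂₂, Matrix.zero_apply, zero_mul, add_zero, zero_add]
    linear_combination (x (Sum.inr 0) * y (Sum.inr 1) - x (Sum.inr 1) * y (Sum.inr 0)) * hAB
  · obtain ⟨A, B, rfl⟩ : ∃ A B : Matrix (Fin 2) (Fin 2) F, g' = Matrix.fromBlocks 0 B A 0 :=
      ⟨g'.toBlocks₂₁, g'.toBlocks₁₂, by
        conv_lhs => rw [← Matrix.fromBlocks_toBlocks g']
        rw [h11, h22]⟩
    have hprod : Matrix.fromBlocks 0 B A 0 = Matrix.fromBlocks B 0 0 A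
        * Matrix.fromBlocks (0 : Matrix (Fin 2) (Fin 2) F) (1 : Matrix (Fin 2) (Fin 2) F)
          (1 : Matrix (Fin 2) (Fin 2) F) (0 : Matrix (Fin 2) (Fin 2) F) := by
      simp [Matrix.fromBlocks_multiply]
    rw [hprod, Matrix.det_mul, su4tsn_det_swap, Matrix.det_fromBlocks_zero₂₁, mul_one, mul_comm] at hdet
    simp [su4tsn_h0, Matrix.mulVec_single_one, Matrix.col_apply, Pi.single_apply, hq] at E00 E01 E10 E11
    have hAB := su4tsn_det_eq hF hq3 A B hdet E00 E01 E10 E11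
    rw [Matrix.det_fin_two A, Matrix.det_fin_two B] at hAB
    refine ⟨A.det, fun x y => ?_⟩
    rw [Matrix.det_fin_two A]
    simp only [su4tsn_beta, Matrix.mulVec, dotProduct, Fintype.sum_sum_type, Fin.sum_univ_two,
      Matrix.fromBlocks_apply₁₁, Matrix.fromBlocks_apply₁₂, Matrix.fromBlocks_apply₂₁,
      Matrix.fromBlocks_apply₂₂, Matrix.zero_apply, zero_mul, add_zero, zero_add]
    linear_combination (x (Sum.inr 0) * y (Sum.inr 1) - x (Sum.inr 1) * y (Sum.inr 0)) * hAB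

/-- Frobenius of a negative -/
theorem su4tsn_neg_pow (hF : Fintype.card F = q ^ 2) (a : F) : (-a) ^ q = -(a ^ q) := by
  have hq := (Cfsg.Agent.Lib.Helper50.SUQTFS.suqtfs_q_pos hF).ne'
  have h := su4tsn_sub_pow hF 0 a
  rw [zero_sub, zero_pow hq, zero_sub] at h
  exact h

/-- the unipotent elements -/
def su4tsn_X (q : ℕ) (t : F) : Matrix (Fin 2 ⊕ Fin 2) (Fin 2 ⊕ Fin 2) F :=
  Matrix.fromBlocks !![1, t; 0, 1] 0 0 !![1, 0; -(t ^ q), 1]

/-- the Weyl element of the diagonal `SL_2` -/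
def su4tsn_R : Matrix (Fin 2 ⊕ Fin 2) (Fin 2 ⊕ Fin 2) F :=
  Matrix.fromBlocks !![0, 1; -1, 0] 0 0 !![0, 1; -1, 0]

/-- the swap -/
def su4tsn_S : Matrix (Fin 2 ⊕ Fin 2) (Fin 2 ⊕ Fin 2) F :=
  Matrix.fromBlocks (0 : Matrix (Fin 2) (Fin 2) F) (1 : Matrix (Fin 2) (Fin 2) F)
    (1 : Matrix (Fin 2) (Fin 2) F) (0 : Matrix (Fin 2) (Fin 2) F)

theorem su4tsn_X_mulVec (t : F) (x : Fin 2 ⊕ Fin 2 → F) :
    su4tsn_X q t *ᵥ x = Sum.elim ![x (Sum.inl 0) + t * x (Sum.inl 1), x (Sum.inl 1)]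
      ![x (Sum.inr 0), x (Sum.inr 1) - t ^ q * x (Sum.inr 0)] := by
  funext a
  rcases a with a | a <;> fin_cases a <;>
    simp [su4tsn_X, Matrix.mulVec, dotProduct, Fintype.sum_sum_type, Fin.sum_univ_two] <;> ring

theorem su4tsn_R_mulVec (x : Fin 2 ⊕ Fin 2 → F) :
    (su4tsn_R : Matrix (Fin 2 ⊕ Fin 2) (Fin 2 ⊕ Fin 2) F) *ᵥ x
      = Sum.elim ![x (Sum.inl 1), -x (Sum.inl 0)] ![x (Sum.inr 1), -x (Sum.inr 0)] := by
  funext a
  rcases a with a | a <;> fin_cases a <;>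
    simp [su4tsn_R, Matrix.mulVec, dotProduct, Fintype.sum_sum_type, Fin.sum_univ_two]

theorem su4tsn_S_mulVec (x : Fin 2 ⊕ Fin 2 → F) :
    (su4tsn_S : Matrix (Fin 2 ⊕ Fin 2) (Fin 2 ⊕ Fin 2) F) *ᵥ x
      = Sum.elim ![x (Sum.inr 0), x (Sum.inr 1)] ![x (Sum.inl 0), x (Sum.inl 1)] := by
  funext a
  rcases a with a | a <;> fin_cases a <;>
    simp [su4tsn_S, Matrix.mulVec, dotProduct, Fintype.sum_sum_type, Fin.sum_univ_two,
      Matrix.one_apply]

theorem su4tsn_X_props (hF : Fintype.card F = q ^ 2) (t : F) :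
    (su4tsn_X q t).det = 1 ∧
    (∀ x y, su4tsn_h0 q (su4tsn_X q t *ᵥ x) (su4tsn_X q t *ᵥ y) = su4tsn_h0 q x y) ∧
    (∀ x y, su4tsn_beta (su4tsn_X q t *ᵥ x) (su4tsn_X q t *ᵥ y) = su4tsn_beta x y) := by
  refine ⟨?_, ?_, ?_⟩
  · unfold su4tsn_X
    rw [Matrix.det_fromBlocks_zero₂₁]
    simp [Matrix.det_fin_two]
  · intro x y
    rw [su4tsn_X_mulVec, su4tsn_X_mulVec]
    simp only [su4tsn_h0, Sum.elim_inl, Sum.elim_inr, Matrix.cons_val_zero, Matrix.cons_val_one,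
      Matrix.head_cons, su4tsn_sub_pow hF, Cfsg.Agent.Lib.Helper50.SUQTFS.suqtfs_add_pow hF, mul_pow,
      Cfsg.Agent.Lib.Helper50.SUQTFS.suqtfs_frob2 hF]
    ring
  · intro x y
    rw [su4tsn_X_mulVec, su4tsn_X_mulVec]
    simp only [su4tsn_beta, Sum.elim_inl, Sum.elim_inr, Matrix.cons_val_zero, Matrix.cons_val_one,
      Matrix.head_cons]
    ring

theorem su4tsn_R_props (hF : Fintype.card F = q ^ 2) :
    (su4tsn_R : Matrix (Fin 2 ⊕ Fin 2) (Fin 2 ⊕ Fin 2) F).det = 1 ∧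
    (∀ x y, su4tsn_h0 q ((su4tsn_R : Matrix (Fin 2 ⊕ Fin 2) (Fin 2 ⊕ Fin 2) F) *ᵥ x)
      (su4tsn_R *ᵥ y) = su4tsn_h0 q x y) ∧
    (∀ x y, su4tsn_beta ((su4tsn_R : Matrix (Fin 2 ⊕ Fin 2) (Fin 2 ⊕ Fin 2) F) *ᵥ x)
      (su4tsn_R *ᵥ y) = su4tsn_beta x y) := by
  refine ⟨?_, ?_, ?_⟩
  · unfold su4tsn_R
    rw [Matrix.det_fromBlocks_zero₂₁]
    simp [Matrix.det_fin_two]
  · intro x y
    rw [su4tsn_R_mulVec, su4tsn_R_mulVec]
    simp only [su4tsn_h0, Sum.elim_inl, Sum.elim_inr, Matrix.cons_val_zero, Matrix.cons_val_one,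
      Matrix.head_cons, su4tsn_neg_pow hF]
    ring
  · intro x y
    rw [su4tsn_R_mulVec, su4tsn_R_mulVec]
    simp only [su4tsn_beta, Sum.elim_inl, Sum.elim_inr, Matrix.cons_val_zero, Matrix.cons_val_one,
      Matrix.head_cons]
    ring

theorem su4tsn_S_props :
    (su4tsn_S : Matrix (Fin 2 ⊕ Fin 2) (Fin 2 ⊕ Fin 2) F).det = 1 ∧
    (∀ x y, su4tsn_h0 q ((su4tsn_S : Matrix (Fin 2 ⊕ Fin 2) (Fin 2 ⊕ Fin 2) F) *ᵥ x)
      (su4tsn_S *ᵥ y) = su4tsn_h0 q x y) ∧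
    (∀ x y, su4tsn_beta ((su4tsn_S : Matrix (Fin 2 ⊕ Fin 2) (Fin 2 ⊕ Fin 2) F) *ᵥ x)
      (su4tsn_S *ᵥ y) = su4tsn_beta x y) := by
  refine ⟨su4tsn_det_swap, ?_, ?_⟩
  · intro x y
    rw [su4tsn_S_mulVec, su4tsn_S_mulVec]
    simp only [su4tsn_h0, Sum.elim_inl, Sum.elim_inr, Matrix.cons_val_zero, Matrix.cons_val_one,
      Matrix.head_cons]
    ring
  · intro x y
    rw [su4tsn_S_mulVec, su4tsn_S_mulVec]
    simp only [su4tsn_beta, Sum.elim_inl, Sum.elim_inr, Matrix.cons_val_zero, Matrix.cons_val_one,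
      Matrix.head_cons]
    ring

/-- TSN: for `q ≤ 3` the full stabiliser in `SU_4(q)` of a decomposition into two totally
isotropic planes has an absolutely irreducible normal subgroup (`SL_2(q²).2`) fixing a
non-degenerate bilinear form. -/
theorem TSN (hF : Fintype.card F = q ^ 2) (hq : q ≤ 3) (D : Fin 2 → Submodule F (Fin 4 → F))
    (hD : IsMDecomposition 2 D)
    (hts : ∀ i, IsTotallySingularFor (Cfsg.hermForm 4 F q) (D i))
    (H : Subgroup (GL (Fin 4) F))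
    (hH : H = decompositionStabilizer D ⊓ (Cfsg.GU 4 F q ⊓ specialLinear (Fin 4) F)) :
    ∃ (N : Subgroup (GL (Fin 4) F)) (b : (Fin 4 → F) → (Fin 4 → F) → F), N ≤ H ∧ Nrm H N ∧
      ActsAbsolutelyIrreducibly (matrixSet N) ∧ IsBilinearForm b ∧ IsNondegenerateForm b ∧
      FixesForm (matrixSet N) b := by
  classical
  have hq0 := (Cfsg.Agent.Lib.Helper50.SUQTFS.suqtfs_q_pos hF).ne'
  obtain ⟨P, Q, hPQ, hQP, hform, hm0, hm1⟩ := su4tsn_coord hF D hD hts
  obtain ⟨b, hb⟩ : ∃ b : (Fin 4 → F) → (Fin 4 → F) → F,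
      ∀ u v, b u v = su4tsn_beta (Q *ᵥ u) (Q *ᵥ v) := ⟨_, fun u v => rfl⟩
  have hPQv : ∀ u : Fin 4 → F, P *ᵥ (Q *ᵥ u) = u := fun u => by
    rw [Matrix.mulVec_mulVec, hPQ, Matrix.one_mulVec]
  have hQPv : ∀ x : Fin 2 ⊕ Fin 2 → F, Q *ᵥ (P *ᵥ x) = x := fun x => by
    rw [Matrix.mulVec_mulVec, hQP, Matrix.one_mulVec]
  have hfin2 : ∀ a c : Fin 2, a ≠ c → (a = 0 ∧ c = 1) ∨ (a = 1 ∧ c = 0) := by decide
  -- semi-invariance for the elements of `H`
  have hsemi : ∀ g ∈ H, ∃ c : F, ∀ u v, b (g.1 *ᵥ u) (g.1 *ᵥ v) = c * b u v := by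
    intro g hg
    rw [hH] at hg
    have hst := (Subgroup.mem_inf.1 hg).1
    have hgu := (Subgroup.mem_inf.1 (Subgroup.mem_inf.1 hg).2).1
    have hgs := (Subgroup.mem_inf.1 (Subgroup.mem_inf.1 hg).2).2
    have hc1 : ∀ x, P *ᵥ ((Q * g.1 * P) *ᵥ x) = g.1 *ᵥ (P *ᵥ x) := by
      intro x
      rw [Matrix.mulVec_mulVec, Matrix.mulVec_mulVec, ← Matrix.mul_assoc, ← Matrix.mul_assoc, hPQ,
        Matrix.one_mul]
    have hc2 : ∀ u, Q *ᵥ (g.1 *ᵥ u) = (Q * g.1 * P) *ᵥ (Q *ᵥ u) := by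
      intro u
      rw [Matrix.mulVec_mulVec, Matrix.mulVec_mulVec, Matrix.mul_assoc (Q * g.1) P Q, hPQ,
        Matrix.mul_one]
    have hdet : (Q * g.1 * P).det = 1 := by
      rw [Matrix.det_conj_of_mul_eq_one hQP hPQ]
      exact (Cfsg.Agent.Lib.Helper93.mem_sl_iff g).1 hgs
    have hu : ∀ x y, su4tsn_h0 q ((Q * g.1 * P) *ᵥ x) ((Q * g.1 * P) *ᵥ y) = su4tsn_h0 q x y := by
      intro x y
      rw [← hform, hc1, hc1, ← hform]
      exact hgu _ _
    have hblk : ((Q * g.1 * P).toBlocks₁₂ = 0 ∧ (Q * g.1 * P).toBlocks₂₁ = 0) ∨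
        ((Q * g.1 * P).toBlocks₁₁ = 0 ∧ (Q * g.1 * P).toBlocks₂₂ = 0) := by
      obtain ⟨σ, hσ⟩ := hst
      have hmap : ∀ i x, P *ᵥ x ∈ D i → P *ᵥ ((Q * g.1 * P) *ᵥ x) ∈ D (σ i) := by
        intro i x hx
        rw [hc1, ← hσ i]
        exact ⟨_, hx, by rw [Matrix.toLin'_apply]⟩
      have hent : ∀ a c, (Q * g.1 * P) a c = ((Q * g.1 * P) *ᵥ Pi.single c 1) a := by
        intro a c
        rw [Matrix.mulVec_single_one]
        rfl
      have hs0 : ∀ j, P *ᵥ (Pi.single (Sum.inl j) 1) ∈ D 0 := fun j =>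
        (hm0 _).2 ⟨by simp [Pi.single_apply], by simp [Pi.single_apply]⟩
      have hs1 : ∀ j, P *ᵥ (Pi.single (Sum.inr j) 1) ∈ D 1 := fun j =>
        (hm1 _).2 ⟨by simp [Pi.single_apply], by simp [Pi.single_apply]⟩
      have hne : σ 0 ≠ σ 1 := fun h => by
        have := σ.injective h
        exact absurd this (by decide)
      rcases hfin2 _ _ hne with ⟨h0, h1⟩ | ⟨h0, h1⟩
      · left
        constructor
        · ext i j
          show (Q * g.1 * P) (Sum.inl i) (Sum.inr j) = 0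
          rw [hent]
          have h5 := hmap 1 _ (hs1 j)
          rw [h1] at h5
          have h6 := (hm1 _).1 h5
          fin_cases i
          · exact h6.1
          · exact h6.2
        · ext i j
          show (Q * g.1 * P) (Sum.inr i) (Sum.inl j) = 0
          rw [hent]
          have h5 := hmap 0 _ (hs0 j)
          rw [h0] at h5
          have h6 := (hm0 _).1 h5
          fin_cases i
          · exact h6.1
          · exact h6.2
      · right
        constructor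
        · ext i j
          show (Q * g.1 * P) (Sum.inl i) (Sum.inl j) = 0
          rw [hent]
          have h5 := hmap 0 _ (hs0 j)
          rw [h0] at h5
          have h6 := (hm1 _).1 h5
          fin_cases i
          · exact h6.1
          · exact h6.2
        · ext i j
          show (Q * g.1 * P) (Sum.inr i) (Sum.inr j) = 0
          rw [hent]
          have h5 := hmap 1 _ (hs1 j)
          rw [h1] at h5
          have h6 := (hm0 _).1 h5
          fin_cases i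
          · exact h6.1
          · exact h6.2
    obtain ⟨c, hc⟩ := su4tsn_semi hF hq (Q * g.1 * P) hdet hu hblk
    refine ⟨c, fun u v => ?_⟩
    rw [hb, hb, ← hc, hc2, hc2]
  -- the subgroup `N`
  obtain ⟨N, hN⟩ : ∃ N : Subgroup (GL (Fin 4) F),
      ∀ g, g ∈ N ↔ g ∈ H ∧ ∀ u v, b (g.1 *ᵥ u) (g.1 *ᵥ v) = b u v := by
    refine ⟨{ carrier := {g | g ∈ H ∧ ∀ u v, b (g.1 *ᵥ u) (g.1 *ᵥ v) = b u v}
              mul_mem' := ?_
              one_mem' := ?_
              inv_mem' := ?_ }, fun g => Iff.rfl⟩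
    · rintro x y ⟨hx, hx'⟩ ⟨hy, hy'⟩
      refine ⟨H.mul_mem hx hy, fun u v => ?_⟩
      rw [Units.val_mul, ← Matrix.mulVec_mulVec, ← Matrix.mulVec_mulVec, hx', hy']
    · exact ⟨H.one_mem, fun u v => by rw [Units.val_one, Matrix.one_mulVec, Matrix.one_mulVec]⟩
    · rintro x ⟨hx, hx'⟩
      refine ⟨H.inv_mem hx, fun u v => ?_⟩
      have h1 : ∀ w : Fin 4 → F, x.1 *ᵥ ((x⁻¹ : GL (Fin 4) F).1 *ᵥ w) = w := by
        intro w
        rw [Matrix.mulVec_mulVec, ← Units.val_mul, mul_inv_cancel, Units.val_one,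
          Matrix.one_mulVec]
      rw [← hx', h1, h1]
  -- membership of explicit elements
  have hmem : ∀ (M : Matrix (Fin 2 ⊕ Fin 2) (Fin 2 ⊕ Fin 2) F) (σ : Equiv.Perm (Fin 2)),
      M.det = 1 → (∀ x y, su4tsn_h0 q (M *ᵥ x) (M *ᵥ y) = su4tsn_h0 q x y) →
      (∀ x y, su4tsn_beta (M *ᵥ x) (M *ᵥ y) = su4tsn_beta x y) →
      (∀ i x, P *ᵥ x ∈ D i → P *ᵥ (M *ᵥ x) ∈ D (σ i)) →
      ∃ g ∈ N, g.1 = P * M * Q := by
    intro M σ hdet hu hbeta hst
    have hdet' : (P * M * Q).det = 1 := by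
      rw [Matrix.det_conj_of_mul_eq_one hPQ hQP, hdet]
    have hact : ∀ u : Fin 4 → F, (P * M * Q) *ᵥ u = P *ᵥ (M *ᵥ (Q *ᵥ u)) := by
      intro u
      rw [Matrix.mulVec_mulVec, Matrix.mulVec_mulVec]
    refine ⟨Matrix.GeneralLinearGroup.mkOfDetNeZero (P * M * Q)
      (by rw [hdet']; exact one_ne_zero), (hN _).2 ⟨?_, ?_⟩, rfl⟩
    · rw [hH]
      refine Subgroup.mem_inf.2 ⟨⟨σ, fun i => ?_⟩, Subgroup.mem_inf.2 ⟨?_, ?_⟩⟩
      · apply Cfsg.Agent.Lib.Helper93.map_eq_of_forall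
        · intro x hx
          show (P * M * Q) *ᵥ x ∈ D (σ i)
          rw [hact]
          apply hst i
          rw [hPQv]
          exact hx
        · rw [hD.finrank_eq, hD.finrank_eq]
      · intro u v
        show Cfsg.hermForm 4 F q ((P * M * Q) *ᵥ u) ((P * M * Q) *ᵥ v) = _
        rw [hact, hact, hform, hu, ← hform, hPQv, hPQv]
      · rw [Cfsg.Agent.Lib.Helper93.mem_sl_iff]
        exact hdet'
    · intro u v
      show b ((P * M * Q) *ᵥ u) ((P * M * Q) *ᵥ v) = b u v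
      rw [hb, hb, hact, hact, hQPv, hQPv, hbeta]
  have hXN : ∀ t : F, ∃ g ∈ N, g.1 = P * su4tsn_X q t * Q := by
    intro t
    obtain ⟨h1, h2, h3⟩ := su4tsn_X_props hF t
    refine hmem _ 1 h1 h2 h3 ?_
    intro i x hx
    rw [su4tsn_X_mulVec]
    fin_cases i
    · have h5 := (hm0 x).1 hx
      exact (hm0 _).2 ⟨by simp [h5.1], by simp [h5.1, h5.2]⟩
    · have h5 := (hm1 x).1 hx
      exact (hm1 _).2 ⟨by simp [h5.1, h5.2], by simp [h5.2]⟩
  have hRN : ∃ g ∈ N, g.1 = P * (su4tsn_R : Matrix (Fin 2 ⊕ Fin 2) (Fin 2 ⊕ Fin 2) F) * Q := by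
    obtain ⟨h1, h2, h3⟩ := su4tsn_R_props (F := F) hF
    refine hmem _ 1 h1 h2 h3 ?_
    intro i x hx
    rw [su4tsn_R_mulVec]
    fin_cases i
    · have h5 := (hm0 x).1 hx
      exact (hm0 _).2 ⟨by simp [h5.2], by simp [h5.1]⟩
    · have h5 := (hm1 x).1 hx
      exact (hm1 _).2 ⟨by simp [h5.2], by simp [h5.1]⟩
  have hSN : ∃ g ∈ N, g.1 = P * (su4tsn_S : Matrix (Fin 2 ⊕ Fin 2) (Fin 2 ⊕ Fin 2) F) * Q := by
    obtain ⟨h1, h2, h3⟩ := su4tsn_S_props (F := F) (q := q)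
    refine hmem _ (Equiv.swap 0 1) h1 h2 h3 ?_
    intro i x hx
    rw [su4tsn_S_mulVec]
    fin_cases i
    · have h5 := (hm0 x).1 hx
      show _ ∈ D 1
      exact (hm1 _).2 ⟨by simp [h5.1], by simp [h5.2]⟩
    · have h5 := (hm1 x).1 hx
      show _ ∈ D 0
      exact (hm0 _).2 ⟨by simp [h5.1], by simp [h5.2]⟩
  obtain ⟨ξ, hξ⟩ := Cfsg.Agent.Lib.Helper93.exists_not_fixed (F := F) hF
  have hξ' : ξ ^ q - ξ ≠ 0 := sub_ne_zero.mpr hξ
  refine ⟨N, b, fun g hg => ((hN g).1 hg).1, ?_, ⟨?_, ?_⟩, ?_, ?_, ?_⟩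
  · -- normality
    intro h hh x hx
    obtain ⟨hxH, hxb⟩ := (hN x).1 hx
    refine (hN _).2 ⟨H.mul_mem (H.mul_mem hh hxH) (H.inv_mem hh), fun u v => ?_⟩
    obtain ⟨c, hc⟩ := hsemi h hh
    have e1 : ∀ w : Fin 4 → F, (h * x * h⁻¹ : GL (Fin 4) F).1 *ᵥ w
        = h.1 *ᵥ (x.1 *ᵥ ((h⁻¹ : GL (Fin 4) F).1 *ᵥ w)) := by
      intro w
      rw [Units.val_mul, Units.val_mul, ← Matrix.mulVec_mulVec, ← Matrix.mulVec_mulVec]
    have e2 : ∀ w : Fin 4 → F, h.1 *ᵥ ((h⁻¹ : GL (Fin 4) F).1 *ᵥ w) = w := by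
      intro w
      rw [Matrix.mulVec_mulVec, ← Units.val_mul, mul_inv_cancel, Units.val_one, Matrix.one_mulVec]
    rw [e1, e1, hc, hxb, ← hc, e2, e2]
  · -- irreducibility
    intro W hW
    by_cases hW0 : W = ⊥
    · exact Or.inl hW0
    right
    obtain ⟨w, hw, hw0⟩ := Submodule.exists_mem_ne_zero_of_ne_bot hW0
    have hinv : ∀ M : Matrix (Fin 2 ⊕ Fin 2) (Fin 2 ⊕ Fin 2) F, (∃ g ∈ N, g.1 = P * M * Q) →
        ∀ x, P *ᵥ x ∈ W → P *ᵥ (M *ᵥ x) ∈ W := by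
      rintro M ⟨g, hg, hgv⟩ x hx
      have h1 := hW g.1 ⟨g, hg, rfl⟩ (Submodule.mem_map_of_mem hx)
      rw [Matrix.toLin'_apply, hgv, Matrix.mulVec_mulVec, Matrix.mul_assoc, Matrix.mul_assoc, hQP,
        Matrix.mul_one, ← Matrix.mulVec_mulVec] at h1
      exact h1
    have hadd : ∀ x y, P *ᵥ x ∈ W → P *ᵥ y ∈ W → P *ᵥ (x + y) ∈ W := fun x y hx hy => by
      rw [Matrix.mulVec_add]
      exact W.add_mem hx hy
    have hsmul : ∀ (c : F) x, P *ᵥ x ∈ W → P *ᵥ (c • x) ∈ W := fun c x hx => by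
      rw [Matrix.mulVec_smul]
      exact W.smul_mem c hx
    have hsub : ∀ x y, P *ᵥ x ∈ W → P *ᵥ y ∈ W → P *ᵥ (x - y) ∈ W := fun x y hx hy => by
      rw [Matrix.mulVec_sub]
      exact W.sub_mem hx hy
    have L1 : ∀ x, P *ᵥ x ∈ W → x (Sum.inl 1) ≠ 0 → P *ᵥ (Pi.single (Sum.inl 0) 1) ∈ W := by
      intro x hx hx1
      have h1 := hsub _ _ (hinv _ (hXN 1) x hx) hx
      have hξ1 := hsub _ _ (hinv _ (hXN ξ) x hx) hx
      have h2 := hsub _ _ (hsmul (ξ ^ q) _ h1) hξ1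
      have h3 : ξ ^ q • (su4tsn_X q 1 *ᵥ x - x) - (su4tsn_X q ξ *ᵥ x - x)
          = ((ξ ^ q - ξ) * x (Sum.inl 1)) • Pi.single (Sum.inl 0) 1 := by
        rw [su4tsn_X_mulVec, su4tsn_X_mulVec]
        funext a
        rcases a with a | a <;> fin_cases a <;> simp [Pi.single_apply] <;> ring
      rw [h3] at h2
      have h4 := hsmul ((ξ ^ q - ξ) * x (Sum.inl 1))⁻¹ _ h2
      rw [smul_smul, inv_mul_cancel₀ (mul_ne_zero hξ' hx1), one_smul] at h4
      exact h4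
    have L2 : ∀ x, P *ᵥ x ∈ W → x (Sum.inr 0) ≠ 0 → P *ᵥ (Pi.single (Sum.inr 1) 1) ∈ W := by
      intro x hx hx1
      have h1 := hsub _ _ (hinv _ (hXN 1) x hx) hx
      have hξ1 := hsub _ _ (hinv _ (hXN ξ) x hx) hx
      have h2 := hsub _ _ (hsmul ξ _ h1) hξ1
      have h3 : ξ • (su4tsn_X q 1 *ᵥ x - x) - (su4tsn_X q ξ *ᵥ x - x)
          = ((ξ ^ q - ξ) * x (Sum.inr 0)) • Pi.single (Sum.inr 1) 1 := by
        rw [su4tsn_X_mulVec, su4tsn_X_mulVec]
        funext a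
        rcases a with a | a <;> fin_cases a <;> simp [Pi.single_apply] <;> ring
      rw [h3] at h2
      have h4 := hsmul ((ξ ^ q - ξ) * x (Sum.inr 0))⁻¹ _ h2
      rw [smul_smul, inv_mul_cancel₀ (mul_ne_zero hξ' hx1), one_smul] at h4
      exact h4
    have hx0 : P *ᵥ (Q *ᵥ w) ∈ W := by
      rw [hPQv]
      exact hw
    have hQw : Q *ᵥ w ≠ 0 := fun h0 => hw0 (by rw [← hPQv w, h0, Matrix.mulVec_zero])
    have hbase : P *ᵥ (Pi.single (Sum.inl 0) 1) ∈ W ∨ P *ᵥ (Pi.single (Sum.inr 1) 1) ∈ W := by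
      by_cases c1 : (Q *ᵥ w) (Sum.inl 1) = 0
      · by_cases c2 : (Q *ᵥ w) (Sum.inr 0) = 0
        · have hR := hinv _ hRN _ hx0
          by_cases c0 : (Q *ᵥ w) (Sum.inl 0) = 0
          · have c3 : (Q *ᵥ w) (Sum.inr 1) ≠ 0 := by
              intro c3
              apply hQw
              funext a
              rcases a with a | a <;> fin_cases a
              · exact c0
              · exact c1
              · exact c2
              · exact c3
            right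
            apply L2 _ hR
            rw [su4tsn_R_mulVec]
            simpa using c3
          · left
            apply L1 _ hR
            rw [su4tsn_R_mulVec]
            simpa using c0
        · exact Or.inr (L2 _ hx0 c2)
      · exact Or.inl (L1 _ hx0 c1)
    have hR1 : ∀ x, P *ᵥ x ∈ W →
        P *ᵥ ((su4tsn_R : Matrix (Fin 2 ⊕ Fin 2) (Fin 2 ⊕ Fin 2) F) *ᵥ x) ∈ W := hinv _ hRN
    have hS1 : ∀ x, P *ᵥ x ∈ W →
        P *ᵥ ((su4tsn_S : Matrix (Fin 2 ⊕ Fin 2) (Fin 2 ⊕ Fin 2) F) *ᵥ x) ∈ W := hinv _ hSN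
    have e01 : (su4tsn_R : Matrix (Fin 2 ⊕ Fin 2) (Fin 2 ⊕ Fin 2) F) *ᵥ (Pi.single (Sum.inl 0) 1)
        = -Pi.single (Sum.inl 1) 1 := by
      rw [su4tsn_R_mulVec]
      funext a
      rcases a with a | a <;> fin_cases a <;> simp [Pi.single_apply]
    have e32 : (su4tsn_R : Matrix (Fin 2 ⊕ Fin 2) (Fin 2 ⊕ Fin 2) F) *ᵥ (Pi.single (Sum.inr 1) 1)
        = Pi.single (Sum.inr 0) 1 := by
      rw [su4tsn_R_mulVec]
      funext a
      rcases a with a | a <;> fin_cases a <;> simp [Pi.single_apply]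
    have s02 : (su4tsn_S : Matrix (Fin 2 ⊕ Fin 2) (Fin 2 ⊕ Fin 2) F) *ᵥ (Pi.single (Sum.inl 0) 1)
        = Pi.single (Sum.inr 0) 1 := by
      rw [su4tsn_S_mulVec]
      funext a
      rcases a with a | a <;> fin_cases a <;> simp [Pi.single_apply]
    have s13 : (su4tsn_S : Matrix (Fin 2 ⊕ Fin 2) (Fin 2 ⊕ Fin 2) F) *ᵥ (Pi.single (Sum.inl 1) 1)
        = Pi.single (Sum.inr 1) 1 := by
      rw [su4tsn_S_mulVec]
      funext a
      rcases a with a | a <;> fin_cases a <;> simp [Pi.single_apply]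
    have s20 : (su4tsn_S : Matrix (Fin 2 ⊕ Fin 2) (Fin 2 ⊕ Fin 2) F) *ᵥ (Pi.single (Sum.inr 0) 1)
        = Pi.single (Sum.inl 0) 1 := by
      rw [su4tsn_S_mulVec]
      funext a
      rcases a with a | a <;> fin_cases a <;> simp [Pi.single_apply]
    have s31 : (su4tsn_S : Matrix (Fin 2 ⊕ Fin 2) (Fin 2 ⊕ Fin 2) F) *ᵥ (Pi.single (Sum.inr 1) 1)
        = Pi.single (Sum.inl 1) 1 := by
      rw [su4tsn_S_mulVec]
      funext a
      rcases a with a | a <;> fin_cases a <;> simp [Pi.single_apply]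
    have h0123 : P *ᵥ (Pi.single (Sum.inl 0) 1) ∈ W ∧ P *ᵥ (Pi.single (Sum.inl 1) 1) ∈ W ∧
        P *ᵥ (Pi.single (Sum.inr 0) 1) ∈ W ∧ P *ᵥ (Pi.single (Sum.inr 1) 1) ∈ W := by
      rcases hbase with h0 | h3
      · have h1 : P *ᵥ (Pi.single (Sum.inl 1) 1) ∈ W := by
          have h5 := hsmul (-1) _ (hR1 _ h0)
          rw [e01] at h5
          simpa using h5
        have h2 := hS1 _ h0
        rw [s02] at h2
        have h3 := hS1 _ h1
        rw [s13] at h3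
        exact ⟨h0, h1, h2, h3⟩
      · have h2 := hR1 _ h3
        rw [e32] at h2
        have h1 := hS1 _ h3
        rw [s31] at h1
        have h0 := hS1 _ h2
        rw [s20] at h0
        exact ⟨h0, h1, h2, h3⟩
    rw [eq_top_iff]
    intro v _
    rw [← hPQv v]
    have hdecomp : Q *ᵥ v = (Q *ᵥ v) (Sum.inl 0) • Pi.single (Sum.inl 0) 1
        + (Q *ᵥ v) (Sum.inl 1) • Pi.single (Sum.inl 1) 1
        + (Q *ᵥ v) (Sum.inr 0) • Pi.single (Sum.inr 0) 1
        + (Q *ᵥ v) (Sum.inr 1) • Pi.single (Sum.inr 1) 1 := by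
      funext a
      rcases a with a | a <;> fin_cases a <;> simp [Pi.single_apply]
    rw [hdecomp]
    exact hadd _ _ (hadd _ _ (hadd _ _ (hsmul _ _ h0123.1) (hsmul _ _ h0123.2.1))
      (hsmul _ _ h0123.2.2.1)) (hsmul _ _ h0123.2.2.2)
  · -- commutant
    intro M₀ hM₀
    have hcom : ∀ M : Matrix (Fin 2 ⊕ Fin 2) (Fin 2 ⊕ Fin 2) F, (∃ g ∈ N, g.1 = P * M * Q) →
        (Q * M₀ * P) * M = M * (Q * M₀ * P) := by
      rintro M ⟨g, hg, hgv⟩
      have h1 := hM₀ g.1 ⟨g, hg, rfl⟩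
      rw [hgv] at h1
      calc (Q * M₀ * P) * M = Q * (M₀ * (P * M * Q)) * P := by
            simp only [Matrix.mul_assoc, hQP, Matrix.mul_one]
        _ = Q * ((P * M * Q) * M₀) * P := by rw [h1]
        _ = M * (Q * M₀ * P) := by
            simp only [← Matrix.mul_assoc, hQP, Matrix.one_mul]
    obtain ⟨M', hM'⟩ : ∃ M' : Matrix (Fin 2 ⊕ Fin 2) (Fin 2 ⊕ Fin 2) F, M' = Q * M₀ * P :=
      ⟨_, rfl⟩
    rw [← hM'] at hcom
    have ent : ∀ (A : Matrix (Fin 2 ⊕ Fin 2) (Fin 2 ⊕ Fin 2) F), M' * A = A * M' →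
        ∀ a c, (M' * A) a c = (A * M') a c := fun A h a c => by rw [h]
    have kX1 := ent _ (hcom _ (hXN 1))
    have kXξ := ent _ (hcom _ (hXN ξ))
    have kR := ent _ (hcom _ hRN)
    have kS := ent _ (hcom _ hSN)
    have a1 := kX1 (Sum.inl 0) (Sum.inl 0)
    have a2 := kX1 (Sum.inl 0) (Sum.inr 1)
    have a3 := kX1 (Sum.inr 0) (Sum.inl 1)
    have a4 := kX1 (Sum.inr 0) (Sum.inr 0)
    have a5 := kX1 (Sum.inl 0) (Sum.inl 1)
    have a6 := kX1 (Sum.inr 1) (Sum.inr 0)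
    have a7 := kX1 (Sum.inl 0) (Sum.inr 0)
    have a8 := kX1 (Sum.inr 1) (Sum.inl 1)
    have b1 := kXξ (Sum.inl 0) (Sum.inr 0)
    have b2 := kXξ (Sum.inr 1) (Sum.inl 1)
    have r1 := kR (Sum.inl 0) (Sum.inl 0)
    have r2 := kR (Sum.inl 0) (Sum.inr 1)
    have r3 := kR (Sum.inr 1) (Sum.inl 0)
    have r4 := kR (Sum.inr 1) (Sum.inr 1)
    have s1 := kS (Sum.inl 0) (Sum.inr 0)
    simp [su4tsn_X, su4tsn_R, su4tsn_S, Matrix.mul_apply, Fintype.sum_sum_type, Fin.sum_univ_two,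
      Matrix.one_apply] at a1 a2 a3 a4 a5 a6 a7 a8 b1 b2 r1 r2 r3 r4 s1
    have h03 : M' (Sum.inl 0) (Sum.inr 1) = 0 := by
      have h5 : (ξ ^ q - ξ) * M' (Sum.inl 0) (Sum.inr 1) = 0 := by
        linear_combination -b1 + ξ * a7
      exact (mul_eq_zero.1 h5).resolve_left hξ'
    have h12 : M' (Sum.inl 1) (Sum.inr 0) = 0 := by linear_combination -a7 - h03
    have h30 : M' (Sum.inr 1) (Sum.inl 0) = 0 := by
      have h5 : (ξ ^ q - ξ) * M' (Sum.inr 1) (Sum.inl 0) = 0 := by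
        linear_combination ξ ^ q * a8 - b2
      exact (mul_eq_zero.1 h5).resolve_left hξ'
    have h21 : M' (Sum.inr 0) (Sum.inl 1) = 0 := by linear_combination a8 - h30
    have h01 : M' (Sum.inl 0) (Sum.inl 1) = 0 := by linear_combination -r1 - a1
    have h02 : M' (Sum.inl 0) (Sum.inr 0) = 0 := by linear_combination r2 + a2
    have h31 : M' (Sum.inr 1) (Sum.inl 1) = 0 := by linear_combination r3 + a3
    have h32 : M' (Sum.inr 1) (Sum.inr 0) = 0 := by linear_combination r4 - a4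
    have h11 : M' (Sum.inl 1) (Sum.inl 1) = M' (Sum.inl 0) (Sum.inl 0) := by
      linear_combination -a5
    have h22 : M' (Sum.inr 0) (Sum.inr 0) = M' (Sum.inl 0) (Sum.inl 0) := by
      linear_combination -s1
    have h33 : M' (Sum.inr 1) (Sum.inr 1) = M' (Sum.inl 0) (Sum.inl 0) := by
      linear_combination -a6 - s1
    have hM'c : M' = M' (Sum.inl 0) (Sum.inl 0) •
        (1 : Matrix (Fin 2 ⊕ Fin 2) (Fin 2 ⊕ Fin 2) F) := by
      ext a c
      rcases a with a | a <;> rcases c with c | c <;> fin_cases a <;> fin_cases c <;>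
        simp [Matrix.one_apply, h03, h12, h30, h21, h01, h02, h31, h32, h11, h33, h22, a1, a2, a3,
          a4]
    obtain ⟨c, hc⟩ : ∃ c : F, M' = c • (1 : Matrix (Fin 2 ⊕ Fin 2) (Fin 2 ⊕ Fin 2) F) :=
      ⟨_, hM'c⟩
    have h5 : M₀ = P * M' * Q := by
      rw [hM']
      simp only [← Matrix.mul_assoc, hPQ, Matrix.one_mul]
      rw [Matrix.mul_assoc, hPQ, Matrix.mul_one]
    refine ⟨c, ?_⟩
    rw [h5, hc, Matrix.mul_smul, Matrix.smul_mul, Matrix.mul_one, hPQ]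
  · -- bilinear
    refine ⟨?_, ?_, ?_, ?_⟩ <;> intros <;>
      simp only [hb, su4tsn_beta, Matrix.mulVec_add, Matrix.mulVec_smul, Pi.add_apply,
        Pi.smul_apply, smul_eq_mul] <;> ring
  · -- nondegenerate
    intro v hv
    have hy : Q *ᵥ v ≠ 0 := fun h0 => hv (by rw [← hPQv v, h0, Matrix.mulVec_zero])
    have hskew : ∀ u w, b u w = - b w u := by
      intro u w
      rw [hb, hb]
      simp only [su4tsn_beta]
      ring
    have hex : ∃ x, b x v ≠ 0 := by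
      by_contra hcon
      push Not at hcon
      apply hy
      have key : ∀ z, su4tsn_beta z (Q *ᵥ v) = 0 := fun z => by
        have h1 := hcon (P *ᵥ z)
        rwa [hb, hQPv] at h1
      funext a
      rcases a with a | a <;> fin_cases a
      · have h1 := key (Pi.single (Sum.inl 1) 1)
        simpa [su4tsn_beta, Pi.single_apply] using h1
      · have h1 := key (Pi.single (Sum.inl 0) 1)
        simpa [su4tsn_beta, Pi.single_apply] using h1
      · have h1 := key (Pi.single (Sum.inr 1) 1)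
        simpa [su4tsn_beta, Pi.single_apply] using h1
      · have h1 := key (Pi.single (Sum.inr 0) 1)
        simpa [su4tsn_beta, Pi.single_apply] using h1
    obtain ⟨x, hx⟩ := hex
    exact ⟨⟨x, hx⟩, ⟨x, by rw [hskew]; exact neg_ne_zero.mpr hx⟩⟩
  · -- fixes
    rintro s ⟨g, hg, rfl⟩ u v
    exact ((hN g).1 hg).2 u v

end Cfsg.Agent.Lib.Helper68.SU4TSN
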