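import Mathlib
import Cfsg.Agent.Lib.Helper51.GFDefs

/-!
# S2717 piece GF-ARITH (helper68, for helper51): the arithmetic of the norm-one data
-/

set_option autoImplicit false
set_option linter.unusedSectionVars false
set_option linter.unusedVariables false

namespace Cfsg.Agent.Lib.Helper68.GFARITH

open Cfsg.Agent.Lib.Helper51.GF Cfsg.Agent.Lib.Helper54

universe u v

/-- elements of a subfield of index two are squares (local copy of the standard argument) -/
theorem isSquare_up_aux {F₀ : Type v} [Field F₀] [Fintype F₀] {F : Type u} [Field F] [Fintype F]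
    (e : F₀ →+* F) (hch : ringChar F ≠ 2) (hodd : Fintype.card F₀ % 2 = 1)
    (hcard : Fintype.card F = Fintype.card F₀ ^ 2) (a₀ : F₀) : IsSquare (e a₀) := by
  by_cases ha : a₀ = 0
  · subst ha
    exact ⟨0, by rw [map_zero, mul_zero]⟩
  · have ha' : e a₀ ≠ 0 := by
      intro h0
      exact ha (e.injective (by rw [h0, map_zero]))
    rw [FiniteField.isSquare_iff hch ha']
    obtain ⟨k, hk⟩ : ∃ k, Fintype.card F₀ = 2 * k + 1 := ⟨Fintype.card F₀ / 2, by omega⟩
    have h1 : Fintype.card F / 2 = (Fintype.card F₀ - 1) * (k + 1) := by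
      rw [hcard, hk]
      have h3 : (2 * k + 1) ^ 2 = 2 * ((2 * k + 1 - 1) * (k + 1)) + 1 := by
        rw [Nat.add_sub_cancel]
        ring
      rw [h3]
      generalize (2 * k + 1 - 1) * (k + 1) = X
      omega
    rw [h1, ← map_pow, pow_mul, FiniteField.pow_card_sub_one_eq_one a₀ ha, one_pow, map_one]

theorem arith {F₀ : Type v} [Field F₀] [Fintype F₀] {F : Type u} [Field F] [Fintype F]
    (h2 : (2 : F) ≠ 0) (e : F₀ →+* F) (σ : F ≃+* F) (hσσ : ∀ x, σ (σ x) = x)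
    (he : ∀ x : F, σ x = x ↔ x ∈ Set.range e)
    (hcard : Fintype.card F = Fintype.card F₀ ^ 2)
    (lam : F) (hne : σ lam ≠ lam) (a₀ b₀ : F₀) (ha : e a₀ = gA σ lam) (hb : e b₀ = gB σ lam) :
    ∃ (μ₁ u₁ u₂ : F₀) (nu : F), ¬ IsSquare μ₁ ∧ u₁ ^ 2 + a₀ * u₁ * u₂ + b₀ * u₂ ^ 2 = μ₁ ∧
      nu ^ 2 = e μ₁ ∧
      ∀ n : ℕ, IsSquare (nu ^ n * (e u₁ - e u₂ * σ lam)) ↔
        (Odd n ∧ Fintype.card F₀ % 4 = 1) := by
  have h2₀ : (2 : F₀) ≠ 0 := by
    intro h
    apply h2
    have h3 := congrArg e h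
    rw [map_ofNat, map_zero] at h3
    exact h3
  have hch₀ : ringChar F₀ ≠ 2 := by
    intro h
    apply h2₀
    have := ringChar.Nat.cast_ringChar (R := F₀)
    rw [h] at this
    exact_mod_cast this
  have hch : ringChar F ≠ 2 := by
    intro h
    apply h2
    have := ringChar.Nat.cast_ringChar (R := F)
    rw [h] at this
    exact_mod_cast this
  have hodd₀ : Fintype.card F₀ % 2 = 1 := FiniteField.odd_card_of_char_ne_two hch₀
  obtain ⟨μ₁, hμ⟩ := FiniteField.exists_nonsquare hch₀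
  obtain ⟨u₁, u₂, hu⟩ := exists_norm hch₀ a₀ b₀
    (aniso_fixed e σ lam (hσσ lam) hne he a₀ b₀ ha hb) μ₁
  obtain ⟨nu, hnu⟩ := isSquare_up_aux e hch hodd₀ hcard μ₁
  have hμ0 : μ₁ ≠ 0 := by
    rintro rfl
    exact hμ ⟨0, by simp⟩
  have heμ0 : e μ₁ ≠ 0 := by
    intro h0
    exact hμ0 (e.injective (by rw [h0, map_zero]))
  have hnu0 : nu ≠ 0 := by
    rintro rfl
    apply heμ0
    rw [hnu, mul_zero]
  have hσe : ∀ x : F₀, σ (e x) = e x := fun x => (he _).2 ⟨x, rfl⟩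
  obtain ⟨w, hw⟩ : ∃ w : F, w = e u₁ - e u₂ * σ lam := ⟨_, rfl⟩
  have hσw : σ w = e u₁ - e u₂ * lam := by
    rw [hw, map_sub, map_mul, hσe, hσe, hσσ]
  have hprod : w * σ w = e μ₁ := by
    rw [hσw, hw, ← hu]
    simp only [map_add, map_mul, map_pow, ha, hb]
    unfold gA gB
    ring
  have hw0 : w ≠ 0 := by
    rintro rfl
    apply heμ0
    rw [← hprod, zero_mul]
  have hwns : ¬ IsSquare w := by
    rintro ⟨y, hy⟩
    have hfix : σ (y * σ y) = y * σ y := by
      rw [map_mul, hσσ, mul_comm]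
    obtain ⟨y₀, hy₀⟩ := (he _).1 hfix
    apply hμ
    refine ⟨y₀, e.injective ?_⟩
    rw [map_mul, hy₀, ← hprod, hy, map_mul]
    ring
  obtain ⟨k, hk⟩ : ∃ k, Fintype.card F₀ = 2 * k + 1 := ⟨Fintype.card F₀ / 2, by omega⟩
  have hq2 : Fintype.card F / 2 = 2 * (k * (k + 1)) := by
    rw [hcard, hk]
    have : (2 * k + 1) ^ 2 = 2 * (2 * (k * (k + 1))) + 1 := by ring
    rw [this]
    omega
  have hμk : μ₁ ^ k = -1 := by
    have hk' : Fintype.card F₀ / 2 = k := by omega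
    rcases FiniteField.pow_dichotomy hch₀ hμ0 with h | h
    · exact absurd ((FiniteField.isSquare_iff hch₀ hμ0).2 h) hμ
    · rw [hk'] at h
      exact h
  have hnuq : nu ^ (Fintype.card F / 2) = (-1) ^ (k + 1) := by
    rw [hq2, pow_mul, pow_two, ← hnu, ← map_pow, pow_mul, hμk]
    simp
  have hwq : w ^ (Fintype.card F / 2) = -1 := by
    rcases FiniteField.pow_dichotomy hch hw0 with h | h
    · exact absurd ((FiniteField.isSquare_iff hch hw0).2 h) hwns
    · exact h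
  have hneg : (-1 : F) ≠ 1 := by
    intro h
    apply h2
    linear_combination -h
  refine ⟨μ₁, u₁, u₂, nu, hμ, hu, by rw [pow_two, hnu], ?_⟩
  intro n
  rw [← hw]
  have hne0 : nu ^ n * w ≠ 0 := mul_ne_zero (pow_ne_zero _ hnu0) hw0
  have hchi : (nu ^ n * w) ^ (Fintype.card F / 2) = (-1) ^ ((k + 1) * n + 1) := by
    rw [mul_pow, ← pow_mul, mul_comm n, pow_mul, hnuq, hwq, ← pow_mul, pow_succ]
  rw [FiniteField.isSquare_iff hch hne0, hchi, neg_one_pow_eq_one_iff_even hneg, hk,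
    Nat.even_add_one, Nat.even_mul, Nat.even_add_one, Nat.odd_iff, Nat.even_iff, Nat.even_iff]
  omega

end Cfsg.Agent.Lib.Helper68.GFARITH
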