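import Mathlib
import Cfsg.Agent.Lib.Helper18.MFC2A
import Cfsg.Agent.Lib.Helper52.LangPlus

/-!
# Project PF (S2715, architect helper52), piece C2A (helper68)

In characteristic two `Inndiag(PΩ⁺_{2m}(F)) = Inn`.  Port of `Helper18.MFC2A.inndiag_minus_eq_inn`
(its generic lemmas `simAut_mem_inn`, `pres_of_mem_omega` are used as they are) with the class
predicate `PreservesSingularClasses` over `F` itself and helper52's plus-type toolbox.
-/

set_option autoImplicit false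
set_option linter.unusedSectionVars false
set_option linter.unusedVariables false

namespace Cfsg.Agent.Lib.Helper52.PF

open Module QuadraticMap Matrix
open Cfsg Cfsg.Agent.Lib.Helper51 Cfsg.Agent.Lib.Helper54

universe u v

theorem pfc2a_aux {F : Type u} [Field F] [Fintype F] (h2 : (2 : F) = 0) {m : ℕ} (hm : 4 ≤ m)
    (Q' : (Fin m ⊕ Fin m → F) → F) (hQ' : ⇑(QPlus m F) = Q') :
    autSubgroupOf (fun β : POmega F Q' ≃* POmega F Q' =>
      ∃ g : GL (Fin m ⊕ Fin m) F, g ∈ Geo.quadSimilarityGroup (F := F) Q' ∧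
        PreservesSingularClasses Q' (g : Matrix (Fin m ⊕ Fin m) (Fin m ⊕ Fin m) F) ∧
        IsInducedBySemilinearPOmega Q' g (RingEquiv.refl F) β) =
      Cfsg.Inn (Cfsg.POmega F Q') := by
  subst hQ'
  have hm1 : 1 ≤ m := by omega
  have hQ : (polarBilin (QPlus m F)).Nondegenerate := by
    apply nondegenerate_of_det_gram_ne_zero
    rw [det_gram_QPlus]
    exact pow_ne_zero _ (neg_ne_zero.mpr one_ne_zero)
  have hne : Nonempty (Fin m ⊕ Fin m) := ⟨Sum.inl ⟨0, by omega⟩⟩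
  have hcard : Fintype.card F ≠ 2 ∨ Fintype.card (Fin m ⊕ Fin m) ≠ 4 :=
    Or.inr (by simp; omega)
  have hu : QPlus m F (Pi.single (Sum.inl ⟨0, by omega⟩) 1 +
      Pi.single (Sum.inr ⟨0, by omega⟩) 1) ≠ 0 := by
    rw [coe_QPlus]
    simp only [Cfsg.quadFormPlus, Pi.add_apply]
    rw [Finset.sum_eq_single (⟨0, by omega⟩ : Fin m)]
    · simp
    · intro b _ hb
      simp [hb]
    · intro h
      exact absurd (Finset.mem_univ _) h
  have hH := Cfsg.Agent.Lib.Helper52.LPMain.isHyp_plus (F := F) m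
  have c1 : ∀ g h : GL (Fin m ⊕ Fin m) F, g ∈ Geo.quadSimilarityGroup (F := F) ⇑(QPlus m F) →
      h ∈ Geo.quadSimilarityGroup (F := F) ⇑(QPlus m F) →
      PreservesSingularClasses ⇑(QPlus m F) (g : Matrix (Fin m ⊕ Fin m) (Fin m ⊕ Fin m) F) →
      PreservesSingularClasses ⇑(QPlus m F) (h : Matrix (Fin m ⊕ Fin m) (Fin m ⊕ Fin m) F) →
      PreservesSingularClasses ⇑(QPlus m F)
        ((g * h : GL (Fin m ⊕ Fin m) F) : Matrix (Fin m ⊕ Fin m) (Fin m ⊕ Fin m) F) :=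
    fun g h hg hh Pg Ph =>
      Cfsg.Agent.Lib.Helper52.LPMain.pres_mul hm1 (QPlus m F) hH g h hg hh Pg Ph
  have c2 : ∀ g : GL (Fin m ⊕ Fin m) F, g ∈ Geo.quadSimilarityGroup (F := F) ⇑(QPlus m F) →
      PreservesSingularClasses ⇑(QPlus m F) (g : Matrix (Fin m ⊕ Fin m) (Fin m ⊕ Fin m) F) →
      PreservesSingularClasses ⇑(QPlus m F)
        ((g⁻¹ : GL (Fin m ⊕ Fin m) F) : Matrix (Fin m ⊕ Fin m) (Fin m ⊕ Fin m) F) :=
    fun g hg Pg => Cfsg.Agent.Lib.Helper52.LPMain.pres_inv hm1 (QPlus m F) hH g hg Pg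
  have c3 : ∀ g h : GL (Fin m ⊕ Fin m) F, g ∈ Geo.quadSimilarityGroup (F := F) ⇑(QPlus m F) →
      h ∈ Geo.quadSimilarityGroup (F := F) ⇑(QPlus m F) →
      ¬ PreservesSingularClasses ⇑(QPlus m F)
        (g : Matrix (Fin m ⊕ Fin m) (Fin m ⊕ Fin m) F) →
      ¬ PreservesSingularClasses ⇑(QPlus m F)
        (h : Matrix (Fin m ⊕ Fin m) (Fin m ⊕ Fin m) F) →
      PreservesSingularClasses ⇑(QPlus m F)
        ((g * h : GL (Fin m ⊕ Fin m) F) : Matrix (Fin m ⊕ Fin m) (Fin m ⊕ Fin m) F) :=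
    fun g h hg hh Pg Ph =>
      Cfsg.Agent.Lib.Helper52.LPMain.pres_of_not_not hm1 (QPlus m F) hH g h hg hh Pg Ph
  have c4 := Cfsg.Agent.Lib.Helper52.LPMain.refl_not_pres hm1 (QPlus m F) hH _ hu
  have c5 : ∀ (c : F) (M : Matrix (Fin m ⊕ Fin m) (Fin m ⊕ Fin m) F), c ≠ 0 →
      (PreservesSingularClasses ⇑(QPlus m F) (c • M) ↔
        PreservesSingularClasses ⇑(QPlus m F) M) := by
    intro c M hc
    unfold PreservesSingularClasses
    simp only [Cfsg.Agent.Lib.Helper52.LP.imageSubmodule_smul c hc]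
  apply le_antisymm
  · unfold autSubgroupOf
    rw [Subgroup.closure_le]
    rintro β ⟨g, hg, hP, hind⟩
    have hβ : β = simAut ⇑(QPlus m F) ⟨g, hg⟩ := (induced_iff _ ⟨g, hg⟩ β).mp hind
    rw [SetLike.mem_coe, hβ]
    exact Cfsg.Agent.Lib.Helper18.MFC2A.simAut_mem_inn (QPlus m F) h2 hQ hcard _ hu
      (PreservesSingularClasses ⇑(QPlus m F)) c1 c2 c3 c4 c5 ⟨g, hg⟩ hP
  · rw [inn_eq]
    rintro _ ⟨g, hg, rfl⟩
    obtain ⟨s, hs, hsg⟩ := Subgroup.mem_subgroupOf.mp hg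
    apply Subgroup.subset_closure
    refine ⟨(g : GL (Fin m ⊕ Fin m) F), g.2, ?_, (induced_iff _ g _).mpr rfl⟩
    have h3 := Cfsg.Agent.Lib.Helper18.MFC2A.pres_of_mem_omega (QPlus m F)
      (PreservesSingularClasses ⇑(QPlus m F)) c1 c2 c3 s hs
    have hsg' : ((s : ↥(isometryGroup F ⇑(QPlus m F))) : GL (Fin m ⊕ Fin m) F) =
        (g : GL (Fin m ⊕ Fin m) F) := hsg
    rw [hsg'] at h3
    exact h3

-- PIECE C2A (port of `Helper18.MFC2A.inndiag_minus_eq_inn`)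
theorem inndiag_plus_eq_inn {F : Type u} [Field F] [Fintype F] (h2 : (2 : F) = 0) {m : ℕ}
    (hm : 4 ≤ m) :
    Cfsg.inndiagPOmegaPlus m F = Cfsg.Inn (Cfsg.POmega F (Cfsg.quadFormPlus m F)) := by
  exact pfc2a_aux h2 hm _ (coe_QPlus m F)

end Cfsg.Agent.Lib.Helper52.PF
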