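import Mathlib
import Cfsg.Prelude.Def_GeometricClasses
import Cfsg.Agent.Lib.Helper97.Transv
import Cfsg.Agent.Lib.Helper97.TransvM
import Cfsg.Agent.Lib.Helper71.TP0
import Cfsg.Agent.Lib.Helper71.TP1

set_option autoImplicit false

namespace Cfsg.Agent.Lib.Helper68.TPDET

open Matrix Cfsg.Agent.Lib.Helper71.TP Cfsg.Agent.Lib.Helper97
open scoped Kronecker

variable {a b : ℕ} {F : Type*} [Field F]

/-- DET -/
theorem det_of_InR (r : GL (Fin a × Fin b) F) (w : Fin b → F) (hw : w ≠ 0) (hR : InR r w) :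
    r.1.det = 1 := by
  obtain ⟨j₀, hj₀⟩ : ∃ j, w j ≠ 0 := by
    by_contra h
    push Not at h
    exact hw (funext h)
  obtain ⟨ψ₀, hψ₀⟩ : ∃ ψ₀ : Fin b → F, ψ₀ = (w j₀)⁻¹ • Pi.single j₀ (1 : F) := ⟨_, rfl⟩
  have hψw : ψ₀ ⬝ᵥ w = 1 := by
    rw [hψ₀, smul_dotProduct, single_dotProduct, one_mul, smul_eq_mul, inv_mul_cancel₀ hj₀]
  obtain ⟨T, hT⟩ : ∃ T : Matrix (Fin a × Fin b) (Fin a × Fin b) F, T = r.1 - 1 := ⟨_, rfl⟩
  have hTv : ∀ v, T *ᵥ v = r.1 *ᵥ v - v := by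
    intro v
    rw [hT, Matrix.sub_mulVec, Matrix.one_mulVec]
  obtain ⟨P, hP⟩ : ∃ P : Matrix (Fin a × Fin b) (Fin a) F,
      P = LinearMap.toMatrix' (ptL (a := a) w) := ⟨_, rfl⟩
  obtain ⟨Q, hQ⟩ : ∃ Q : Matrix (Fin a) (Fin a × Fin b) F,
      Q = LinearMap.toMatrix' ((ctrL (a := a) ψ₀).comp (Matrix.toLin' T)) := ⟨_, rfl⟩
  have h1 : T = P * Q := by
    rw [hP, hQ, ← LinearMap.toMatrix'_comp]
    have e : Matrix.toLin' T = (ptL (a := a) w).comp ((ctrL (a := a) ψ₀).comp (Matrix.toLin' T)) := by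
      apply LinearMap.ext
      intro v
      simp only [LinearMap.comp_apply, Matrix.toLin'_apply, ctrL_apply, ptL_apply]
      have hmem : T *ᵥ v ∈ fib (a := a) w := by rw [hTv]; exact hR.1 v
      obtain ⟨u, hu⟩ := mem_fib.mp hmem
      rw [hu, ctr_pt, hψw, one_smul]
    rw [← e, LinearMap.toMatrix'_toLin']
  have h2 : Q * P = 0 := by
    rw [hP, hQ, ← LinearMap.toMatrix'_comp]
    have e : ((ctrL (a := a) ψ₀).comp (Matrix.toLin' T)).comp (ptL (a := a) w) = 0 := by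
      apply LinearMap.ext
      intro u
      simp only [LinearMap.comp_apply, Matrix.toLin'_apply, ctrL_apply, ptL_apply,
        LinearMap.zero_apply]
      rw [hTv, hR.2 _ (pt_mem_fib u w), sub_self]
      exact ctr_zero ψ₀
    rw [e]
    exact map_zero _
  have h3 : r.1 = 1 + P * Q := by
    rw [← h1, hT]; abel
  rw [h3, Matrix.det_one_add_mul_comm, h2, add_zero, Matrix.det_one]

end Cfsg.Agent.Lib.Helper68.TPDET
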