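import Mathlib
import Cfsg.Prelude.Def_GeometricClasses
import Cfsg.Agent.Lib.Helper71.SLP0

/-!
# Project SLC, piece D2q2: over `F₂` the stabiliser of a decomposition into `2`-dimensional
subspaces preserves a symplectic form (the sum of the determinant forms of the members)
-/

set_option autoImplicit false
set_option linter.unusedSectionVars false

namespace Cfsg.Agent.Lib.Helper68.SLCD2q2

open Matrix Cfsg.Geo Cfsg.Agent.Lib.Helper71.SLP

variable {n : ℕ} {F : Type*} [Field F] [Fintype F]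

section frm

variable {t : ℕ} (B : Module.Basis (Σ _ : Fin t, Fin 2) F (Fin n → F))

/-- the sum of the determinant forms of the coordinate planes of a basis indexed by pairs -/
noncomputable def frm (x y : Fin n → F) : F :=
  ∑ i : Fin t, (B.repr x ⟨i, 0⟩ * B.repr y ⟨i, 1⟩ + B.repr x ⟨i, 1⟩ * B.repr y ⟨i, 0⟩)

theorem frm_bilinear : IsBilinearForm (frm B) := by
  refine ⟨?_, ?_, ?_, ?_⟩
  · intro x y v
    unfold frm
    rw [← Finset.sum_add_distrib]
    apply Finset.sum_congr rfl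
    intro i _
    rw [map_add, Finsupp.add_apply, Finsupp.add_apply]
    ring
  · intro c x v
    unfold frm
    rw [Finset.mul_sum]
    apply Finset.sum_congr rfl
    intro i _
    rw [map_smul, Finsupp.smul_apply, Finsupp.smul_apply, smul_eq_mul, smul_eq_mul]
    ring
  · intro v x y
    unfold frm
    rw [← Finset.sum_add_distrib]
    apply Finset.sum_congr rfl
    intro i _
    rw [map_add, Finsupp.add_apply, Finsupp.add_apply]
    ring
  · intro c v x
    unfold frm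
    rw [Finset.mul_sum]
    apply Finset.sum_congr rfl
    intro i _
    rw [map_smul, Finsupp.smul_apply, Finsupp.smul_apply, smul_eq_mul, smul_eq_mul]
    ring

theorem frm_symm (x y : Fin n → F) : frm B x y = frm B y x := by
  unfold frm
  apply Finset.sum_congr rfl
  intro i _
  ring

theorem frm_self (h2 : (2 : F) = 0) (x : Fin n → F) : frm B x x = 0 := by
  unfold frm
  apply Finset.sum_eq_zero
  intro i _
  linear_combination (B.repr x ⟨i, 0⟩ * B.repr x ⟨i, 1⟩) * h2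

theorem frm_basis_zero (i : Fin t) (v : Fin n → F) :
    frm B (B ⟨i, 0⟩) v = B.repr v ⟨i, 1⟩ := by
  unfold frm
  rw [Finset.sum_eq_single i]
  · rw [B.repr_self, Finsupp.single_apply, Finsupp.single_apply, if_pos rfl, if_neg (by simp),
      one_mul, zero_mul, add_zero]
  · intro j _ hji
    have h1 : (⟨i, 0⟩ : Σ _ : Fin t, Fin 2) ≠ ⟨j, 0⟩ := fun h => hji (congrArg Sigma.fst h).symm
    have h2 : (⟨i, 0⟩ : Σ _ : Fin t, Fin 2) ≠ ⟨j, 1⟩ := fun h => hji (congrArg Sigma.fst h).symm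
    rw [B.repr_self, Finsupp.single_apply, Finsupp.single_apply, if_neg h1, if_neg h2, zero_mul,
      zero_mul, add_zero]
  · intro h
    exact absurd (Finset.mem_univ i) h

theorem frm_basis_one (i : Fin t) (v : Fin n → F) :
    frm B (B ⟨i, 1⟩) v = B.repr v ⟨i, 0⟩ := by
  unfold frm
  rw [Finset.sum_eq_single i]
  · rw [B.repr_self, Finsupp.single_apply, Finsupp.single_apply, if_pos rfl, if_neg (by simp),
      one_mul, zero_mul, zero_add]
  · intro j _ hji
    have h1 : (⟨i, 1⟩ : Σ _ : Fin t, Fin 2) ≠ ⟨j, 0⟩ := fun h => hji (congrArg Sigma.fst h).symm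
    have h2 : (⟨i, 1⟩ : Σ _ : Fin t, Fin 2) ≠ ⟨j, 1⟩ := fun h => hji (congrArg Sigma.fst h).symm
    rw [B.repr_self, Finsupp.single_apply, Finsupp.single_apply, if_neg h1, if_neg h2, zero_mul,
      zero_mul, add_zero]
  · intro h
    exact absurd (Finset.mem_univ i) h

theorem frm_nondegenerate : IsNondegenerateForm (frm B) := by
  intro v hv
  have hex : ∃ p, B.repr v p ≠ 0 := by
    by_contra hcon
    push Not at hcon
    apply hv
    apply B.repr.injective
    rw [map_zero]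
    exact Finsupp.ext hcon
  obtain ⟨⟨i, a⟩, hp⟩ := hex
  have ha : a = 0 ∨ a = 1 := by
    fin_cases a <;> simp
  rcases ha with rfl | rfl
  · exact ⟨⟨B ⟨i, 1⟩, by rw [frm_basis_one]; exact hp⟩,
      ⟨B ⟨i, 1⟩, by rw [frm_symm, frm_basis_one]; exact hp⟩⟩
  · exact ⟨⟨B ⟨i, 0⟩, by rw [frm_basis_zero]; exact hp⟩,
      ⟨B ⟨i, 0⟩, by rw [frm_symm, frm_basis_zero]; exact hp⟩⟩

variable {B} {D : Fin t → Submodule F (Fin n → F)}

theorem frm_eq_zero_of_ne
    (hP2 : ∀ (k : Fin t) (x : Fin n → F), x ∈ D k → ∀ i, i ≠ k → ∀ a : Fin 2,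
      B.repr x ⟨i, a⟩ = 0)
    {k l : Fin t} {x y : Fin n → F} (hx : x ∈ D k) (hy : y ∈ D l) (hkl : k ≠ l) :
    frm B x y = 0 := by
  unfold frm
  apply Finset.sum_eq_zero
  intro i _
  by_cases hik : i = k
  · subst hik
    rw [hP2 l y hy i hkl 0, hP2 l y hy i hkl 1]
    ring
  · rw [hP2 k x hx i hik 0, hP2 k x hx i hik 1]
    ring

theorem eq_of_coords
    (hP2 : ∀ (k : Fin t) (x : Fin n → F), x ∈ D k → ∀ i, i ≠ k → ∀ a : Fin 2,
      B.repr x ⟨i, a⟩ = 0)
    {k : Fin t} {x y : Fin n → F} (hx : x ∈ D k) (hy : y ∈ D k)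
    (h0 : B.repr x ⟨k, 0⟩ = B.repr y ⟨k, 0⟩) (h1 : B.repr x ⟨k, 1⟩ = B.repr y ⟨k, 1⟩) :
    x = y := by
  apply B.repr.injective
  apply Finsupp.ext
  rintro ⟨i, a⟩
  by_cases hik : i = k
  · subst hik
    have ha : a = 0 ∨ a = 1 := by
      fin_cases a <;> simp
    rcases ha with rfl | rfl
    · exact h0
    · exact h1
  · rw [hP2 k x hx i hik a, hP2 k y hy i hik a]

theorem zero_or_one (hq : Fintype.card F = 2) (c : F) : c = 0 ∨ c = 1 := by
  have h := FiniteField.pow_card c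
  rw [hq] at h
  have h' : c * (c - 1) = 0 := by linear_combination h
  rcases mul_eq_zero.mp h' with h1 | h1
  · exact Or.inl h1
  · exact Or.inr (sub_eq_zero.mp h1)

theorem frm_eq_one (hq : Fintype.card F = 2)
    (hP2 : ∀ (k : Fin t) (x : Fin n → F), x ∈ D k → ∀ i, i ≠ k → ∀ a : Fin 2,
      B.repr x ⟨i, a⟩ = 0)
    {k : Fin t} {x y : Fin n → F} (hx : x ∈ D k) (hy : y ∈ D k) (hx0 : x ≠ 0) (hy0 : y ≠ 0)
    (hxy : x ≠ y) : frm B x y = 1 := by
  have hval : frm B x y =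
      B.repr x ⟨k, 0⟩ * B.repr y ⟨k, 1⟩ + B.repr x ⟨k, 1⟩ * B.repr y ⟨k, 0⟩ := by
    unfold frm
    rw [Finset.sum_eq_single k]
    · intro i _ hik
      rw [hP2 k x hx i hik 0, hP2 k x hx i hik 1]
      ring
    · intro h
      exact absurd (Finset.mem_univ k) h
  rw [hval]
  have hxne : ¬ (B.repr x ⟨k, 0⟩ = 0 ∧ B.repr x ⟨k, 1⟩ = 0) := by
    rintro ⟨h0, h1⟩
    apply hx0
    apply eq_of_coords hP2 hx (D k).zero_mem
    · rw [h0, map_zero, Finsupp.zero_apply]
    · rw [h1, map_zero, Finsupp.zero_apply]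
  have hyne : ¬ (B.repr y ⟨k, 0⟩ = 0 ∧ B.repr y ⟨k, 1⟩ = 0) := by
    rintro ⟨h0, h1⟩
    apply hy0
    apply eq_of_coords hP2 hy (D k).zero_mem
    · rw [h0, map_zero, Finsupp.zero_apply]
    · rw [h1, map_zero, Finsupp.zero_apply]
  have hxyne : ¬ (B.repr x ⟨k, 0⟩ = B.repr y ⟨k, 0⟩ ∧ B.repr x ⟨k, 1⟩ = B.repr y ⟨k, 1⟩) := by
    rintro ⟨h0, h1⟩
    exact hxy (eq_of_coords hP2 hx hy h0 h1)
  generalize B.repr x ⟨k, 0⟩ = x0 at hxne hxyne ⊢
  generalize B.repr x ⟨k, 1⟩ = x1 at hxne hxyne ⊢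
  generalize B.repr y ⟨k, 0⟩ = y0 at hyne hxyne ⊢
  generalize B.repr y ⟨k, 1⟩ = y1 at hyne hxyne ⊢
  rcases zero_or_one hq x0 with rfl | rfl <;> rcases zero_or_one hq x1 with rfl | rfl <;>
  rcases zero_or_one hq y0 with rfl | rfl <;> rcases zero_or_one hq y1 with rfl | rfl <;>
  simp at hxne hyne hxyne ⊢

end frm

/-- D2q2 -/
theorem D2q2 (hq : Fintype.card F = 2) {t : ℕ} (D : Fin t → Submodule F (Fin n → F))
    (hD : IsMDecomposition 2 D) :
    ∃ f : (Fin n → F) → (Fin n → F) → F, IsSymplecticForm f ∧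
      decompositionStabilizer D ≤ similarityGroup f := by
  classical
  have h2 : (2 : F) = 0 := by
    have h := Nat.cast_card_eq_zero F
    rw [hq] at h
    exact_mod_cast h
  have h := DirectSum.isInternal_submodule_of_iSupIndep_of_iSup_eq_top hD.indep hD.iSup_eq_top
  obtain ⟨B, hB⟩ : ∃ B : Module.Basis (Σ _ : Fin t, Fin 2) F (Fin n → F),
      B = h.collectedBasis (fun i => Module.finBasisOfFinrankEq F (D i) (hD.finrank_eq i)) :=
    ⟨_, rfl⟩
  have hP1 : ∀ p : Σ _ : Fin t, Fin 2, B p ∈ D p.1 := by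
    intro p
    rw [hB]
    exact h.collectedBasis_mem _ p
  have hP2 : ∀ (k : Fin t) (x : Fin n → F), x ∈ D k → ∀ i, i ≠ k → ∀ a : Fin 2,
      B.repr x ⟨i, a⟩ = 0 := by
    intro k x hx i hik a
    rw [hB]
    exact h.collectedBasis_repr_of_mem_ne _ (Ne.symm hik) hx
  refine ⟨frm B, ⟨frm_bilinear B, ?_, frm_self B h2, frm_nondegenerate B⟩, ?_⟩
  · intro v w
    linear_combination (frm B w v) * h2 + frm_symm B v w
  · rintro g ⟨σ, hσ⟩
    have hTmem : ∀ i, ∀ x ∈ D i, (g : Matrix (Fin n) (Fin n) F) *ᵥ x ∈ D (σ i) := by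
      intro i x hx
      rw [← hσ i]
      exact ⟨x, hx, Matrix.toLin'_apply _ _⟩
    have hTinj : ∀ x y : Fin n → F, (g : Matrix (Fin n) (Fin n) F) *ᵥ x =
        (g : Matrix (Fin n) (Fin n) F) *ᵥ y → x = y := by
      intro x y hxy
      have e : ∀ z : Fin n → F, ((g⁻¹ : GL (Fin n) F) : Matrix (Fin n) (Fin n) F) *ᵥ
          ((g : Matrix (Fin n) (Fin n) F) *ᵥ z) = z := by
        intro z
        rw [Matrix.mulVec_mulVec, ← Units.val_mul, inv_mul_cancel, Units.val_one,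
          Matrix.one_mulVec]
      rw [← e x, ← e y, hxy]
    have hTne : ∀ x : Fin n → F, x ≠ 0 → (g : Matrix (Fin n) (Fin n) F) *ᵥ x ≠ 0 := by
      intro x hx h0
      apply hx
      apply hTinj
      rw [h0, Matrix.mulVec_zero]
    have hbil := frm_bilinear B
    obtain ⟨φ, hφ⟩ : ∃ φ : (Fin n → F) →ₗ[F] (Fin n → F) →ₗ[F] F,
        φ = LinearMap.mk₂ F (frm B) hbil.add_left hbil.smul_left hbil.add_right hbil.smul_right :=
      ⟨_, rfl⟩
    have hφapp : ∀ x y, φ x y = frm B x y := by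
      intro x y
      rw [hφ]
      rfl
    have key : φ = φ.compl₁₂ (Matrix.toLin' (g : Matrix (Fin n) (Fin n) F))
        (Matrix.toLin' (g : Matrix (Fin n) (Fin n) F)) := by
      apply B.ext
      intro p
      apply B.ext
      intro q
      rw [LinearMap.compl₁₂_apply, hφapp, hφapp, Matrix.toLin'_apply, Matrix.toLin'_apply]
      obtain ⟨i, a⟩ := p
      obtain ⟨j, b⟩ := q
      by_cases hij : i = j
      · subst hij
        by_cases hab : a = b
        · subst hab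
          rw [frm_self B h2, frm_self B h2]
        · have hne : B ⟨i, a⟩ ≠ B ⟨i, b⟩ := by
            intro hh
            apply hab
            have h3 := B.injective hh
            exact eq_of_heq (Sigma.mk.inj h3).2
          rw [frm_eq_one hq hP2 (hP1 ⟨i, a⟩) (hP1 ⟨i, b⟩) (B.ne_zero _) (B.ne_zero _) hne,
            frm_eq_one hq hP2 (hTmem i _ (hP1 ⟨i, a⟩)) (hTmem i _ (hP1 ⟨i, b⟩))
              (hTne _ (B.ne_zero _)) (hTne _ (B.ne_zero _)) (fun hh => hne (hTinj _ _ hh))]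
      · rw [frm_eq_zero_of_ne hP2 (hP1 ⟨i, a⟩) (hP1 ⟨j, b⟩) hij,
          frm_eq_zero_of_ne hP2 (hTmem i _ (hP1 ⟨i, a⟩)) (hTmem j _ (hP1 ⟨j, b⟩))
            (fun hh => hij (σ.injective hh))]
    refine ⟨1, fun u v => ?_⟩
    have h3 := LinearMap.congr_fun (LinearMap.congr_fun key u) v
    rw [LinearMap.compl₁₂_apply, hφapp, hφapp, Matrix.toLin'_apply, Matrix.toLin'_apply] at h3
    rw [Units.val_one, one_mul]
    exact h3.symm

end Cfsg.Agent.Lib.Helper68.SLCD2q2
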