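import Mathlib
import Cfsg.Prelude.Def_GeometricClasses
import Cfsg.Prelude.Def_LieClassical

/-!
# Project SPP (helper71), piece TFS

From Gram matrices `G₁` (alternating) and `G₂` (symmetric) to forms `f₁`, `f₂` with the tensor form
structure of the statements.
-/

set_option autoImplicit false
set_option linter.unusedSectionVars false

namespace Cfsg.Agent.Lib.Helper68.SPPTFS

open Matrix Cfsg.Geo
open scoped Kronecker

section aux

variable {F : Type*} [Field F]

theorem tfs_bilinear {m : ℕ} (G : Matrix (Fin m) (Fin m) F) :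
    IsBilinearForm (formOfGram id G) where
  add_left x y v := by
    simp only [formOfGram, Pi.add_apply, add_mul, Finset.sum_add_distrib]
  smul_left c x v := by
    simp only [formOfGram, Pi.smul_apply, smul_eq_mul, Finset.mul_sum, mul_assoc]
  add_right v x y := by
    simp only [formOfGram, Pi.add_apply, id, mul_add, Finset.sum_add_distrib]
  smul_right c v x := by
    simp only [formOfGram, Pi.smul_apply, smul_eq_mul, Finset.mul_sum, id]
    refine Finset.sum_congr rfl (fun a _ => Finset.sum_congr rfl (fun b _ => ?_))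
    ring

theorem tfs_apply {m : ℕ} (G : Matrix (Fin m) (Fin m) F) (x y : Fin m → F) :
    formOfGram id G x y = x ⬝ᵥ (G *ᵥ y) := by
  simp only [formOfGram, dotProduct, Matrix.mulVec, id, Finset.mul_sum, mul_assoc]

theorem tfs_nondeg {m : ℕ} (G : Matrix (Fin m) (Fin m) F) (hG : G.det ≠ 0) :
    IsNondegenerateForm (formOfGram id G) := by
  intro v hv
  constructor
  · have h1 : G *ᵥ v ≠ 0 := fun h => hv (Matrix.eq_zero_of_mulVec_eq_zero hG h)
    obtain ⟨a, ha⟩ : ∃ a, (G *ᵥ v) a ≠ 0 := by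
      by_contra hcon
      push Not at hcon
      exact h1 (funext hcon)
    refine ⟨Pi.single a 1, ?_⟩
    rw [tfs_apply, single_dotProduct, one_mul]
    exact ha
  · have h1 : v ᵥ* G ≠ 0 := fun h => hv (Matrix.eq_zero_of_vecMul_eq_zero hG h)
    obtain ⟨b, hb⟩ : ∃ b, (v ᵥ* G) b ≠ 0 := by
      by_contra hcon
      push Not at hcon
      exact h1 (funext hcon)
    refine ⟨Pi.single b 1, ?_⟩
    rw [tfs_apply, Matrix.dotProduct_mulVec, dotProduct_single, mul_one]
    exact hb

theorem tfs_swap {m : ℕ} (G : Matrix (Fin m) (Fin m) F) (x y : Fin m → F) :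
    formOfGram id G x y = formOfGram id Gᵀ y x := by
  simp only [formOfGram, id, Matrix.transpose_apply]
  rw [Finset.sum_comm]
  refine Finset.sum_congr rfl (fun a _ => Finset.sum_congr rfl (fun b _ => ?_))
  ring

theorem tfs_neg {m : ℕ} (G : Matrix (Fin m) (Fin m) F) (x y : Fin m → F) :
    formOfGram id (-G) x y = - formOfGram id G x y := by
  simp only [formOfGram, id, Matrix.neg_apply, mul_neg, neg_mul, Finset.sum_neg_distrib]

theorem tfs_alt {m : ℕ} (G : Matrix (Fin m) (Fin m) F) (ha : Gᵀ = -G) (hd : ∀ i, G i i = 0)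
    (v : Fin m → F) : formOfGram id G v v = 0 := by
  have hG : ∀ a b, G b a = - G a b := fun a b => by
    have := congrFun (congrFun ha a) b
    simpa [Matrix.transpose_apply] using this
  simp only [formOfGram, id]
  rw [← Fintype.sum_prod_type' (fun a b => v a * G a b * v b)]
  apply Finset.sum_involution (fun (p : Fin m × Fin m) _ => (p.2, p.1))
  · intro p _
    show v p.1 * G p.1 p.2 * v p.2 + v p.2 * G p.2 p.1 * v p.1 = 0
    rw [hG p.1 p.2]
    ring
  · intro p _ hne hp
    apply hne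
    have h1 : p.2 = p.1 := congrArg Prod.fst hp
    show v p.1 * G p.1 p.2 * v p.2 = 0
    rw [h1, hd, mul_zero, zero_mul]
  · intro p _
    exact Finset.mem_univ _
  · intro p _
    rfl

theorem tfs_gram {m : ℕ} (G : Matrix (Fin m) (Fin m) F) : gramMatrix (formOfGram id G) = G := by
  ext a b
  simp [gramMatrix, formOfGram, Pi.single_apply, ite_mul, mul_ite]

end aux

variable {n : ℕ} {F : Type*} [Field F] [Fintype F]

/-- TFS: from the Gram matrices to forms: the tensor form structure of the statements. -/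
theorem TFS (f : (Fin n → F) → (Fin n → F) → F) {d k : ℕ} (e : Fin n ≃ Fin d × Fin k)
    (P : GL (Fin n) F) (G₁ : Matrix (Fin d) (Fin d) F) (G₂ : Matrix (Fin k) (Fin k) F)
    (h1 : G₁.det ≠ 0) (h2 : G₂.det ≠ 0) (ha : G₁ᵀ = -G₁) (hd : ∀ i, G₁ i i = 0) (hs : G₂ᵀ = G₂)
    (hid : ∀ x y : Fin d × Fin k → F,
      f (P.1 *ᵥ (x ∘ e)) (P.1 *ᵥ (y ∘ e)) = formOfGram id (G₁ ⊗ₖ G₂) x y) :
    ∃ (f₁ : (Fin d → F) → (Fin d → F) → F) (f₂ : (Fin k → F) → (Fin k → F) → F),
      IsSymplecticForm f₁ ∧ IsSymmetricForm f₂ ∧ IsTensorFormStructure id f f₁ f₂ e P := by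
  refine ⟨formOfGram id G₁, formOfGram id G₂, ?_, ?_, ?_⟩
  · refine ⟨tfs_bilinear G₁, ?_, tfs_alt G₁ ha hd, tfs_nondeg G₁ h1⟩
    intro v w
    rw [tfs_swap G₁ v w, ha, tfs_neg]
  · refine ⟨tfs_bilinear G₂, ?_, tfs_nondeg G₂ h2⟩
    intro u v
    rw [tfs_swap G₂ u v, hs]
  · refine ⟨1, one_ne_zero, ?_⟩
    intro x y
    rw [tfs_gram, tfs_gram, one_mul]
    exact hid x y

end Cfsg.Agent.Lib.Helper68.SPPTFS
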