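import Mathlib
import Cfsg.Agent.Lib.Helper70.D11Defs

/-!
# S0679 piece JWS (helper68, for helper70): soundness of the Jordan witness test
-/

set_option autoImplicit false

namespace Cfsg.Agent.Lib.Helper68.D11

open Equiv Cfsg.Agent.Lib.Helper70.D11

theorem orb_chain (hgt : ∀ (g : P11) (i : Fin 11), gt (code g) (i : ℕ) = ((g i : Fin 11) : ℕ))
    (g : P11) (x : Fin 11) :
    orb (code g) (x : ℕ) =
      if g x = x then 0 else
      if g (g x) = x then 0 else
      if g (g (g x)) = x then 1 else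
      if g (g (g (g x))) = x then 0 else
      if g (g (g (g (g x)))) = x then 4096 else
      if g (g (g (g (g (g x))))) = x then 100 else
      if g (g (g (g (g (g (g x)))))) = x then 16777216 else
      if g (g (g (g (g (g (g (g x))))))) = x then 0 else
      if g (g (g (g (g (g (g (g (g x)))))))) = x then 100 else
      if g (g (g (g (g (g (g (g (g (g x))))))))) = x then 409600 else
      if g (g (g (g (g (g (g (g (g (g (g x)))))))))) = x then 0 else 1678131300 := by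
  unfold orb
  simp only [sapp_eq, hgt, Bool.cond_eq_ite, Nat.beq_eq, Fin.val_inj]

theorem orb_spec (hgt : ∀ (g : P11) (i : Fin 11), gt (code g) (i : ℕ) = ((g i : Fin 11) : ℕ))
    (g : P11) (x : Fin 11) :
    (orb (code g) (x : ℕ) = 0 ∧ ((g ^ 1) x = x ∨ (g ^ 2) x = x ∨ (g ^ 4) x = x ∨ (g ^ 8) x = x ∨
        (g ^ 11) x = x)) ∨
    (orb (code g) (x : ℕ) = 1 ∧ (g ^ 3) x = x ∧ (g ^ 2) x ≠ x) ∨
    (orb (code g) (x : ℕ) = 4096 ∧ (g ^ 5) x = x ∧ (g ^ 4) x ≠ x) ∨
    (orb (code g) (x : ℕ) = 100 ∧ ((g ^ 6) x = x ∨ (g ^ 9) x = x)) ∨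
    (orb (code g) (x : ℕ) = 16777216 ∧ (g ^ 7) x = x ∧ (g ^ 5) x ≠ x) ∨
    (orb (code g) (x : ℕ) = 409600 ∧ (g ^ 10) x = x) ∨
    orb (code g) (x : ℕ) = 1678131300 := by
  rw [orb_chain hgt]
  by_cases h1 : g x = x
  · rw [if_pos h1]
    exact Or.inl ⟨rfl, Or.inl h1⟩
  rw [if_neg h1]
  by_cases h2 : g (g x) = x
  · rw [if_pos h2]
    exact Or.inl ⟨rfl, Or.inr (Or.inl h2)⟩
  rw [if_neg h2]
  by_cases h3 : g (g (g x)) = x
  · rw [if_pos h3]
    exact Or.inr (Or.inl ⟨rfl, h3, h2⟩)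
  rw [if_neg h3]
  by_cases h4 : g (g (g (g x))) = x
  · rw [if_pos h4]
    exact Or.inl ⟨rfl, Or.inr (Or.inr (Or.inl h4))⟩
  rw [if_neg h4]
  by_cases h5 : g (g (g (g (g x)))) = x
  · rw [if_pos h5]
    exact Or.inr (Or.inr (Or.inl ⟨rfl, h5, h4⟩))
  rw [if_neg h5]
  by_cases h6 : g (g (g (g (g (g x))))) = x
  · rw [if_pos h6]
    exact Or.inr (Or.inr (Or.inr (Or.inl ⟨rfl, Or.inl h6⟩)))
  rw [if_neg h6]
  by_cases h7 : g (g (g (g (g (g (g x)))))) = x
  · rw [if_pos h7]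
    exact Or.inr (Or.inr (Or.inr (Or.inr (Or.inl ⟨rfl, h7, h5⟩))))
  rw [if_neg h7]
  by_cases h8 : g (g (g (g (g (g (g (g x))))))) = x
  · rw [if_pos h8]
    exact Or.inl ⟨rfl, Or.inr (Or.inr (Or.inr (Or.inl h8)))⟩
  rw [if_neg h8]
  by_cases h9 : g (g (g (g (g (g (g (g (g x)))))))) = x
  · rw [if_pos h9]
    exact Or.inr (Or.inr (Or.inr (Or.inl ⟨rfl, Or.inr h9⟩)))
  rw [if_neg h9]
  by_cases h10 : g (g (g (g (g (g (g (g (g (g x))))))))) = x
  · rw [if_pos h10]
    exact Or.inr (Or.inr (Or.inr (Or.inr (Or.inr (Or.inl ⟨rfl, h10⟩)))))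
  rw [if_neg h10]
  by_cases h11 : g (g (g (g (g (g (g (g (g (g (g x)))))))))) = x
  · rw [if_pos h11]
    exact Or.inl ⟨rfl, Or.inr (Or.inr (Or.inr (Or.inr h11)))⟩
  rw [if_neg h11]
  exact Or.inr (Or.inr (Or.inr (Or.inr (Or.inr (Or.inr rfl)))))

/-- score of the point `x` for the prime 3 -/
def sA (g : P11) (x : Fin 11) : ℕ := orb (code g) (x : ℕ) % 4096

/-- score of the point `x` for the prime 5 -/
def sB (g : P11) (x : Fin 11) : ℕ := (orb (code g) (x : ℕ) / 4096) % 4096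

/-- score of the point `x` for the prime 7 -/
def sC (g : P11) (x : Fin 11) : ℕ := orb (code g) (x : ℕ) / 16777216

theorem orb_eq (hgt : ∀ (g : P11) (i : Fin 11), gt (code g) (i : ℕ) = ((g i : Fin 11) : ℕ))
    (g : P11) (x : Fin 11) :
    orb (code g) (x : ℕ) = sA g x + 4096 * sB g x + 16777216 * sC g x := by
  unfold sA sB sC
  omega

theorem pow_fix_of_dvd (g : P11) (x : Fin 11) (d k : ℕ) (hd : d ∣ k) (h : (g ^ d) x = x) :
    (g ^ k) x = x := by
  obtain ⟨m, rfl⟩ := hd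
  rw [pow_mul]
  exact Perm.pow_apply_eq_self_of_apply_eq_self h m

theorem jw_of_set (g : P11) (p k : ℕ) (hp : p = 3 ∨ p = 5 ∨ p = 7) (S : Finset (Fin 11))
    (hS : S.card = p) (h1 : ∀ x ∈ S, (g ^ p) x = x ∧ (g ^ k) x ≠ x)
    (h2 : ∀ x, x ∉ S → (g ^ k) x = x) : JW g := by
  refine ⟨k, p, hp, ?_, ?_⟩
  · have hsupp : (g ^ k).support = S := by
      ext x
      rw [Perm.mem_support]
      constructor
      · intro hx
        by_contra hxS
        exact hx (h2 x hxS)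
      · intro hx
        exact (h1 x hx).2
    rw [hsupp, hS]
  · ext x
    rw [Perm.one_apply]
    by_cases hx : x ∈ S
    · rw [← pow_mul, mul_comm, pow_mul]
      exact congrArg _ (Perm.pow_apply_eq_self_of_apply_eq_self (h1 x hx).1 k)
    · exact congrArg _ (Perm.pow_apply_eq_self_of_apply_eq_self (h2 x hx) p)

theorem sum_cases (s : Fin 11 → ℕ) (hs : ∀ x, s x = 0 ∨ s x = 1 ∨ s x = 100) (p : ℕ)
    (hp : p < 100) (h : ∑ x, s x = p) :
    (Finset.univ.filter (fun x => s x = 1)).card = p ∧ ∀ x, s x ≠ 1 → s x = 0 := by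
  have hle : ∀ x, s x ≤ p := fun x =>
    h ▸ Finset.single_le_sum (fun _ _ => Nat.zero_le _) (Finset.mem_univ x)
  have h01 : ∀ x, s x = 0 ∨ s x = 1 := by
    intro x
    rcases hs x with h0 | h1 | h100
    · exact Or.inl h0
    · exact Or.inr h1
    · have := hle x
      omega
  refine ⟨?_, fun x hx => (h01 x).resolve_right hx⟩
  rw [Finset.card_filter, ← h]
  apply Finset.sum_congr rfl
  intro x _
  rcases h01 x with h0 | h1
  · simp [h0]
  · simp [h1]

theorem sA_vals (hgt : ∀ (g : P11) (i : Fin 11), gt (code g) (i : ℕ) = ((g i : Fin 11) : ℕ))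
    (g : P11) (x : Fin 11) : sA g x = 0 ∨ sA g x = 1 ∨ sA g x = 100 := by
  unfold sA
  rcases orb_spec hgt g x with h | h | h | h | h | h | h
  · rw [h.1]; simp
  · rw [h.1]; simp
  · rw [h.1]; simp
  · rw [h.1]; simp
  · rw [h.1]; simp
  · rw [h.1]; simp
  · rw [h]; simp

theorem sB_vals (hgt : ∀ (g : P11) (i : Fin 11), gt (code g) (i : ℕ) = ((g i : Fin 11) : ℕ))
    (g : P11) (x : Fin 11) : sB g x = 0 ∨ sB g x = 1 ∨ sB g x = 100 := by
  unfold sB
  rcases orb_spec hgt g x with h | h | h | h | h | h | h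
  · rw [h.1]; simp
  · rw [h.1]; simp
  · rw [h.1]; simp
  · rw [h.1]; simp
  · rw [h.1]; simp
  · rw [h.1]; simp
  · rw [h]; simp

theorem sC_vals (hgt : ∀ (g : P11) (i : Fin 11), gt (code g) (i : ℕ) = ((g i : Fin 11) : ℕ))
    (g : P11) (x : Fin 11) : sC g x = 0 ∨ sC g x = 1 ∨ sC g x = 100 := by
  unfold sC
  rcases orb_spec hgt g x with h | h | h | h | h | h | h
  · rw [h.1]; simp
  · rw [h.1]; simp
  · rw [h.1]; simp
  · rw [h.1]; simp
  · rw [h.1]; simp
  · rw [h.1]; simp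
  · rw [h]; simp

theorem sA_one (hgt : ∀ (g : P11) (i : Fin 11), gt (code g) (i : ℕ) = ((g i : Fin 11) : ℕ))
    (g : P11) (x : Fin 11) (h : sA g x = 1) : (g ^ 3) x = x ∧ (g ^ 3080) x ≠ x := by
  unfold sA at h
  rcases orb_spec hgt g x with h' | h' | h' | h' | h' | h' | h'
  · rw [h'.1] at h; omega
  · obtain ⟨-, e3, h2⟩ := h'
    refine ⟨e3, ?_⟩
    have e : (g ^ 3080) x = (g ^ 2) x := by
      rw [show (3080 : ℕ) = 2 + 3 * 1026 by norm_num, pow_add, pow_mul, Perm.mul_apply,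
        Perm.pow_apply_eq_self_of_apply_eq_self e3]
    rw [e]
    exact h2
  · rw [h'.1] at h; omega
  · rw [h'.1] at h; omega
  · rw [h'.1] at h; omega
  · rw [h'.1] at h; omega
  · rw [h'] at h; omega

theorem sB_one (hgt : ∀ (g : P11) (i : Fin 11), gt (code g) (i : ℕ) = ((g i : Fin 11) : ℕ))
    (g : P11) (x : Fin 11) (h : sB g x = 1) : (g ^ 5) x = x ∧ (g ^ 5544) x ≠ x := by
  unfold sB at h
  rcases orb_spec hgt g x with h' | h' | h' | h' | h' | h' | h'
  · rw [h'.1] at h; omega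
  · rw [h'.1] at h; omega
  · obtain ⟨-, e5, h4⟩ := h'
    refine ⟨e5, ?_⟩
    have e : (g ^ 5544) x = (g ^ 4) x := by
      rw [show (5544 : ℕ) = 4 + 5 * 1108 by norm_num, pow_add, pow_mul, Perm.mul_apply,
        Perm.pow_apply_eq_self_of_apply_eq_self e5]
    rw [e]
    exact h4
  · rw [h'.1] at h; omega
  · rw [h'.1] at h; omega
  · rw [h'.1] at h; omega
  · rw [h'] at h; omega

theorem sC_one (hgt : ∀ (g : P11) (i : Fin 11), gt (code g) (i : ℕ) = ((g i : Fin 11) : ℕ))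
    (g : P11) (x : Fin 11) (h : sC g x = 1) : (g ^ 7) x = x ∧ (g ^ 3960) x ≠ x := by
  unfold sC at h
  rcases orb_spec hgt g x with h' | h' | h' | h' | h' | h' | h'
  · rw [h'.1] at h; omega
  · rw [h'.1] at h; omega
  · rw [h'.1] at h; omega
  · rw [h'.1] at h; omega
  · obtain ⟨-, e7, h5⟩ := h'
    refine ⟨e7, ?_⟩
    have e : (g ^ 3960) x = (g ^ 5) x := by
      rw [show (3960 : ℕ) = 5 + 7 * 565 by norm_num, pow_add, pow_mul, Perm.mul_apply,
        Perm.pow_apply_eq_self_of_apply_eq_self e7]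
    rw [e]
    exact h5
  · rw [h'.1] at h; omega
  · rw [h'] at h; omega

theorem fix_basic (g : P11) (x : Fin 11) (k : ℕ) (h1 : 1 ∣ k) (h2 : 2 ∣ k) (h4 : 4 ∣ k)
    (h8 : 8 ∣ k) (h11 : 11 ∣ k)
    (h : (g ^ 1) x = x ∨ (g ^ 2) x = x ∨ (g ^ 4) x = x ∨ (g ^ 8) x = x ∨ (g ^ 11) x = x) :
    (g ^ k) x = x := by
  rcases h with h | h | h | h | h
  · exact pow_fix_of_dvd g x 1 k h1 h
  · exact pow_fix_of_dvd g x 2 k h2 h
  · exact pow_fix_of_dvd g x 4 k h4 h
  · exact pow_fix_of_dvd g x 8 k h8 h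
  · exact pow_fix_of_dvd g x 11 k h11 h

theorem sA_zero (hgt : ∀ (g : P11) (i : Fin 11), gt (code g) (i : ℕ) = ((g i : Fin 11) : ℕ))
    (g : P11) (x : Fin 11) (h : sA g x = 0) : (g ^ 3080) x = x := by
  unfold sA at h
  rcases orb_spec hgt g x with h' | h' | h' | h' | h' | h' | h'
  · exact fix_basic g x 3080 (by norm_num) (by norm_num) (by norm_num) (by norm_num)
      (by norm_num) h'.2
  · rw [h'.1] at h; omega
  · exact pow_fix_of_dvd g x 5 3080 (by norm_num) h'.2.1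
  · rw [h'.1] at h; omega
  · exact pow_fix_of_dvd g x 7 3080 (by norm_num) h'.2.1
  · exact pow_fix_of_dvd g x 10 3080 (by norm_num) h'.2
  · rw [h'] at h; omega

theorem sB_zero (hgt : ∀ (g : P11) (i : Fin 11), gt (code g) (i : ℕ) = ((g i : Fin 11) : ℕ))
    (g : P11) (x : Fin 11) (h : sB g x = 0) : (g ^ 5544) x = x := by
  unfold sB at h
  rcases orb_spec hgt g x with h' | h' | h' | h' | h' | h' | h'
  · exact fix_basic g x 5544 (by norm_num) (by norm_num) (by norm_num) (by norm_num)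
      (by norm_num) h'.2
  · exact pow_fix_of_dvd g x 3 5544 (by norm_num) h'.2.1
  · rw [h'.1] at h; omega
  · rcases h'.2 with h6 | h9
    · exact pow_fix_of_dvd g x 6 5544 (by norm_num) h6
    · exact pow_fix_of_dvd g x 9 5544 (by norm_num) h9
  · exact pow_fix_of_dvd g x 7 5544 (by norm_num) h'.2.1
  · rw [h'.1] at h; omega
  · rw [h'] at h; omega

theorem sC_zero (hgt : ∀ (g : P11) (i : Fin 11), gt (code g) (i : ℕ) = ((g i : Fin 11) : ℕ))
    (g : P11) (x : Fin 11) (h : sC g x = 0) : (g ^ 3960) x = x := by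
  unfold sC at h
  rcases orb_spec hgt g x with h' | h' | h' | h' | h' | h' | h'
  · exact fix_basic g x 3960 (by norm_num) (by norm_num) (by norm_num) (by norm_num)
      (by norm_num) h'.2
  · exact pow_fix_of_dvd g x 3 3960 (by norm_num) h'.2.1
  · exact pow_fix_of_dvd g x 5 3960 (by norm_num) h'.2.1
  · rcases h'.2 with h6 | h9
    · exact pow_fix_of_dvd g x 6 3960 (by norm_num) h6
    · exact pow_fix_of_dvd g x 9 3960 (by norm_num) h9
  · rw [h'.1] at h; omega
  · exact pow_fix_of_dvd g x 10 3960 (by norm_num) h'.2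
  · rw [h'] at h; omega

theorem sum_le_1100 (s : Fin 11 → ℕ) (hs : ∀ x, s x = 0 ∨ s x = 1 ∨ s x = 100) :
    ∑ x, s x ≤ 1100 := by
  have h : ∑ x : Fin 11, s x ≤ ∑ _x : Fin 11, 100 := by
    apply Finset.sum_le_sum
    intro x _
    rcases hs x with h | h | h <;> omega
  simpa using h

theorem tot_eq (hgt : ∀ (g : P11) (i : Fin 11), gt (code g) (i : ℕ) = ((g i : Fin 11) : ℕ))
    (g : P11) :
    tot (code g) = (∑ x, sA g x) + 4096 * (∑ x, sB g x) + 16777216 * (∑ x, sC g x) := by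
  have h1 : tot (code g) = ∑ i ∈ Finset.range 11, orb (code g) i := by
    unfold tot
    simp only [Finset.sum_range_succ, Finset.sum_range_zero, Nat.add_eq]
    ring
  rw [h1, ← Fin.sum_univ_eq_sum_range (fun i => orb (code g) i) 11]
  simp only [orb_eq hgt, Finset.sum_add_distrib, Finset.mul_sum]

theorem jw_sound (hgt : ∀ (g : P11) (i : Fin 11), gt (code g) (i : ℕ) = ((g i : Fin 11) : ℕ))
    (g : P11) (h : jw (code g) = true) : JW g := by
  have hT : jwT (tot (code g)) = true := by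
    unfold jw at h
    rw [sapp_eq] at h
    unfold jw' at h
    rw [sapp_eq] at h
    cases hl : long0 (code g)
    · rw [hl] at h
      exact h
    · rw [hl] at h
      exact absurd h (by simp)
  have hA := sum_le_1100 (sA g) (sA_vals hgt g)
  have hB := sum_le_1100 (sB g) (sB_vals hgt g)
  have hC := sum_le_1100 (sC g) (sC_vals hgt g)
  rw [tot_eq hgt] at hT
  have hT' : ((∑ x, sA g x) + 4096 * (∑ x, sB g x) + 16777216 * (∑ x, sC g x)) % 4096 = 3 ∨
      (((∑ x, sA g x) + 4096 * (∑ x, sB g x) + 16777216 * (∑ x, sC g x)) / 4096) % 4096 = 5 ∨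
      ((∑ x, sA g x) + 4096 * (∑ x, sB g x) + 16777216 * (∑ x, sC g x)) / 16777216 = 7 := by
    unfold jwT at hT
    simp only [Bool.or_eq_true, Nat.beq_eq] at hT
    rcases hT with (h3 | h5) | h7
    · exact Or.inl h3
    · exact Or.inr (Or.inl h5)
    · exact Or.inr (Or.inr h7)
  have hcases : (∑ x, sA g x) = 3 ∨ (∑ x, sB g x) = 5 ∨ (∑ x, sC g x) = 7 := by
    omega
  rcases hcases with h3 | h5 | h7
  · obtain ⟨hcard, hzero⟩ := sum_cases (sA g) (sA_vals hgt g) 3 (by norm_num) h3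
    refine jw_of_set g 3 3080 (Or.inl rfl) _ hcard ?_ ?_
    · intro x hx
      exact sA_one hgt g x (Finset.mem_filter.1 hx).2
    · intro x hx
      apply sA_zero hgt g x
      apply hzero
      intro h1
      exact hx (Finset.mem_filter.2 ⟨Finset.mem_univ x, h1⟩)
  · obtain ⟨hcard, hzero⟩ := sum_cases (sB g) (sB_vals hgt g) 5 (by norm_num) h5
    refine jw_of_set g 5 5544 (Or.inr (Or.inl rfl)) _ hcard ?_ ?_
    · intro x hx
      exact sB_one hgt g x (Finset.mem_filter.1 hx).2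
    · intro x hx
      apply sB_zero hgt g x
      apply hzero
      intro h1
      exact hx (Finset.mem_filter.2 ⟨Finset.mem_univ x, h1⟩)
  · obtain ⟨hcard, hzero⟩ := sum_cases (sC g) (sC_vals hgt g) 7 (by norm_num) h7
    refine jw_of_set g 7 3960 (Or.inr (Or.inr rfl)) _ hcard ?_ ?_
    · intro x hx
      exact sC_one hgt g x (Finset.mem_filter.1 hx).2
    · intro x hx
      apply sC_zero hgt g x
      apply hzero
      intro h1
      exact hx (Finset.mem_filter.2 ⟨Finset.mem_univ x, h1⟩)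

end Cfsg.Agent.Lib.Helper68.D11
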