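import Mathlib
import Cfsg.Agent.Lib.Helper22.HPDefs
import Cfsg.Agent.Lib.Helper22.HPDefs2
import Cfsg.Agent.Lib.Helper4.CharCore
import Cfsg.Agent.Lib.Helper23.HPGC
import Cfsg.Agent.Lib.Helper57.HPEXACT
import Cfsg.Agent.Lib.Helper87.HPQUAD
import Cfsg.Agent.Lib.Helper6.HPBUDGET

/-!
# S4504 (helper22): piece UNIQ of STAR: in each of the two families (trivial on the centre,
central character of the given one) there is at most one Galois pair of irreducible characters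
taking different values at the element and its Galois conjugate.
-/

set_option autoImplicit false
set_option linter.style.haveILetI false

namespace Cfsg.Agent.Lib.Helper68.HPT

open Cfsg Cfsg.Agent.Lib.Helper22.BFD Cfsg.Agent.Lib.Helper22.HPD
open scoped ComplexConjugate

universe u

section aux

theorem uniq_eta_sq {p : ℕ} [Fact p.Prime] (ζ : ℂ) (a : ZMod p) (ha : a ≠ 0) (t : ZMod p) :
    eta p ζ (a * a * t) = eta p ζ t := by
  classical
  unfold eta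
  have haa : a * a ≠ 0 := mul_ne_zero ha ha
  apply Finset.sum_nbij' (fun u => u * (a * a)) (fun v => v * (a * a)⁻¹)
  · intro u hu
    simp only [Sq, Finset.mem_filter, Finset.mem_univ, true_and] at hu ⊢
    exact ⟨mul_ne_zero hu.1 haa, hu.2.mul ⟨a, rfl⟩⟩
  · intro v hv
    simp only [Sq, Finset.mem_filter, Finset.mem_univ, true_and] at hv ⊢
    exact ⟨mul_ne_zero hv.1 (inv_ne_zero haa), hv.2.mul (IsSquare.inv ⟨a, rfl⟩)⟩
  · intro u _
    show u * (a * a) * (a * a)⁻¹ = u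
    rw [mul_assoc, mul_inv_cancel₀ haa, mul_one]
  · intro v _
    show v * (a * a)⁻¹ * (a * a) = v
    rw [mul_assoc, inv_mul_cancel₀ haa, mul_one]
  · intro u _
    show ζ ^ (u * (a * a * t)).val = ζ ^ (u * (a * a) * t).val
    have hring : u * (a * a * t) = u * (a * a) * t := by ring
    rw [hring]

theorem uniq_sq_ge_one (a b : ℕ) (h : a ≠ b) : (1 : ℝ) ≤ ((a : ℝ) - b) ^ 2 := by
  rcases Nat.lt_or_gt_of_ne h with h1 | h1
  · have h2 : (a : ℝ) + 1 ≤ b := by exact_mod_cast h1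
    nlinarith
  · have h2 : (b : ℝ) + 1 ≤ a := by exact_mod_cast h1
    nlinarith

open Classical in
theorem uniq_core {G : Type u} [Group G] [Fintype G] [Fintype (IrrCharacter G)]
    (p : ℕ) [Fact p.Prime] (hp5 : 5 ≤ p)
    (z : G) (ζ : ℂ) (hz : orderOf z = p) (k : ℕ) (hk : GalExp p G k)
    (hs0 : (k : ZMod p) ≠ 0) (e : ℕ) (he : 2 * e + 1 = p)
    (hgc1 : ∀ φ : IrrCharacter G, gc hk (gc hk φ) = φ)
    (hex : ∀ φ : IrrCharacter G, ∃ γ α β : ℕ, ∀ t : ZMod p, φ.1 (z ^ t.val) =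
      (γ : ℂ) + (α : ℂ) * eta p ζ t + (β : ℂ) * eta p ζ ((k : ZMod p) * t))
    (hquad : ∀ γ α β : ℕ, ∑ t ∈ Finset.univ.filter (fun t : ZMod p => t ≠ 0),
        ‖(γ : ℂ) + (α : ℂ) * eta p ζ t + (β : ℂ) * eta p ζ ((k : ZMod p) * t)‖ ^ 2 =
      (e : ℝ) * (((γ : ℝ) - α) ^ 2 + ((γ : ℝ) - β) ^ 2 + e * ((α : ℝ) - β) ^ 2))
    (Pf : IrrCharacter G → Prop) (hPgc : ∀ φ, Pf φ → Pf (gc hk φ))
    (hbud : ∑ φ ∈ Finset.univ.filter (fun φ : IrrCharacter G => Pf φ),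
      ∑ t ∈ Finset.univ.filter (fun t : ZMod p => t ≠ 0), ‖φ.1 (z ^ t.val)‖ ^ 2 =
        (p : ℝ) * ((p : ℝ) - 1)) :
    ∀ φ ψ : IrrCharacter G, Pf φ → Pf ψ → φ.1 z ≠ φ.1 (z ^ k) →
      ψ.1 z ≠ ψ.1 (z ^ k) → ψ = φ ∨ ψ = gc hk φ := by
  intro φ ψ hφ hψ hφz hψz
  by_contra hcon
  push Not at hcon
  obtain ⟨hne1, hne2⟩ := hcon
  have hzk : z ^ ((k : ZMod p)).val = z ^ k := by
    have h := pow_mod_orderOf z k
    rw [hz] at h
    rw [ZMod.val_natCast]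
    exact h
  -- the twist of a character with `φ z ≠ φ (z ^ k)`
  have hB : ∀ φ : IrrCharacter G, φ.1 z ≠ φ.1 (z ^ k) →
      (gc hk φ).1 z ≠ (gc hk φ).1 (z ^ k) ∧ gc hk φ ≠ φ := by
    intro φ h
    have h1 : (gc hk φ).1 (z ^ k) = φ.1 z :=
      congrArg (fun χ : IrrCharacter G => χ.1 z) (hgc1 φ)
    refine ⟨?_, ?_⟩
    · rw [h1]
      exact fun h' => h h'.symm
    · intro h'
      apply h
      have h2 : (gc hk φ).1 z = φ.1 z := by rw [h']
      exact h2.symm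
  -- the contribution of such a character
  have hA : ∀ φ : IrrCharacter G, φ.1 z ≠ φ.1 (z ^ k) →
      (e : ℝ) * ((e : ℝ) + 1) ≤
        ∑ t ∈ Finset.univ.filter (fun t : ZMod p => t ≠ 0), ‖φ.1 (z ^ t.val)‖ ^ 2 := by
    intro φ h
    obtain ⟨γ, α, β, hval⟩ := hex φ
    have hαβ : α ≠ β := by
      rintro rfl
      apply h
      have h1 := hval 1
      have h2 := hval (k : ZMod p)
      rw [ZMod.val_one, pow_one, mul_one] at h1
      rw [hzk] at h2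
      have h3 := uniq_eta_sq ζ (k : ZMod p) hs0 1
      rw [mul_one] at h3
      rw [h1, h2, h3]
      ring
    have hsum : ∑ t ∈ Finset.univ.filter (fun t : ZMod p => t ≠ 0), ‖φ.1 (z ^ t.val)‖ ^ 2 =
        (e : ℝ) * (((γ : ℝ) - α) ^ 2 + ((γ : ℝ) - β) ^ 2 + e * ((α : ℝ) - β) ^ 2) := by
      rw [← hquad γ α β]
      apply Finset.sum_congr rfl
      intro t _
      rw [hval t]
    rw [hsum]
    have h1 := uniq_sq_ge_one α β hαβ
    have h2 : (1 : ℝ) ≤ ((γ : ℝ) - α) ^ 2 + ((γ : ℝ) - β) ^ 2 := by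
      by_cases hγ : γ = α
      · have h3 := uniq_sq_ge_one γ β (by rw [hγ]; exact hαβ)
        nlinarith [sq_nonneg ((γ : ℝ) - α)]
      · have h3 := uniq_sq_ge_one γ α hγ
        nlinarith [sq_nonneg ((γ : ℝ) - β)]
    have he0 : (0 : ℝ) ≤ e := Nat.cast_nonneg e
    nlinarith [mul_nonneg he0 (sub_nonneg.mpr h2),
      mul_nonneg (mul_nonneg he0 he0) (sub_nonneg.mpr h1)]
  have hφ' := hB φ hφz
  have hψ' := hB ψ hψz
  have c1 := hA φ hφz
  have c2 := hA (gc hk φ) hφ'.1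
  have c3 := hA ψ hψz
  have c4 := hA (gc hk ψ) hψ'.1
  have d1 : φ ≠ gc hk φ := fun h => hφ'.2 h.symm
  have d2 : φ ≠ ψ := fun h => hne1 h.symm
  have d3 : φ ≠ gc hk ψ := by
    intro h
    apply hne2
    rw [h, hgc1]
  have d4 : gc hk φ ≠ ψ := fun h => hne2 h.symm
  have d5 : gc hk φ ≠ gc hk ψ := by
    intro h
    apply hne1
    have h1 := congrArg (gc hk) h
    rw [hgc1, hgc1] at h1
    exact h1.symm
  have d6 : ψ ≠ gc hk ψ := fun h => hψ'.2 h.symm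
  have hsub : ({φ, gc hk φ, ψ, gc hk ψ} : Finset (IrrCharacter G)) ⊆
      Finset.univ.filter (fun φ : IrrCharacter G => Pf φ) := by
    intro x hx
    simp only [Finset.mem_insert, Finset.mem_singleton] at hx
    rw [Finset.mem_filter]
    refine ⟨Finset.mem_univ _, ?_⟩
    rcases hx with rfl | rfl | rfl | rfl
    · exact hφ
    · exact hPgc _ hφ
    · exact hψ
    · exact hPgc _ hψ
  have hle := Finset.sum_le_sum_of_subset_of_nonneg hsub
    (f := fun φ : IrrCharacter G =>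
      ∑ t ∈ Finset.univ.filter (fun t : ZMod p => t ≠ 0), ‖φ.1 (z ^ t.val)‖ ^ 2)
    (fun x _ _ => Finset.sum_nonneg (fun t _ => sq_nonneg _))
  rw [hbud] at hle
  rw [Finset.sum_insert (by simp [d1, d2, d3]), Finset.sum_insert (by simp [d4, d5]),
    Finset.sum_insert (by simp [d6]), Finset.sum_singleton] at hle
  have hpe : (p : ℝ) = 2 * e + 1 := by
    rw [← he]
    push_cast
    ring
  have he1 : (1 : ℝ) ≤ e := by
    have h1 : 1 ≤ e := by omega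
    exact_mod_cast h1
  rw [hpe] at hle
  nlinarith

end aux

/-- PIECE UNIQ: at most one Galois pair of characters with `φ z ≠ φ (z ^ k)` in each of the two
families (trivial on the centre / central character of `χ`) -/
theorem hp_uniq {G : Type u} [Group G] [Fintype G] (p : ℕ) [Fact p.Prime] (hp5 : 5 ≤ p)
    (hdiv : p ∣ Nat.card G) (hsq : ¬ p ^ 2 ∣ Nat.card G)
    (hnn : ∀ H : Subgroup G, H.Normal → Nat.card H ≠ p)
    (χ : IrrCharacter G) (z : G) (ζ : ℂ) (hHP : HP p ζ z χ.1) (k : ℕ) (hk : GalExp p G k) :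
    (∀ φ ψ : IrrCharacter G, TrivZ φ.1 → TrivZ ψ.1 → φ.1 z ≠ φ.1 (z ^ k) →
      ψ.1 z ≠ ψ.1 (z ^ k) → ψ = φ ∨ ψ = gc hk φ) ∧
    (∀ φ ψ : IrrCharacter G, SameZ χ.1 φ.1 → SameZ χ.1 ψ.1 → φ.1 z ≠ φ.1 (z ^ k) →
      ψ.1 z ≠ ψ.1 (z ^ k) → ψ = φ ∨ ψ = gc hk φ) := by
  classical
  haveI : Fintype (IrrCharacter G) := by
    haveI := Cfsg.Agent.Lib.Helper4.irr_finite (G := G)
    exact Fintype.ofFinite _
  have hp2 : p ≠ 2 := by omega
  obtain ⟨e, he⟩ : ∃ e, 2 * e + 1 = p := by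
    obtain ⟨e, he⟩ := (Fact.out : p.Prime).odd_of_ne_two hp2
    exact ⟨e, he.symm⟩
  have hs0 : (k : ZMod p) ≠ 0 := by
    intro h0
    have hpk : p ∣ k := (ZMod.natCast_eq_zero_iff k p).mp h0
    have h1 : p ∣ Nat.gcd k (Nat.card G) := Nat.dvd_gcd hpk hdiv
    rw [Nat.Coprime.gcd_eq_one hk.cop] at h1
    exact (Fact.out : p.Prime).one_lt.ne' (Nat.dvd_one.mp h1)
  obtain ⟨hgc1, -, hgc3, hgc4⟩ := Cfsg.Agent.Lib.Helper23.HPT.hp_gc p hsq hnn χ.1 z ζ hHP k hk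
  have hex := fun φ : IrrCharacter G => Cfsg.Agent.Lib.Helper57.HPT.hp_exact p hdiv χ.1 z ζ hHP k hk φ
  have hquad := fun γ α β : ℕ => Cfsg.Agent.Lib.Helper87.HPT.hp_quad p hp2 ζ hHP.hζ e he (k : ZMod p) hs0 hk.nsq γ α β
  obtain ⟨hb1, hb2⟩ := Cfsg.Agent.Lib.Helper6.HPT.hp_budget p hsq hnn χ z ζ hHP
  exact ⟨uniq_core p hp5 z ζ hHP.hz k hk hs0 e he hgc1 hex hquad (fun φ => TrivZ φ.1) hgc3 hb1,
    uniq_core p hp5 z ζ hHP.hz k hk hs0 e he hgc1 hex hquad (fun φ => SameZ χ.1 φ.1) hgc4 hb2⟩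

end Cfsg.Agent.Lib.Helper68.HPT
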