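import Mathlib
import Cfsg.Agent.Lib.Helper72.JRDefs
import Cfsg.Agent.Lib.Helper82.JcOCPC
import Cfsg.Agent.Lib.Helper75.JcWF
import Cfsg.Agent.Lib.Helper88.JcK3

/-! Project JR (helper72, S2950), piece L1D (helper68): the data of a `J(T)`-component `K`
inside any subgroup `L` containing it (as subgroups of `↥L`).  The first clauses repeat
helper76's JN-TRW (`Cfsg/Agent/Lib/Helper76/JNTrw.lean`); the last two (`K` normalizes `W_K`,
elements of `K` outside `O₂(K)` act fixed-point-freely on `W_K`) use helper75's `wf_conj_comm`,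
`wf_fpf` and helper88's `k3_exists`, `k3_cases`. -/

set_option autoImplicit false

namespace Cfsg.Agent.Lib.Helper68.JR

open Cfsg.Agent.Lib.Helper72.JR Cfsg.Agent.Lib.Helper72.JP Cfsg.Agent.Lib.Helper72.JM
  Cfsg.Agent.Lib.Helper72.JL Cfsg.Agent.Lib.Helper72.SC Cfsg.Agent.Lib.Helper78.Jc

open scoped commutatorElement

universe u

theorem l1d : L1DStmt.{u} := by
  intro G _ _ T K L hJC hKL
  obtain ⟨hodd, hKJ, h3, hSyl, hW4, hW2⟩ := hJC
  have hOK : Cfsg.pCoreOf 2 K ≤ K := Cfsg.Agent.Lib.Helper82.Jc.pc_le K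
  have hKNO : K ≤ Subgroup.normalizer (Cfsg.pCoreOf 2 K : Set G) :=
    Cfsg.Agent.Lib.Helper82.Jc.pc_le_normalizer K
  have hO2 : IsPGroup 2 ↥(Cfsg.pCoreOf 2 K) := Cfsg.Agent.Lib.Helper82.Jc.pc_pgroup K
  have hKΩ : K ≤ Subgroup.normalizer (Cfsg.omegaCenterOf (Cfsg.pCoreOf 2 K) : Set G) :=
    hKNO.trans (Cfsg.Agent.Lib.Helper82.Jc.oc_normalizer (Cfsg.pCoreOf 2 K))
  have hWle : Cfsg.wOf K ≤ Cfsg.omegaCenterOf (Cfsg.pCoreOf 2 K) :=
    Cfsg.Agent.Lib.Helper75.Jc.wf_le _ K hKΩ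
  have hWO : Cfsg.wOf K ≤ Cfsg.pCoreOf 2 K :=
    hWle.trans (Cfsg.Agent.Lib.Helper82.Jc.oc_le (Cfsg.pCoreOf 2 K))
  have hWL : Cfsg.wOf K ≤ L := hWO.trans (hOK.trans hKL)
  -- `K` normalizes `W_K`
  have hWn : ∀ k ∈ K, ∀ w ∈ Cfsg.wOf K, k * w * k⁻¹ ∈ Cfsg.wOf K := by
    intro k hk w hw
    exact Cfsg.Agent.Lib.Helper75.Jc.wf_conj_comm (Cfsg.omegaCenterOf (Cfsg.pCoreOf 2 K)) K k
      (hKΩ hk) (Subgroup.le_normalizer hk) w hw
  -- fixed points
  have hΩab : ∀ a ∈ Cfsg.omegaCenterOf (Cfsg.pCoreOf 2 K),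
      ∀ b ∈ Cfsg.omegaCenterOf (Cfsg.pCoreOf 2 K), a * b = b * a := fun a ha b hb =>
    Cfsg.Agent.Lib.Helper82.Jc.oc_comm _ a ha b (Cfsg.Agent.Lib.Helper82.Jc.oc_le _ hb)
  have hPΩ : ∀ q ∈ Cfsg.pCoreOf 2 K, ∀ v ∈ Cfsg.omegaCenterOf (Cfsg.pCoreOf 2 K),
      q * v = v * q := fun q hq v hv =>
    (Cfsg.Agent.Lib.Helper82.Jc.oc_comm _ v hv q hq).symm
  have hfpf : ∀ k ∈ K, k ∉ Cfsg.pCoreOf 2 K → ∀ w ∈ Cfsg.wOf K, k * w * k⁻¹ = w → w = 1 := by
    intro k hk hkP w hw hfix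
    obtain ⟨y, hyK, hyP, hy3⟩ := Cfsg.Agent.Lib.Helper88.Jc.k3_exists K (Cfsg.pCoreOf 2 K)
      hOK hKNO hO2 h3 hodd
    have hcases := Cfsg.Agent.Lib.Helper88.Jc.k3_cases K (Cfsg.pCoreOf 2 K) hOK hKNO h3 y
      hyK hyP
    have hwΩ : w ∈ Cfsg.omegaCenterOf (Cfsg.pCoreOf 2 K) := hWle hw
    -- `y` fixes `w`
    have hyfix : y * w * y⁻¹ = w := by
      obtain ⟨q, hq, h | h | h⟩ := hcases k hk
      · exact absurd (h ▸ hq) hkP
      · have hqw : q * w * q⁻¹ = w := by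
          rw [hPΩ q hq w hwΩ, mul_inv_cancel_right]
        calc y * w * y⁻¹ = y * (q * w * q⁻¹) * y⁻¹ := by rw [hqw]
          _ = (y * q) * w * (y * q)⁻¹ := by group
          _ = w := by rw [← h, hfix]
      · have hqw : q * w * q⁻¹ = w := by
          rw [hPΩ q hq w hwΩ, mul_inv_cancel_right]
        have h1 : y⁻¹ * w * y = w := by
          calc y⁻¹ * w * y = y⁻¹ * (q * w * q⁻¹) * y := by rw [hqw]
            _ = (y⁻¹ * q) * w * (y⁻¹ * q)⁻¹ := by group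
            _ = w := by rw [← h, hfix]
        calc y * w * y⁻¹ = y * (y⁻¹ * w * y) * y⁻¹ := by rw [h1]
          _ = w := by group
    have hyfix' : y⁻¹ * w * y = w := by
      calc y⁻¹ * w * y = y⁻¹ * (y * w * y⁻¹) * y := by rw [hyfix]
        _ = w := by group
    have h1 := Cfsg.Agent.Lib.Helper75.Jc.wf_fpf (Cfsg.omegaCenterOf (Cfsg.pCoreOf 2 K)) K
      (Cfsg.pCoreOf 2 K) y hΩab hPΩ hKΩ hcases hyK hy3 w hw
    rw [hyfix, hyfix', hW2 w hw, one_mul] at h1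
    exact h1
  refine ⟨?_, ?_, ?_, ?_, ?_, ?_, ?_, ?_, ?_⟩
  · intro x hx
    rw [Subgroup.mem_subgroupOf] at hx ⊢
    exact hOK hx
  · intro k hk
    rw [Subgroup.mem_subgroupOf] at hk
    rw [Subgroup.mem_normalizer_iff]
    intro x
    rw [Subgroup.mem_subgroupOf, Subgroup.mem_subgroupOf]
    have h := Subgroup.mem_normalizer_iff.mp (hKNO hk) (x : G)
    simpa using h
  · exact hO2.comap_subtype
  · rw [Subgroup.relIndex_subgroupOf hKL]
    exact h3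
  · intro P hPK hP2
    have h1 : P.map L.subtype ≤ K := by
      rintro _ ⟨x, hx, rfl⟩
      exact hPK hx
    have h2 : IsPGroup 2 ↥(P.map L.subtype) := hP2.map L.subtype
    have h4 := Cfsg.Agent.Lib.Helper82.Jc.pc_two_le K h3 (P.map L.subtype) h1 h2
    intro x hx
    rw [Subgroup.mem_subgroupOf]
    exact h4 ⟨x, hx, rfl⟩
  · rw [Nat.card_congr (Subgroup.subgroupOfEquivOfLe hWL).toEquiv]
    exact hW4
  · intro u hu huu hcen k hk
    rw [Subgroup.mem_subgroupOf] at hu hk ⊢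
    have hu' : (u : G) ∈ Cfsg.omegaCenterOf (Cfsg.pCoreOf 2 K) := by
      apply Cfsg.Agent.Lib.Helper82.Jc.oc_mem _ _ hu
      · intro o ho
        have h := hcen ⟨o, hKL (hOK ho)⟩ (by rw [Subgroup.mem_subgroupOf]; exact ho)
        exact congrArg Subtype.val h
      · exact congrArg Subtype.val huu
    have h := Subgroup.commutator_mem_commutator (H₁ := Cfsg.omegaCenterOf (Cfsg.pCoreOf 2 K))
      (H₂ := K) (inv_mem hu') hk
    have e : ((u⁻¹ * (k * u * k⁻¹) : ↥L) : G) = ⁅(u : G)⁻¹, (k : G)⁆ := by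
      rw [commutatorElement_def]
      simp [mul_assoc]
    rw [e]
    exact h
  · intro k hk w hw
    rw [Subgroup.mem_subgroupOf] at hk hw ⊢
    have h := hWn (k : G) hk (w : G) hw
    simpa using h
  · intro k hk hkP w hw hfix
    rw [Subgroup.mem_subgroupOf] at hk hw
    have hkP' : (k : G) ∉ Cfsg.pCoreOf 2 K := fun h => hkP (Subgroup.mem_subgroupOf.mpr h)
    have hfix' : (k : G) * (w : G) * (k : G)⁻¹ = (w : G) := by
      have h := congrArg Subtype.val hfix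
      simpa using h
    exact Subtype.ext (hfpf (k : G) hk hkP' (w : G) hw hfix')

end Cfsg.Agent.Lib.Helper68.JR
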