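import Mathlib
import Cfsg.Prelude.Def_LieTypeChar
import Cfsg.Agent.Lib.Lead.LTBCore
import Cfsg.Agent.Lib.Lead.LTBDefs

/-!
S2363 (project LTB), piece SZ: the Suzuki groups.
-/

set_option autoImplicit false

namespace Cfsg.Agent.Lib.Lead.LTB

open Cfsg

theorem ltbsz_arith (q : ℕ) (hq : 2 ≤ q) : (q - 1) * (q ^ 2 + 1) < q ^ 3 := by
  obtain ⟨r, rfl⟩ : ∃ r, q = r + 1 := ⟨q - 1, by omega⟩
  have h1 : r + 1 - 1 = r := by omega
  rw [h1]
  nlinarith [Nat.zero_le (r * r), Nat.zero_le r]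

theorem sz_stmt : SzStmt := by
  intro F _ _ m hm hF hcard
  have hq2 : 2 ≤ 2 ^ (2 * m + 1) := by
    calc 2 = 2 ^ 1 := by norm_num
      _ ≤ 2 ^ (2 * m + 1) := Nat.pow_le_pow_right (by norm_num) (by omega)
  have hfin : Finite ↥(Lie.Sz F (2 ^ (m + 1))) := by
    apply Nat.finite_of_card_ne_zero
    rw [hcard]
    have h1 : 2 ^ (2 * m + 1) - 1 ≠ 0 := by omega
    have h2 : (2 ^ (2 * m + 1)) ^ 2 ≠ 0 := by positivity
    exact mul_ne_zero (mul_ne_zero h2 h1) (by positivity)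
  refine goal_of_q_mul_bounds 2 Nat.prime_two (2 * m + 1) 2 3 1
    ((2 ^ (2 * m + 1) - 1) * ((2 ^ (2 * m + 1)) ^ 2 + 1)) (by norm_num) ?_
    (ltbsz_arith _ hq2) (by norm_num)
  rw [one_mul, hcard, mul_assoc]

end Cfsg.Agent.Lib.Lead.LTB
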