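import Mathlib

set_option autoImplicit false

/-! Kreknin's theorem for `ZMod n`-graded families of additive subgroups of a Lie ring
(helper68): if `[E i, E j] ⊆ E (i+j)` and `E 0 = 0`, then the `(2^(n-1)-1)`-th derived family
vanishes. -/

namespace Cfsg.Agent.Lib.Helper68.LieFam

variable {L : Type*} [LieRing L] {n : ℕ}

/-- a `ZMod n`-graded family of additive subgroups with trivial zero component -/
def IsFam (E : ZMod n → AddSubgroup L) : Prop :=
  (∀ i j x y, x ∈ E i → y ∈ E j → ⁅x, y⁆ ∈ E (i + j)) ∧ E 0 = ⊥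

/-- the derived family -/
def der (E : ZMod n → AddSubgroup L) : ZMod n → AddSubgroup L := fun k =>
  AddSubgroup.closure {z | ∃ a b x y, a + b = k ∧ x ∈ E a ∧ y ∈ E b ∧ ⁅x, y⁆ = z}

theorem der_le {E : ZMod n → AddSubgroup L} (hE : IsFam E) (k : ZMod n) : der E k ≤ E k := by
  unfold der
  rw [AddSubgroup.closure_le]
  rintro z ⟨a, b, x, y, rfl, hx, hy, rfl⟩
  exact hE.1 a b x y hx hy

theorem mem_der {E : ZMod n → AddSubgroup L} {a b : ZMod n} {x y : L} (hx : x ∈ E a)
    (hy : y ∈ E b) : ⁅x, y⁆ ∈ der E (a + b) :=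
  AddSubgroup.subset_closure ⟨a, b, x, y, rfl, hx, hy, rfl⟩

theorem isFam_der {E : ZMod n → AddSubgroup L} (hE : IsFam E) : IsFam (der E) := by
  refine ⟨fun i j x y hx hy => mem_der (der_le hE i hx) (der_le hE j hy), ?_⟩
  rw [eq_bot_iff, ← hE.2]
  exact der_le hE 0

theorem isFam_iter {E : ZMod n → AddSubgroup L} (hE : IsFam E) (m : ℕ) : IsFam (der^[m] E) := by
  induction m with
  | zero => exact hE
  | succ m ih => rw [Function.iterate_succ_apply']; exact isFam_der ih

theorem iter_le {E : ZMod n → AddSubgroup L} (hE : IsFam E) (m : ℕ) (k : ZMod n) :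
    (der^[m] E) k ≤ E k := by
  induction m with
  | zero => exact le_rfl
  | succ m ih =>
    rw [Function.iterate_succ_apply']
    exact (der_le (isFam_iter hE m) k).trans ih

/-- elements generated (as a graded Lie ring) by the components of index at least `k` -/
inductive Gen (E : ZMod n → AddSubgroup L) (k : ℕ) : ZMod n → L → Prop
  | base {i : ZMod n} {x : L} : k ≤ i.val → x ∈ E i → Gen E k i x
  | zero (i : ZMod n) : Gen E k i 0
  | add {i : ZMod n} {x y : L} : Gen E k i x → Gen E k i y → Gen E k i (x + y)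
  | neg {i : ZMod n} {x : L} : Gen E k i x → Gen E k i (-x)
  | lie {i j : ZMod n} {x y : L} : Gen E k i x → Gen E k j y → Gen E k (i + j) ⁅x, y⁆

theorem gen_mem {E : ZMod n → AddSubgroup L} (hE : IsFam E) {k : ℕ} {i : ZMod n} {x : L}
    (h : Gen E k i x) : x ∈ E i := by
  induction h with
  | base _ hx => exact hx
  | zero i => exact zero_mem _
  | add _ _ ih1 ih2 => exact add_mem ih1 ih2
  | neg _ ih1 => exact neg_mem ih1
  | lie _ _ ih1 ih2 => exact hE.1 _ _ _ _ ih1 ih2

theorem lemB [NeZero n] {E : ZMod n → AddSubgroup L} (hE : IsFam E) {k : ℕ} (hk : k < n)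
    {c : ZMod n} {z : L} (h : Gen E k c z) :
    ∀ (c' : ZMod n) (w : L), w ∈ E c' → c' + c = (k : ZMod n) →
      Gen E (k + 1) (k : ZMod n) ⁅w, z⁆ := by
  induction h with
  | @base i x hi hx =>
    intro c' w hw hc
    by_cases hc0 : c' = 0
    · subst hc0
      rw [hE.2] at hw
      rw [AddSubgroup.mem_bot.mp hw, zero_lie]
      exact Gen.zero _
    · have h1 : c'.val ≠ 0 := fun h => hc0 ((ZMod.val_eq_zero c').mp h)
      have h2 : (c'.val + i.val) % n = k := by
        have := congrArg ZMod.val hc
        rw [ZMod.val_add, ZMod.val_natCast, Nat.mod_eq_of_lt hk] at this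
        exact this
      have h3 := ZMod.val_lt c'
      have h4 := ZMod.val_lt i
      have h5 : i.val ≠ k := by
        intro h
        apply hc0
        have hik : i = (k : ZMod n) := by rw [← h, ZMod.natCast_zmod_val]
        rw [hik] at hc
        exact add_eq_right.mp hc
      have h6 : c'.val + i.val = n + k := by
        have hd := Nat.div_add_mod (c'.val + i.val) n
        rw [h2] at hd
        have hlt : c'.val + i.val < n * 2 := by omega
        have hq : (c'.val + i.val) / n < 2 := Nat.div_lt_of_lt_mul hlt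
        obtain ⟨q, hq0⟩ : ∃ q, q = (c'.val + i.val) / n := ⟨_, rfl⟩
        rw [← hq0] at hd hq
        have hq' : q = 0 ∨ q = 1 := by omega
        rcases hq' with h | h
        · rw [h, Nat.mul_zero] at hd
          omega
        · rw [h, Nat.mul_one] at hd
          omega
      have := Gen.lie (Gen.base (k := k + 1) (by omega : k + 1 ≤ c'.val) hw)
        (Gen.base (k := k + 1) (by omega : k + 1 ≤ i.val) hx)
      rw [hc] at this
      exact this
  | zero i =>
    intro c' w hw hc
    rw [lie_zero]
    exact Gen.zero _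
  | add _ _ ih1 ih2 =>
    intro c' w hw hc
    rw [lie_add]
    exact Gen.add (ih1 c' w hw hc) (ih2 c' w hw hc)
  | neg _ ih1 =>
    intro c' w hw hc
    rw [lie_neg]
    exact Gen.neg (ih1 c' w hw hc)
  | @lie i j x y h1 h2 ih1 ih2 =>
    intro c' w hw hc
    rw [leibniz_lie]
    refine Gen.add ?_ ?_
    · exact ih2 (c' + i) ⁅w, x⁆ (hE.1 _ _ _ _ hw (gen_mem hE h1)) (by rw [← hc]; ring)
    · rw [← lie_skew]
      exact Gen.neg (ih1 (c' + j) ⁅w, y⁆ (hE.1 _ _ _ _ hw (gen_mem hE h2)) (by rw [← hc]; ring))

theorem kreknin_aux [NeZero n] : ∀ (k : ℕ), k + 1 ≤ n → ∀ (E : ZMod n → AddSubgroup L), IsFam E →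
    ∀ i x, x ∈ (der^[2 ^ k - 1] E) i → Gen E (k + 1) i x := by
  intro k
  induction k with
  | zero =>
    intro _ E hE i x hx
    simp only [pow_zero, Nat.sub_self, Function.iterate_zero, id] at hx
    by_cases hi : i = 0
    · subst hi
      rw [hE.2] at hx
      rw [AddSubgroup.mem_bot.mp hx]
      exact Gen.zero _
    · have h1 : i.val ≠ 0 := fun h => hi ((ZMod.val_eq_zero i).mp h)
      exact Gen.base (by omega) hx
  | succ k ih =>
    intro hk E hE i x hx
    have e : 2 ^ (k + 1) - 1 = (2 ^ k - 1) + ((2 ^ k - 1) + 1) := by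
      have := Nat.one_le_two_pow (n := k)
      rw [pow_succ]
      omega
    rw [e, Function.iterate_add_apply, Function.iterate_succ_apply'] at hx
    have hNf : IsFam (der^[2 ^ k - 1] E) := isFam_iter hE _
    have hKf : IsFam (der (der^[2 ^ k - 1] E)) := isFam_der hNf
    have h1 := ih (by omega) (der (der^[2 ^ k - 1] E)) hKf i x hx
    have conv : ∀ {j : ZMod n} {y : L}, Gen (der (der^[2 ^ k - 1] E)) (k + 1) j y →
        Gen E (k + 1 + 1) j y := by
      intro j y h
      induction h with
      | @base j y hj hy =>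
        by_cases hjk : j.val = k + 1
        · have hj' : j = ((k + 1 : ℕ) : ZMod n) := by rw [← hjk, ZMod.natCast_zmod_val]
          subst hj'
          unfold der at hy
          induction hy using AddSubgroup.closure_induction with
          | mem z hz =>
            obtain ⟨a, b, u, v, hab, hu, hv, rfl⟩ := hz
            exact lemB hE (by omega) (ih (by omega) E hE b v hv) a u (iter_le hE _ _ hu) hab
          | zero => exact Gen.zero _
          | add a b _ _ h1 h2 => exact Gen.add h1 h2
          | neg a _ h1 => exact Gen.neg h1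
        · exact Gen.base (by omega) (iter_le hE _ _ (der_le hNf _ hy))
      | zero j => exact Gen.zero _
      | add _ _ ih1 ih2 => exact Gen.add ih1 ih2
      | neg _ ih1 => exact Gen.neg ih1
      | lie _ _ ih1 ih2 => exact Gen.lie ih1 ih2
    exact conv h1

theorem gen_top_eq_zero [NeZero n] {E : ZMod n → AddSubgroup L} {i : ZMod n} {x : L}
    (h : Gen E n i x) : x = 0 := by
  induction h with
  | @base i x hi hx => exact absurd (ZMod.val_lt i) (by omega)
  | zero i => rfl
  | add _ _ ih1 ih2 => rw [ih1, ih2, add_zero]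
  | neg _ ih1 => rw [ih1, neg_zero]
  | lie _ _ ih1 ih2 => rw [ih1, zero_lie]

/-- **Kreknin**: a `ZMod n`-graded family with trivial zero component is solvable of derived
length at most `2^(n-1) - 1`. -/
theorem kreknin [NeZero n] {E : ZMod n → AddSubgroup L} (hE : IsFam E) (i : ZMod n) :
    (der^[2 ^ (n - 1) - 1] E) i = ⊥ := by
  have hn : 1 ≤ n := Nat.one_le_iff_ne_zero.mpr (NeZero.ne n)
  rw [eq_bot_iff]
  intro x hx
  have := kreknin_aux (n - 1) (by omega) E hE i x hx
  rw [show n - 1 + 1 = n by omega] at this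
  exact AddSubgroup.mem_bot.mpr (gen_top_eq_zero this)

end Cfsg.Agent.Lib.Helper68.LieFam
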