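import Mathlib
import Cfsg.Agent.Lib.Helper68.LieFamA

set_option autoImplicit false

/-! Higman--Kreknin--Kostrikin class bound for `ZMod p`-graded families of additive subgroups
of a Lie ring with trivial zero component (helper68). -/

namespace Cfsg.Agent.Lib.Helper68.LieFam

variable {L : Type*} [LieRing L]

/-- left-normed bracket -/
def lb (v : L) (l : List L) : L := l.foldl (fun acc a => ⁅acc, a⁆) v

@[simp] theorem lb_nil (v : L) : lb v [] = v := rfl

@[simp] theorem lb_cons (v a : L) (l : List L) : lb v (a :: l) = lb ⁅v, a⁆ l := rfl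

theorem lb_append (v : L) (l1 l2 : List L) : lb v (l1 ++ l2) = lb (lb v l1) l2 :=
  List.foldl_append ..

theorem lb_snoc (v : L) (l : List L) (a : L) : lb v (l ++ [a]) = ⁅lb v l, a⁆ := by
  rw [lb_append]; rfl

theorem lb_zero (l : List L) : lb (0 : L) l = 0 := by
  induction l with
  | nil => rfl
  | cons a l ih => rw [lb_cons, zero_lie, ih]

theorem lb_add (u v : L) (l : List L) : lb (u + v) l = lb u l + lb v l := by
  induction l generalizing u v with
  | nil => rfl
  | cons a l ih => rw [lb_cons, add_lie, ih]; rfl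

theorem lb_neg (u : L) (l : List L) : lb (-u) l = - lb u l := by
  induction l generalizing u with
  | nil => rfl
  | cons a l ih => rw [lb_cons, neg_lie, ih]; rfl

theorem lb_sub (u v : L) (l : List L) : lb (u - v) l = lb u l - lb v l := by
  rw [sub_eq_add_neg, lb_add, lb_neg, ← sub_eq_add_neg]

theorem lb_of_zero_mem (v : L) (l : List L) (h : (0 : L) ∈ l) : lb v l = 0 := by
  obtain ⟨l1, l2, rfl⟩ := List.append_of_mem h
  rw [lb_append, lb_cons, lie_zero, lb_zero]

theorem jac (x a b : L) : ⁅⁅x, b⁆, a⁆ = ⁅⁅x, a⁆, b⁆ + ⁅x, ⁅b, a⁆⁆ := by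
  rw [← lie_skew ⁅x, b⁆ a, leibniz_lie a x b, ← lie_skew x a, ← lie_skew b a, neg_lie, lie_neg]
  abel

section general

variable {n : ℕ}

/-- homogeneous elements -/
def Hom (E : ZMod n → AddSubgroup L) (x : L) : Prop := ∃ d, x ∈ E d

/-- all left-normed brackets of `c+1` homogeneous elements vanish -/
def Nil (E : ZMod n → AddSubgroup L) (c : ℕ) : Prop :=
  ∀ (v : L) (l : List L), Hom E v → (∀ a ∈ l, Hom E a) → l.length = c → lb v l = 0

theorem hom_of_der {E : ZMod n → AddSubgroup L} (hE : IsFam E) {v : L} (hv : Hom (der E) v) :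
    Hom E v := by
  obtain ⟨d, hd⟩ := hv
  exact ⟨d, der_le hE d hd⟩

theorem hom_der_lie {E : ZMod n → AddSubgroup L} (hE : IsFam E) {v a : L}
    (hv : Hom (der E) v) (ha : Hom E a) : Hom (der E) ⁅v, a⁆ := by
  obtain ⟨d, hd⟩ := hv
  obtain ⟨d', hd'⟩ := ha
  exact ⟨d + d', mem_der (der_le hE d hd) hd'⟩

theorem lb_hom {E : ZMod n → AddSubgroup L} (hE : IsFam E) {v : L} {l : List L} (hv : Hom E v)
    (hl : ∀ a ∈ l, Hom E a) : Hom E (lb v l) := by
  induction l generalizing v with
  | nil => exact hv
  | cons a l ih =>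
    rw [lb_cons]
    apply ih
    · obtain ⟨d, hd⟩ := hv
      obtain ⟨d', hd'⟩ := hl a (List.mem_cons_self ..)
      exact ⟨d + d', hE.1 _ _ _ _ hd hd'⟩
    · exact fun b hb => hl b (List.mem_cons_of_mem _ hb)

theorem lb_deg {E : ZMod n → AddSubgroup L} (hE : IsFam E) (B : List (ZMod n × L))
    (hB : ∀ q ∈ B, q.2 ∈ E q.1) {v : L} {d : ZMod n} (hv : v ∈ E d) :
    lb v (B.map Prod.snd) ∈ E (d + (B.map Prod.fst).sum) := by
  induction B generalizing v d with
  | nil => simpa using hv
  | cons q B ih =>
    rw [List.map_cons, List.map_cons, lb_cons, List.sum_cons, ← add_assoc]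
    exact ih (fun q' hq' => hB q' (List.mem_cons_of_mem _ hq'))
      (hE.1 _ _ _ _ hv (hB q (List.mem_cons_self ..)))

theorem exists_pairs {E : ZMod n → AddSubgroup L} (l : List L) (hl : ∀ a ∈ l, Hom E a) :
    ∃ B : List (ZMod n × L), B.map Prod.snd = l ∧ ∀ q ∈ B, q.2 ∈ E q.1 := by
  induction l with
  | nil => exact ⟨[], rfl, by simp⟩
  | cons a l ih =>
    obtain ⟨B, hB1, hB2⟩ := ih (fun b hb => hl b (List.mem_cons_of_mem _ hb))
    obtain ⟨d, hd⟩ := hl a (List.mem_cons_self ..)
    refine ⟨(d, a) :: B, by rw [List.map_cons, hB1], ?_⟩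
    intro q hq
    rcases List.mem_cons.mp hq with rfl | hq
    · exact hd
    · exact hB2 q hq

/-- multi-additivity: vanishing on homogeneous elements gives vanishing on their span -/
theorem nil_closure {E : ZMod n → AddSubgroup L} {c : ℕ} (h : Nil E c) :
    ∀ (l1 l2 : List L) (v : L), v ∈ AddSubgroup.closure {x | Hom E x} →
      (∀ a ∈ l1, a ∈ AddSubgroup.closure {x | Hom E x}) → (∀ a ∈ l2, Hom E a) →
      l1.length + l2.length = c → lb v (l1 ++ l2) = 0 := by
  intro l1
  induction l1 using List.reverseRecOn with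
  | nil =>
    intro l2 v hv _ hl2 hlen
    rw [List.nil_append]
    have hlen' : l2.length = c := by simpa using hlen
    induction hv using AddSubgroup.closure_induction with
    | mem x hx => exact h x l2 hx hl2 hlen'
    | zero => exact lb_zero _
    | add x y _ _ hx hy => rw [lb_add, hx, hy, add_zero]
    | neg x _ hx => rw [lb_neg, hx, neg_zero]
  | append_singleton l1 a ih =>
    intro l2 v hv hl1 hl2 hlen
    have ha := hl1 a (by simp)
    have hl1' : ∀ b ∈ l1, b ∈ AddSubgroup.closure {x | Hom E x} :=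
      fun b hb => hl1 b (List.mem_append_left _ hb)
    have hlen' : l1.length + (l2.length + 1) = c := by
      rw [List.length_append, List.length_singleton] at hlen
      omega
    clear hl1 hlen
    rw [List.append_assoc, List.singleton_append]
    induction ha using AddSubgroup.closure_induction with
    | mem x hx =>
      refine ih (x :: l2) v hv hl1' ?_ (by rw [List.length_cons]; exact hlen')
      intro b hb
      rcases List.mem_cons.mp hb with rfl | hb
      · exact hx
      · exact hl2 b hb
    | zero => rw [lb_append, lb_cons, lie_zero, lb_zero]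
    | add x y _ _ hx hy =>
      rw [lb_append, lb_cons, lie_add, lb_add, ← lb_cons, ← lb_cons, ← lb_append, ← lb_append,
        hx, hy, add_zero]
    | neg x _ hx =>
      rw [lb_append, lb_cons, lie_neg, lb_neg, ← lb_cons, ← lb_append, hx, neg_zero]

theorem nil_closure' {E : ZMod n → AddSubgroup L} {c : ℕ} (h : Nil E c) (v : L) (l : List L)
    (hv : v ∈ AddSubgroup.closure {x | Hom E x})
    (hl : ∀ a ∈ l, a ∈ AddSubgroup.closure {x | Hom E x}) (hlen : l.length = c) :
    lb v l = 0 := by
  have := nil_closure h l [] v hv hl (by simp) (by simpa using hlen)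
  rwa [List.append_nil] at this

end general

section sums

variable {p : ℕ} [Fact p.Prime] {α : Type*} (deg : α → ZMod p)

/-- the set of sums of sublists -/
def sums : List α → Finset (ZMod p)
  | [] => {0}
  | a :: l => sums l ∪ (sums l).image (fun s => s + deg a)

theorem zero_mem_sums (l : List α) : (0 : ZMod p) ∈ sums deg l := by
  induction l with
  | nil => simp [sums]
  | cons a l ih => simp only [sums]; exact Finset.mem_union_left _ ih

theorem exists_of_mem_sums : ∀ (l : List α) (t : ZMod p), t ∈ sums deg l →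
    ∃ l1 l2 : List α, l.Perm (l1 ++ l2) ∧ (l1.map deg).sum = t := by
  intro l
  induction l with
  | nil =>
    intro t ht
    simp only [sums, Finset.mem_singleton] at ht
    exact ⟨[], [], List.Perm.refl _, by simp [ht]⟩
  | cons a l ih =>
    intro t ht
    simp only [sums, Finset.mem_union, Finset.mem_image] at ht
    rcases ht with ht | ⟨s, hs, rfl⟩
    · obtain ⟨l1, l2, h, hs⟩ := ih t ht
      exact ⟨l1, a :: l2, (List.Perm.cons a h).trans (List.perm_middle).symm, hs⟩
    · obtain ⟨l1, l2, h, hs'⟩ := ih s hs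
      exact ⟨a :: l1, l2, List.Perm.cons a h, by simp [hs', add_comm]⟩

theorem card_sums (l : List α) (hl : ∀ a ∈ l, deg a ≠ 0) :
    min p (l.length + 1) ≤ (sums deg l).card := by
  haveI : NeZero p := ⟨(Fact.out : p.Prime).ne_zero⟩
  induction l with
  | nil => simp [sums]
  | cons a l ih =>
    have ih' := ih (fun b hb => hl b (List.mem_cons_of_mem _ hb))
    have hd : deg a ≠ 0 := hl a (List.mem_cons_self ..)
    simp only [sums, List.length_cons]
    by_cases hS : sums deg l = Finset.univ
    · have hun : (Finset.univ : Finset (ZMod p)) ∪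
          Finset.image (fun s => s + deg a) Finset.univ = Finset.univ :=
        Finset.union_eq_left.mpr (Finset.subset_univ _)
      rw [hS, hun, Finset.card_univ, ZMod.card]
      exact min_le_left _ _
    · have hex : ∃ s ∈ sums deg l, s + deg a ∉ sums deg l := by
        by_contra hcon
        push_neg at hcon
        apply hS
        rw [Finset.eq_univ_iff_forall]
        intro y
        have hk : ∀ k : ℕ, (k : ZMod p) * deg a ∈ sums deg l := by
          intro k
          induction k with
          | zero => simpa using zero_mem_sums deg l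
          | succ k ihk =>
            have := hcon _ ihk
            rwa [Nat.cast_succ, add_mul, one_mul]
        have := hk (y * (deg a)⁻¹).val
        rwa [ZMod.natCast_zmod_val, mul_assoc, inv_mul_cancel₀ hd, mul_one] at this
      obtain ⟨s, hs, hns⟩ := hex
      have hlt : (sums deg l).card <
          (sums deg l ∪ (sums deg l).image (fun s => s + deg a)).card := by
        apply Finset.card_lt_card
        rw [Finset.ssubset_iff_of_subset Finset.subset_union_left]
        exact ⟨s + deg a, Finset.mem_union_right _ (Finset.mem_image_of_mem _ hs), hns⟩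
      omega

theorem exists_perm_sum (l : List α) (hl : ∀ a ∈ l, deg a ≠ 0) (hlen : l.length + 1 = p)
    (t : ZMod p) : ∃ l1 l2 : List α, l.Perm (l1 ++ l2) ∧ (l1.map deg).sum = t := by
  haveI : NeZero p := ⟨(Fact.out : p.Prime).ne_zero⟩
  apply exists_of_mem_sums
  have h := card_sums deg l hl
  rw [hlen, min_self] at h
  have hu : sums deg l = Finset.univ := by
    apply Finset.eq_univ_of_card
    have h2 := Finset.card_le_univ (sums deg l)
    rw [ZMod.card] at h2 ⊢
    omega
  rw [hu]
  exact Finset.mem_univ _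

end sums

section classStep

variable {p : ℕ} [Fact p.Prime] {E : ZMod p → AddSubgroup L}

/-- span of left-normed brackets of `i+1` homogeneous elements of `M` -/
def WW (M : ZMod p → AddSubgroup L) (i : ℕ) : AddSubgroup L :=
  AddSubgroup.closure {z | ∃ v l, Hom M v ∧ (∀ a ∈ l, Hom M a) ∧ l.length = i ∧ lb v l = z}

theorem W_lie_hom {M : ZMod p → AddSubgroup L} {i : ℕ} {u b : L} (hu : u ∈ WW M i)
    (hb : Hom M b) : ⁅u, b⁆ ∈ WW M (i + 1) := by
  unfold WW at hu
  induction hu using AddSubgroup.closure_induction with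
  | mem z hz =>
    obtain ⟨v, l, hv, hl, hlen, rfl⟩ := hz
    refine AddSubgroup.subset_closure ⟨v, l ++ [b], hv, ?_, by simp [hlen], lb_snoc v l b⟩
    intro a ha
    rcases List.mem_append.mp ha with h | h
    · exact hl a h
    · rw [List.mem_singleton.mp h]; exact hb
  | zero => rw [zero_lie]; exact zero_mem _
  | add x y _ _ hx hy => rw [add_lie]; exact add_mem hx hy
  | neg x _ hx => rw [neg_lie]; exact neg_mem hx

theorem W_lie_E (hE : IsFam E) {i : ℕ} {u a : L} (hu : u ∈ WW (der E) i) (ha : Hom E a) :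
    ⁅u, a⁆ ∈ WW (der E) i := by
  have key : ∀ (l : List L) (v : L), Hom (der E) v → (∀ b ∈ l, Hom (der E) b) →
      ⁅lb v l, a⁆ ∈ WW (der E) l.length := by
    intro l
    induction l using List.reverseRecOn with
    | nil =>
      intro v hv _
      exact AddSubgroup.subset_closure ⟨⁅v, a⁆, [], hom_der_lie hE hv ha, by simp, rfl, rfl⟩
    | append_singleton l b ih =>
      intro v hv hl
      have hl' : ∀ c ∈ l, Hom (der E) c := fun c hc => hl c (List.mem_append_left _ hc)
      have hb : Hom (der E) b := hl b (by simp)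
      rw [lb_snoc, jac, List.length_append, List.length_singleton]
      refine add_mem (W_lie_hom (ih v hv hl') hb) ?_
      refine AddSubgroup.subset_closure ⟨v, l ++ [⁅b, a⁆], hv, ?_, by simp, lb_snoc _ _ _⟩
      intro c hc
      rcases List.mem_append.mp hc with h | h
      · exact hl' c h
      · rw [List.mem_singleton.mp h]; exact hom_der_lie hE hb ha
  unfold WW at hu
  induction hu using AddSubgroup.closure_induction with
  | mem z hz =>
    obtain ⟨v, l, hv, hl, hlen, rfl⟩ := hz
    rw [← hlen]
    exact key l v hv hl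
  | zero => rw [zero_lie]; exact zero_mem _
  | add x y _ _ hx hy => rw [add_lie]; exact add_mem hx hy
  | neg x _ hx => rw [neg_lie]; exact neg_mem hx

theorem W_swap {i : ℕ} {u a b : L} (hu : u ∈ WW (der E) i) (ha : Hom E a)
    (hb : Hom E b) : ⁅⁅u, b⁆, a⁆ - ⁅⁅u, a⁆, b⁆ ∈ WW (der E) (i + 1) := by
  rw [jac, add_sub_cancel_left]
  obtain ⟨d, hd⟩ := hb
  obtain ⟨d', hd'⟩ := ha
  exact W_lie_hom hu ⟨d + d', mem_der hd hd'⟩

theorem lb_mem_W (hE : IsFam E) {i : ℕ} {u : L} (hu : u ∈ WW (der E) i) {l : List L}
    (hl : ∀ a ∈ l, Hom E a) : lb u l ∈ WW (der E) i := by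
  induction l generalizing u with
  | nil => exact hu
  | cons a l ih =>
    rw [lb_cons]
    exact ih (W_lie_E hE hu (hl a (List.mem_cons_self ..)))
      (fun b hb => hl b (List.mem_cons_of_mem _ hb))

theorem W_perm (hE : IsFam E) {i : ℕ} {l l' : List L} (h : l.Perm l') :
    (∀ a ∈ l, Hom E a) → ∀ u ∈ WW (der E) i, lb u l - lb u l' ∈ WW (der E) (i + 1) := by
  induction h with
  | nil => intro _ u _; rw [sub_self]; exact zero_mem _
  | cons a h ih =>
    intro hl u hu
    rw [lb_cons, lb_cons]
    exact ih (fun b hb => hl b (List.mem_cons_of_mem _ hb)) _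
      (W_lie_E hE hu (hl a (List.mem_cons_self ..)))
  | swap a b l =>
    intro hl u hu
    rw [lb_cons, lb_cons, lb_cons, lb_cons, ← lb_sub]
    exact lb_mem_W hE (W_swap hu (hl a (by simp)) (hl b (by simp)))
      (fun c hc => hl c (by simp [hc]))
  | trans h1 h2 ih1 ih2 =>
    intro hl u hu
    have := add_mem (ih1 hl u hu) (ih2 (fun a ha => hl a (h1.mem_iff.mpr ha)) u hu)
    rwa [sub_add_sub_cancel] at this

theorem W_block (hE : IsFam E) {i : ℕ} {u : L} (hu : u ∈ WW (der E) i) {A : List L}
    (hA : ∀ a ∈ A, Hom E a) (hlen : A.length + 1 = p) : lb u A ∈ WW (der E) (i + 1) := by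
  unfold WW at hu
  induction hu using AddSubgroup.closure_induction with
  | mem z hz =>
    obtain ⟨v, l, hv, hl, hlen', rfl⟩ := hz
    have hu : lb v l ∈ WW (der E) i := AddSubgroup.subset_closure ⟨v, l, hv, hl, hlen', rfl⟩
    have hhom : Hom E (lb v l) :=
      lb_hom hE (hom_of_der hE hv) (fun a ha => hom_of_der hE (hl a ha))
    obtain ⟨k, hk⟩ := hhom
    by_cases hk0 : k = 0
    · subst hk0
      rw [hE.2] at hk
      rw [AddSubgroup.mem_bot.mp hk, lb_zero]
      exact zero_mem _
    obtain ⟨B, rfl, hB⟩ := exists_pairs A hA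
    by_cases hz : ∃ q ∈ B, q.1 = 0
    · obtain ⟨q, hq, hq0⟩ := hz
      have hq2 : q.2 = 0 := by
        have := hB q hq
        rw [hq0, hE.2] at this
        exact AddSubgroup.mem_bot.mp this
      have hmem : (0 : L) ∈ B.map Prod.snd := by
        rw [← hq2]
        exact List.mem_map_of_mem hq
      rw [lb_of_zero_mem _ _ hmem]
      exact zero_mem _
    push_neg at hz
    obtain ⟨B1, B2, hperm, hsum⟩ :=
      exists_perm_sum Prod.fst B hz (by simpa using hlen) (-k)
    have h1 := W_perm hE (hperm.map Prod.snd) hA (lb v l) hu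
    rw [List.map_append, lb_append] at h1
    have h2 : lb (lb v l) (B1.map Prod.snd) = 0 := by
      have := lb_deg hE B1
        (fun q hq => hB q (hperm.mem_iff.mpr (List.mem_append_left _ hq))) hk
      rw [hsum, add_neg_cancel, hE.2] at this
      exact AddSubgroup.mem_bot.mp this
    rw [h2, lb_zero, sub_zero] at h1
    exact h1
  | zero => rw [lb_zero]; exact zero_mem _
  | add x y _ _ hx hy => rw [lb_add]; exact add_mem hx hy
  | neg x _ hx => rw [lb_neg]; exact neg_mem hx

theorem W_blocks (hE : IsFam E) : ∀ (j : ℕ) {i : ℕ} {u : L}, u ∈ WW (der E) i →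
    ∀ (A : List L), (∀ a ∈ A, Hom E a) → A.length = (p - 1) * j →
      lb u A ∈ WW (der E) (i + j) := by
  intro j
  induction j with
  | zero =>
    intro i u hu A hA hlen
    have : A = [] := List.length_eq_zero_iff.mp (by simpa using hlen)
    subst this
    simpa using hu
  | succ j ih =>
    intro i u hu A hA hlen
    have hp := (Fact.out : p.Prime).two_le
    rw [← List.take_append_drop (p - 1) A, lb_append]
    have hge : p - 1 ≤ (p - 1) * (j + 1) := Nat.le_mul_of_pos_right _ (Nat.succ_pos j)
    have h1 : (A.take (p - 1)).length + 1 = p := by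
      rw [List.length_take, hlen, min_eq_left hge]
      omega
    have h2 : (A.drop (p - 1)).length = (p - 1) * j := by
      rw [List.length_drop, hlen, Nat.mul_succ]
      omega
    have := ih (W_block hE hu (fun a ha => hA a (List.mem_of_mem_take ha)) h1)
      (A.drop (p - 1)) (fun a ha => hA a (List.mem_of_mem_drop ha)) h2
    rwa [show i + 1 + j = i + (j + 1) by omega] at this

/-- class step: if the derived family has class at most `c`, the family has class at most
`(p-1)c + 1` -/
theorem nil_step (hE : IsFam E) {c : ℕ} (hM : Nil (der E) c) : Nil E ((p - 1) * c + 1) := by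
  intro v l hv hl hlen
  match l, hl, hlen with
  | [], _, hlen => simp at hlen
  | a :: l', hl, hlen =>
    rw [lb_cons]
    have h0 : ⁅v, a⁆ ∈ WW (der E) 0 := by
      obtain ⟨d, hd⟩ := hv
      obtain ⟨d', hd'⟩ := hl a (List.mem_cons_self ..)
      exact AddSubgroup.subset_closure
        ⟨⁅v, a⁆, [], ⟨d + d', mem_der hd hd'⟩, by simp, rfl, rfl⟩
    have h1 := W_blocks hE c h0 l' (fun b hb => hl b (List.mem_cons_of_mem _ hb))
      (by simpa using hlen)
    rw [zero_add] at h1
    have hW : WW (der E) c = ⊥ := by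
      rw [eq_bot_iff]
      unfold WW
      rw [AddSubgroup.closure_le]
      rintro z ⟨v, l, hv, hl, hlen, rfl⟩
      exact AddSubgroup.mem_bot.mpr (hM v l hv hl hlen)
    rw [hW] at h1
    exact AddSubgroup.mem_bot.mp h1

theorem nil_of_der_iter (s : ℕ) : ∀ {E : ZMod p → AddSubgroup L}, IsFam E →
    (∀ i, (der^[s] E) i = ⊥) → Nil E (∑ i ∈ Finset.range s, (p - 1) ^ i) := by
  induction s with
  | zero =>
    intro E hE h v l hv hl hlen
    obtain ⟨d, hd⟩ := hv
    simp only [Function.iterate_zero, id] at h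
    rw [h d] at hd
    rw [AddSubgroup.mem_bot.mp hd, lb_zero]
  | succ s ih =>
    intro E hE h
    have h' : ∀ i, (der^[s] (der E)) i = ⊥ := by
      intro i
      rw [← Function.iterate_succ_apply]
      exact h i
    have := nil_step hE (ih (isFam_der hE) h')
    have e : (p - 1) * ∑ i ∈ Finset.range s, (p - 1) ^ i + 1 =
        ∑ i ∈ Finset.range (s + 1), (p - 1) ^ i := by
      rw [Finset.sum_range_succ', Finset.mul_sum, pow_zero]
      congr 1
      apply Finset.sum_congr rfl
      intro i _
      rw [pow_succ']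
    rwa [e] at this

/-- **Higman--Kreknin--Kostrikin** for graded families -/
theorem nil_main (hE : IsFam E) :
    Nil E (∑ i ∈ Finset.range (2 ^ (p - 1) - 1), (p - 1) ^ i) := by
  haveI : NeZero p := ⟨(Fact.out : p.Prime).ne_zero⟩
  exact nil_of_der_iter _ hE (fun i => kreknin hE i)

end classStep

/-- the case `p = 3`: class at most two -/
theorem nil_three {E : ZMod 3 → AddSubgroup L} (hE : IsFam E) : Nil E 2 := by
  intro v l hv hl hlen
  obtain ⟨x, y, rfl⟩ := List.length_eq_two.mp hlen
  obtain ⟨a, ha⟩ := hv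
  obtain ⟨b, hb⟩ := hl x (by simp)
  obtain ⟨c, hc⟩ := hl y (by simp)
  show ⁅⁅v, x⁆, y⁆ = 0
  have key : ∀ a b c : ZMod 3, a = 0 ∨ b = 0 ∨ c = 0 ∨ a + b = 0 ∨ a + b + c = 0 ∨
      (a + c = 0 ∧ b + c = 0) := by decide
  have z : ∀ {d : ZMod 3} {w : L}, w ∈ E d → d = 0 → w = 0 := by
    intro d w hw hd
    subst hd
    rw [hE.2] at hw
    exact AddSubgroup.mem_bot.mp hw
  rcases key a b c with h | h | h | h | h | ⟨h1, h2⟩
  · rw [z ha h, zero_lie, zero_lie]
  · rw [z hb h, lie_zero, zero_lie]
  · rw [z hc h, lie_zero]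
  · rw [z (hE.1 _ _ _ _ ha hb) h, zero_lie]
  · exact z (hE.1 _ _ _ _ (hE.1 _ _ _ _ ha hb) hc) h
  · rw [jac, z (hE.1 _ _ _ _ ha hc) h1, zero_lie, z (hE.1 _ _ _ _ hb hc) h2, lie_zero, add_zero]

end Cfsg.Agent.Lib.Helper68.LieFam
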