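import Mathlib
import Cfsg.Agent.Lib.Helper68.LieFamB

set_option autoImplicit false
set_option maxHeartbeats 400000

/-! Scalar extension of a Lie algebra with an automorphism of prime order `p` by a commutative
algebra `A` containing a copy `s : ZMod p → A` of the cyclic group of order `p` (in the
application `A = R[C_p]`), the eigen-family, and the transfer of the
Higman--Kreknin--Kostrikin class bound back to the Lie algebra (helper68). -/

open scoped TensorProduct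

noncomputable section

namespace Cfsg.Agent.Lib.Helper68.LieExt

open Cfsg.Agent.Lib.Helper68.LieFam

variable {R : Type*} [CommRing R] {A : Type*} [CommRing A] [Algebra R A]
  {p : ℕ} [Fact p.Prime] {Lg : Type*} [LieRing Lg] [LieAlgebra R Lg]

theorem tmul_nsmul' (a : A) (x : Lg) (n : ℕ) : a ⊗ₜ[R] (n • x) = n • (a ⊗ₜ[R] x) := by
  induction n with
  | zero => rw [zero_smul, zero_smul, TensorProduct.tmul_zero]
  | succ n ih => rw [succ_nsmul, succ_nsmul, TensorProduct.tmul_add, ih]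

theorem nsmul_tmul' (a : A) (x : Lg) (n : ℕ) : (n • a) ⊗ₜ[R] x = n • (a ⊗ₜ[R] x) := by
  induction n with
  | zero => rw [zero_smul, zero_smul, TensorProduct.zero_tmul]
  | succ n ih => rw [succ_nsmul, succ_nsmul, TensorProduct.add_tmul, ih]

variable (φ : Lg →ₗ⁅R⁆ Lg)

/-- the induced map on the scalar extension -/
def psi : A ⊗[R] Lg →ₗ⁅R⁆ A ⊗[R] Lg := LieAlgebra.ExtendScalars.map (AlgHom.id R A) φ

theorem psi_tmul (a : A) (x : Lg) : psi (A := A) φ (a ⊗ₜ[R] x) = a ⊗ₜ[R] φ x := rfl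

theorem psi_iter_tmul (k : ℕ) (a : A) (x : Lg) :
    (⇑(psi (A := A) φ))^[k] (a ⊗ₜ[R] x) = a ⊗ₜ[R] (⇑φ)^[k] x := by
  induction k with
  | zero => rfl
  | succ k ih => rw [Function.iterate_succ_apply', ih, psi_tmul, Function.iterate_succ_apply']

theorem psi_sum (hsum : ∀ x, ∑ k ∈ Finset.range p, (⇑φ)^[k] x = 0) (f : A ⊗[R] Lg) :
    ∑ k ∈ Finset.range p, (⇑(psi (A := A) φ))^[k] f = 0 := by
  induction f using TensorProduct.induction_on with
  | zero =>
    apply Finset.sum_eq_zero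
    intro k _
    exact iterate_map_zero _ _
  | tmul a x =>
    rw [Finset.sum_congr rfl (fun k _ => psi_iter_tmul φ k a x), ← TensorProduct.tmul_sum, hsum,
      TensorProduct.tmul_zero]
  | add f1 f2 h1 h2 =>
    rw [Finset.sum_congr rfl (fun k _ => iterate_map_add (psi (A := A) φ) k f1 f2),
      Finset.sum_add_distrib, h1, h2, add_zero]

theorem tors (m : ℕ) (hm : ∀ x : Lg, m • x = 0) (f : A ⊗[R] Lg) : m • f = 0 := by
  induction f using TensorProduct.induction_on with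
  | zero => rw [smul_zero]
  | tmul a x => rw [← tmul_nsmul', hm, TensorProduct.tmul_zero]
  | add f1 f2 h1 h2 => rw [smul_add, h1, h2, add_zero]

theorem eq_zero_of_coprime {M : Type*} [AddCommGroup M] {a b : ℕ} (hab : Nat.Coprime a b)
    {x : M} (h1 : a • x = 0) (h2 : b • x = 0) : x = 0 := by
  have d := Nat.dvd_gcd (addOrderOf_dvd_of_nsmul_eq_zero h1) (addOrderOf_dvd_of_nsmul_eq_zero h2)
  rw [hab] at d
  exact AddMonoid.addOrderOf_eq_one_iff.mp (Nat.dvd_one.mp d)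

variable (s : ZMod p → A)

/-- the eigen-family -/
def EE (j : ZMod p) : AddSubgroup (A ⊗[R] Lg) where
  carrier := {f | psi φ f = s j • f}
  zero_mem' := by
    show psi φ 0 = s j • (0 : A ⊗[R] Lg)
    rw [map_zero, smul_zero]
  add_mem' := by
    intro a b ha hb
    show psi φ (a + b) = s j • (a + b)
    rw [map_add, smul_add, show psi φ a = s j • a from ha, show psi φ b = s j • b from hb]
  neg_mem' := by
    intro a ha
    show psi φ (-a) = s j • (-a)
    rw [map_neg, smul_neg, show psi φ a = s j • a from ha]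

theorem mem_EE {j : ZMod p} {f : A ⊗[R] Lg} : f ∈ EE φ s j ↔ psi φ f = s j • f := Iff.rfl

theorem smul_lie_smul (a b : A) (f g : A ⊗[R] Lg) : ⁅a • f, b • g⁆ = (a * b) • ⁅f, g⁆ := by
  rw [smul_lie, lie_smul, smul_smul]

theorem isFam_EE (hs : ∀ i j, s i * s j = s (i + j)) (hs0 : s 0 = 1)
    (hsum : ∀ x, ∑ k ∈ Finset.range p, (⇑φ)^[k] x = 0) (m : ℕ) (hm : ∀ x : Lg, m • x = 0)
    (hcop : Nat.Coprime p m) : IsFam (EE (A := A) φ s) := by
  refine ⟨?_, ?_⟩
  · intro i j f g hf hg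
    rw [mem_EE] at hf hg ⊢
    rw [LieHom.map_lie, hf, hg, smul_lie_smul, hs]
  · rw [eq_bot_iff]
    intro f hf
    rw [mem_EE, hs0, one_smul] at hf
    have hk : ∀ k : ℕ, (⇑(psi (A := A) φ))^[k] f = f := fun k => Function.iterate_fixed hf k
    have h2 : p • f = 0 := by
      have := psi_sum (A := A) φ hsum f
      rwa [Finset.sum_congr rfl (fun k _ => hk k), Finset.sum_const, Finset.card_range] at this
    exact AddSubgroup.mem_bot.mpr (eq_zero_of_coprime hcop h2 (tors m hm f))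

/-- eigen-components -/
def uu (j : ZMod p) (y : Lg) : A ⊗[R] Lg :=
  ∑ k ∈ Finset.range p, s (-j * (k : ZMod p)) ⊗ₜ[R] (⇑φ)^[k] y

theorem uu_mem (hs : ∀ i j, s i * s j = s (i + j)) (hφp : ∀ x, (⇑φ)^[p] x = x) (j : ZMod p)
    (y : Lg) : uu φ s j y ∈ EE φ s j := by
  rw [mem_EE]
  unfold uu
  rw [map_sum, Finset.smul_sum]
  have hL : ∀ k ∈ Finset.range p, psi φ (s (-j * (k : ZMod p)) ⊗ₜ[R] (⇑φ)^[k] y) =
      (fun k : ℕ => s (j - j * (k : ZMod p)) ⊗ₜ[R] (⇑φ)^[k] y) (k + 1) := by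
    intro k _
    show psi φ (s (-j * (k : ZMod p)) ⊗ₜ[R] (⇑φ)^[k] y) =
      s (j - j * ((k + 1 : ℕ) : ZMod p)) ⊗ₜ[R] (⇑φ)^[k + 1] y
    rw [psi_tmul, Function.iterate_succ_apply']
    congr 2
    push_cast
    ring
  have hR : ∀ k ∈ Finset.range p, s j • (s (-j * (k : ZMod p)) ⊗ₜ[R] (⇑φ)^[k] y) =
      (fun k : ℕ => s (j - j * (k : ZMod p)) ⊗ₜ[R] (⇑φ)^[k] y) k := by
    intro k _
    show s j • (s (-j * (k : ZMod p)) ⊗ₜ[R] (⇑φ)^[k] y) =
      s (j - j * (k : ZMod p)) ⊗ₜ[R] (⇑φ)^[k] y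
    rw [TensorProduct.smul_tmul', smul_eq_mul, hs]
    congr 2
    ring
  rw [Finset.sum_congr rfl hL, Finset.sum_congr rfl hR]
  have h1 := Finset.sum_range_succ (fun k : ℕ => s (j - j * (k : ZMod p)) ⊗ₜ[R] (⇑φ)^[k] y) p
  have h2 := Finset.sum_range_succ' (fun k : ℕ => s (j - j * (k : ZMod p)) ⊗ₜ[R] (⇑φ)^[k] y) p
  rw [h1] at h2
  have h3 : s (j - j * ((p : ℕ) : ZMod p)) ⊗ₜ[R] (⇑φ)^[p] y =
      s (j - j * ((0 : ℕ) : ZMod p)) ⊗ₜ[R] (⇑φ)^[0] y := by
    rw [hφp, ZMod.natCast_self, Nat.cast_zero]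
    rfl
  rw [h3] at h2
  exact (add_right_cancel h2).symm

/-- the norm element -/
def NN : A := ∑ j : ZMod p, s j

theorem sum_s_mul (k : ZMod p) (hk : k ≠ 0) : ∑ j : ZMod p, s (-j * k) = NN s := by
  unfold NN
  apply Fintype.sum_bijective (fun j : ZMod p => -j * k)
  · apply Function.Injective.bijective_of_finite
    intro a b hab
    have : -a = -b := mul_right_cancel₀ hk hab
    exact neg_injective this
  · intro j
    rfl

theorem sum_uu (hs0 : s 0 = 1) (hsum : ∀ x, ∑ k ∈ Finset.range p, (⇑φ)^[k] x = 0) (y : Lg) :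
    ∑ j : ZMod p, uu φ s j y = ((p : A) - NN s) ⊗ₜ[R] y := by
  unfold uu
  rw [Finset.sum_comm]
  have h1 : ∀ k ∈ Finset.range p, ∑ j : ZMod p, s (-j * (k : ZMod p)) ⊗ₜ[R] (⇑φ)^[k] y =
      (fun k : ℕ => (∑ j : ZMod p, s (-j * (k : ZMod p))) ⊗ₜ[R] (⇑φ)^[k] y) k :=
    fun k _ => (TensorProduct.sum_tmul _ _ _).symm
  rw [Finset.sum_congr rfl h1]
  have hp1 : p - 1 + 1 = p := by
    have := (Fact.out : p.Prime).pos
    omega
  have h2 := Finset.sum_range_succ'
    (fun k : ℕ => (∑ j : ZMod p, s (-j * (k : ZMod p))) ⊗ₜ[R] (⇑φ)^[k] y) (p - 1)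
  rw [hp1] at h2
  rw [h2]
  have h3 : ∀ k ∈ Finset.range (p - 1),
      (∑ j : ZMod p, s (-j * ((k + 1 : ℕ) : ZMod p))) ⊗ₜ[R] (⇑φ)^[k + 1] y =
      (NN s) ⊗ₜ[R] (⇑φ)^[k + 1] y := by
    intro k hk
    rw [sum_s_mul]
    intro h0
    rw [ZMod.natCast_eq_zero_iff] at h0
    have := Nat.le_of_dvd (Nat.succ_pos k) h0
    have := Finset.mem_range.mp hk
    omega
  rw [Finset.sum_congr rfl h3, ← TensorProduct.tmul_sum]
  have h4 : ∑ k ∈ Finset.range (p - 1), (⇑φ)^[k + 1] y = -y := by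
    have h5 := hsum y
    have h6 := Finset.sum_range_succ' (fun k : ℕ => (⇑φ)^[k] y) (p - 1)
    rw [hp1, h5] at h6
    exact eq_neg_of_add_eq_zero_left h6.symm
  rw [h4]
  have h7 : (∑ j : ZMod p, s (-j * ((0 : ℕ) : ZMod p))) = (p : A) := by
    simp only [Nat.cast_zero, mul_zero, hs0, Finset.sum_const, Finset.card_univ, ZMod.card,
      nsmul_eq_mul, mul_one]
  rw [h7, TensorProduct.tmul_neg, TensorProduct.sub_tmul]
  show -((NN s) ⊗ₜ[R] y) + (p : A) ⊗ₜ[R] y = (p : A) ⊗ₜ[R] y - (NN s) ⊗ₜ[R] y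
  abel

theorem NN_mul_s (hs : ∀ i j, s i * s j = s (i + j)) (k : ZMod p) : NN s * s k = NN s := by
  unfold NN
  rw [Finset.sum_mul]
  simp only [hs]
  exact Fintype.sum_bijective (fun j : ZMod p => j + k) (AddGroup.addRight_bijective k) _ _
    (fun j => rfl)

theorem NN_sq (hs : ∀ i j, s i * s j = s (i + j)) : NN s * NN s = (p : A) * NN s := by
  calc NN s * NN s = NN s * ∑ k : ZMod p, s k := rfl
    _ = ∑ k : ZMod p, NN s * s k := Finset.mul_sum _ _ _
    _ = ∑ _k : ZMod p, NN s := by simp only [NN_mul_s s hs]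
    _ = (p : A) * NN s := by rw [Finset.sum_const, Finset.card_univ, ZMod.card, nsmul_eq_mul]

/-- `π = p - N` -/
def ppi : A := (p : A) - NN s

theorem ppi_sq (hs : ∀ i j, s i * s j = s (i + j)) : ppi s * ppi s = (p : A) * ppi s := by
  unfold ppi
  linear_combination NN_sq s hs

/-- the embedding (up to scalars) of the Lie algebra into the span of the eigen-family -/
def iota (y : Lg) : A ⊗[R] Lg := (ppi s) ⊗ₜ[R] y

theorem iota_mem (hs : ∀ i j, s i * s j = s (i + j)) (hs0 : s 0 = 1)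
    (hφp : ∀ x, (⇑φ)^[p] x = x) (hsum : ∀ x, ∑ k ∈ Finset.range p, (⇑φ)^[k] x = 0) (y : Lg) :
    iota (R := R) s y ∈ AddSubgroup.closure {x | Hom (EE (A := A) φ s) x} := by
  unfold iota ppi
  rw [← sum_uu φ s hs0 hsum y]
  exact sum_mem (fun j _ => AddSubgroup.subset_closure ⟨j, uu_mem φ s hs hφp j y⟩)

theorem iota_lie (hs : ∀ i j, s i * s j = s (i + j)) (x y : Lg) :
    ⁅iota (R := R) s x, iota (R := R) s y⁆ = p • iota (R := R) s ⁅x, y⁆ := by
  unfold iota
  rw [LieAlgebra.ExtendScalars.bracket_tmul, ppi_sq s hs, ← nsmul_eq_mul, nsmul_tmul']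

theorem lb_nsmul {M : Type*} [LieRing M] (c : ℕ) (u : M) (l : List M) :
    lb (c • u) l = c • lb u l := by
  induction l generalizing u with
  | nil => rfl
  | cons a l ih => rw [lb_cons, nsmul_lie, ih, lb_cons]

theorem lb_iota (hs : ∀ i j, s i * s j = s (i + j)) (v : Lg) (l : List Lg) :
    lb (iota (R := R) s v) (l.map (iota (R := R) s)) =
      (p ^ l.length) • iota (R := R) s (lb v l) := by
  induction l generalizing v with
  | nil => simp
  | cons a l ih =>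
    rw [List.map_cons, lb_cons, iota_lie s hs, lb_nsmul, ih, lb_cons, List.length_cons, pow_succ,
      mul_comm, mul_smul]

variable (e1 : A →ₗ[R] R)

theorem e1_ppi (hs0 : s 0 = 1) (he1 : ∀ j, e1 (s j) = if j = 1 then 1 else 0) :
    e1 (ppi s) = -1 := by
  unfold ppi NN
  rw [map_sub, map_sum, ← nsmul_one p, map_nsmul, ← hs0, he1]
  simp only [he1, Finset.sum_ite_eq', Finset.mem_univ, if_true]
  rw [if_neg (zero_ne_one), smul_zero, zero_sub]

/-- the retraction -/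
def eps : A ⊗[R] Lg →ₗ[R] Lg := TensorProduct.lift ((LinearMap.lsmul R Lg).comp e1)

theorem eps_tmul (a : A) (y : Lg) : eps e1 (a ⊗ₜ[R] y) = e1 a • y := by
  unfold eps
  rw [TensorProduct.lift.tmul]
  rfl

theorem eps_iota (hs0 : s 0 = 1) (he1 : ∀ j, e1 (s j) = if j = 1 then 1 else 0) (y : Lg) :
    eps e1 (iota (R := R) s y) = -y := by
  unfold iota
  rw [eps_tmul, e1_ppi s e1 hs0 he1, neg_one_smul]

/-- transfer of a nilpotency bound from the eigen-family to the Lie algebra -/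
theorem transfer (hs : ∀ i j, s i * s j = s (i + j)) (hs0 : s 0 = 1)
    (he1 : ∀ j, e1 (s j) = if j = 1 then 1 else 0)
    (hφp : ∀ x, (⇑φ)^[p] x = x) (hsum : ∀ x, ∑ k ∈ Finset.range p, (⇑φ)^[k] x = 0) (m : ℕ)
    (hm : ∀ x : Lg, m • x = 0) (hcop : Nat.Coprime p m) {c : ℕ}
    (hNil : Nil (EE (A := A) φ s) c) (v : Lg) (l : List Lg) (hlen : l.length = c) :
    lb v l = 0 := by
  have h1 := nil_closure' hNil (iota (R := R) s v) (l.map (iota (R := R) s))
    (iota_mem φ s hs hs0 hφp hsum v)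
    (by
      intro a ha
      obtain ⟨b, -, rfl⟩ := List.mem_map.mp ha
      exact iota_mem φ s hs hs0 hφp hsum b)
    (by simpa using hlen)
  rw [lb_iota s hs] at h1
  have h2 := congrArg (eps (Lg := Lg) e1) h1
  rw [map_nsmul, eps_iota s e1 hs0 he1, map_zero, smul_neg, neg_eq_zero] at h2
  exact eq_zero_of_coprime (Nat.Coprime.pow_left l.length hcop) h2 (hm _)

/-- **Higman--Kreknin--Kostrikin** for a Lie algebra with an automorphism of prime order `p`
without nonzero fixed points (in the form `∑ φ^k = 0`) and `p'`-torsion. -/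
theorem class_bound (hs : ∀ i j, s i * s j = s (i + j)) (hs0 : s 0 = 1)
    (he1 : ∀ j, e1 (s j) = if j = 1 then 1 else 0)
    (hφp : ∀ x, (⇑φ)^[p] x = x) (hsum : ∀ x, ∑ k ∈ Finset.range p, (⇑φ)^[k] x = 0) (m : ℕ)
    (hm : ∀ x : Lg, m • x = 0) (hcop : Nat.Coprime p m) (v : Lg) (l : List Lg)
    (hlen : l.length = ∑ i ∈ Finset.range (2 ^ (p - 1) - 1), (p - 1) ^ i) : lb v l = 0 :=
  transfer φ s e1 hs hs0 he1 hφp hsum m hm hcop
    (nil_main (isFam_EE φ s hs hs0 hsum m hm hcop)) v l hlen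

end Cfsg.Agent.Lib.Helper68.LieExt

namespace Cfsg.Agent.Lib.Helper68.LieExt

open Cfsg.Agent.Lib.Helper68.LieFam

/-- the case `p = 3` -/
theorem class_three {R : Type*} [CommRing R] {A : Type*} [CommRing A] [Algebra R A]
    {Lg : Type*} [LieRing Lg] [LieAlgebra R Lg] (φ : Lg →ₗ⁅R⁆ Lg) (s : ZMod 3 → A)
    (e1 : A →ₗ[R] R) (hs : ∀ i j, s i * s j = s (i + j)) (hs0 : s 0 = 1)
    (he1 : ∀ j, e1 (s j) = if j = 1 then 1 else 0)
    (hφp : ∀ x, (⇑φ)^[3] x = x) (hsum : ∀ x, ∑ k ∈ Finset.range 3, (⇑φ)^[k] x = 0) (m : ℕ)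
    (hm : ∀ x : Lg, m • x = 0) (hcop : Nat.Coprime 3 m) (v : Lg) (l : List Lg)
    (hlen : l.length = 2) : lb v l = 0 :=
  haveI : Fact (Nat.Prime 3) := ⟨Nat.prime_three⟩
  transfer (p := 3) φ s e1 hs hs0 he1 hφp hsum m hm hcop
    (nil_three (isFam_EE φ s hs hs0 hsum m hm hcop)) v l hlen

/-- the concrete model `A = R[C_p]` -/
theorem single_mul (R : Type*) [CommRing R] (p : ℕ) (i j : ZMod p) :
    (AddMonoidAlgebra.single i (1 : R) : AddMonoidAlgebra R (ZMod p)) *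
      AddMonoidAlgebra.single j (1 : R) = AddMonoidAlgebra.single (i + j) (1 : R) := by
  rw [AddMonoidAlgebra.single_mul_single, mul_one]

theorem single_zero' (R : Type*) [CommRing R] (p : ℕ) :
    (AddMonoidAlgebra.single (0 : ZMod p) (1 : R) : AddMonoidAlgebra R (ZMod p)) = 1 :=
  (AddMonoidAlgebra.one_def).symm

/-- coefficient of `1 : ZMod p` -/
def coe1 (R : Type*) [CommRing R] (p : ℕ) : AddMonoidAlgebra R (ZMod p) →ₗ[R] R :=
  (Finsupp.lapply (1 : ZMod p)).comp (AddMonoidAlgebra.coeffLinearEquiv R).toLinearMap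

theorem coe1_single (R : Type*) [CommRing R] (p : ℕ) (j : ZMod p) :
    coe1 R p (AddMonoidAlgebra.single j (1 : R)) = if j = 1 then 1 else 0 := by
  show (AddMonoidAlgebra.single j (1 : R)).coeff 1 = _
  rw [AddMonoidAlgebra.coeff_single, Finsupp.single_apply]

end Cfsg.Agent.Lib.Helper68.LieExt
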