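import Mathlib

set_option autoImplicit false
open scoped commutatorElement

/-! The associated Lie ring of the lower central series of a group (helper68):
`LG G = ⨁ γ_i(G)/γ_{i+1}(G)` with bracket induced by group commutators. -/

namespace Cfsg.Agent.Lib.Helper68.LieGr

/-- lower central series -/
abbrev lc (G : Type*) [Group G] (n : ℕ) : Subgroup G := (⊤ : Subgroup G).lowerCentralSeries n

variable {G : Type*} [Group G]

/-- three subgroups lemma modulo a normal subgroup -/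
theorem three_mod (N : Subgroup G) [N.Normal] (A B C : Subgroup G)
    (h1 : ⁅⁅B, C⁆, A⁆ ≤ N) (h2 : ⁅⁅C, A⁆, B⁆ ≤ N) : ⁅⁅A, B⁆, C⁆ ≤ N := by
  have key : ∀ X : Subgroup G, X ≤ N ↔ X.map (QuotientGroup.mk' N) = ⊥ := by
    intro X
    rw [← le_bot_iff, Subgroup.map_le_iff_le_comap]
    have : (⊥ : Subgroup (G ⧸ N)).comap (QuotientGroup.mk' N) = N := by
      ext x; simp
    rw [this]
  rw [key] at h1 h2 ⊢
  rw [Subgroup.map_commutator, Subgroup.map_commutator] at h1 h2 ⊢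
  exact Subgroup.commutator_commutator_eq_bot_of_rotate h1 h2

theorem lc_comm (i j : ℕ) : ⁅lc G i, lc G j⁆ ≤ lc G (i + j + 1) := by
  induction j generalizing i with
  | zero => exact le_rfl
  | succ j ih =>
    show ⁅lc G i, ⁅lc G j, ⊤⁆⁆ ≤ lc G (i + (j + 1) + 1)
    rw [Subgroup.commutator_comm]
    apply three_mod
    · rw [Subgroup.commutator_comm ⊤ (lc G i)]
      have := ih (i + 1)
      rw [show i + 1 + j + 1 = i + (j + 1) + 1 by omega] at this
      exact this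
    · exact Subgroup.commutator_mono (ih i) le_rfl

theorem lc_le {i j : ℕ} (h : i ≤ j) : lc G j ≤ lc G i :=
  Subgroup.lowerCentralSeries_antitone ⊤ h

theorem lc_succ_le (n : ℕ) : lc G (n + 1) ≤ lc G n := lc_le (Nat.le_succ n)

theorem comm_mem {i j : ℕ} {x y : G} (hx : x ∈ lc G i) (hy : y ∈ lc G j) :
    ⁅x, y⁆ ∈ lc G (i + j + 1) :=
  lc_comm i j (Subgroup.commutator_mem_commutator hx hy)

theorem comm_mem_succ {n : ℕ} {t : G} (ht : t ∈ lc G n) (g : G) : ⁅g, t⁆ ∈ lc G (n + 1) := by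
  rw [← commutatorElement_inv]
  exact inv_mem (Subgroup.commutator_mem_commutator ht (Subgroup.mem_top g))

/-- the `n`-th factor of the lower central series -/
abbrev Q (G : Type*) [Group G] (n : ℕ) : Type _ :=
  ↥(lc G n) ⧸ (lc G (n + 1)).subgroupOf (lc G n)

instance instCommGroupQ (n : ℕ) : CommGroup (Q G n) :=
  { (inferInstance : Group (Q G n)) with
    mul_comm := by
      intro a b
      obtain ⟨a, rfl⟩ := QuotientGroup.mk_surjective a
      obtain ⟨b, rfl⟩ := QuotientGroup.mk_surjective b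
      rw [← QuotientGroup.mk_mul, ← QuotientGroup.mk_mul, QuotientGroup.eq,
        Subgroup.mem_subgroupOf]
      have e : (((a * b)⁻¹ * (b * a) : ↥(lc G n)) : G) = ⁅(b : G)⁻¹, (a : G)⁻¹⁆ := by
        simp [commutatorElement_def, mul_assoc]
      rw [e]
      exact Subgroup.commutator_mem_commutator (inv_mem b.2) (Subgroup.mem_top _) }

/-- the `n`-th factor, written additively -/
abbrev A (G : Type*) [Group G] (n : ℕ) : Type _ := Additive (Q G n)

/-- the class of an element of `γ_{n+1}` -/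
def cl (n : ℕ) (x : G) (hx : x ∈ lc G n) : A G n :=
  Additive.ofMul (QuotientGroup.mk (⟨x, hx⟩ : ↥(lc G n)))

theorem cl_eq_iff {n : ℕ} {x y : G} (hx : x ∈ lc G n) (hy : y ∈ lc G n) :
    cl n x hx = cl n y hy ↔ x⁻¹ * y ∈ lc G (n + 1) := by
  unfold cl
  rw [Additive.ofMul.injective.eq_iff, QuotientGroup.eq, Subgroup.mem_subgroupOf]
  rfl

theorem cl_mul {n : ℕ} {x y : G} (hx : x ∈ lc G n) (hy : y ∈ lc G n)
    (hxy : x * y ∈ lc G n) : cl n (x * y) hxy = cl n x hx + cl n y hy := rfl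

theorem cl_one (n : ℕ) (h : (1 : G) ∈ lc G n) : cl n (1 : G) h = 0 := rfl

theorem cl_inv {n : ℕ} {x : G} (hx : x ∈ lc G n) (hx' : x⁻¹ ∈ lc G n) :
    cl n x⁻¹ hx' = - cl n x hx := rfl

theorem cl_eq_zero_iff {n : ℕ} {x : G} (hx : x ∈ lc G n) :
    cl n x hx = 0 ↔ x ∈ lc G (n + 1) := by
  rw [← cl_one n (one_mem _), cl_eq_iff, mul_one, inv_mem_iff]

theorem cl_congr {n : ℕ} {x y : G} (h : x = y) (hx : x ∈ lc G n) :
    cl n x hx = cl n y (h ▸ hx) := by subst h; rfl

theorem cl_surj {n : ℕ} (a : A G n) : ∃ x hx, cl n x hx = a := by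
  obtain ⟨⟨x, hx⟩, h⟩ := QuotientGroup.mk_surjective (Additive.toMul a)
  exact ⟨x, hx, by unfold cl; rw [h]; rfl⟩

theorem comm_mul_left {i j : ℕ} {x x' y : G} (hx : x ∈ lc G i) (hx' : x' ∈ lc G i)
    (hy : y ∈ lc G j) (h : ⁅x * x', y⁆ ∈ lc G (i + j + 1)) :
    cl (i + j + 1) ⁅x * x', y⁆ h =
      cl (i + j + 1) ⁅x, y⁆ (comm_mem hx hy) + cl (i + j + 1) ⁅x', y⁆ (comm_mem hx' hy) := by
  have e : ⁅x * x', y⁆ = ⁅x, ⁅x', y⁆⁆ * ⁅x', y⁆ * ⁅x, y⁆ := by
    simp only [commutatorElement_def]; group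
  have h1 : ⁅x, ⁅x', y⁆⁆ ∈ lc G (i + j + 1 + 1) :=
    lc_le (by omega) (comm_mem hx (comm_mem hx' hy))
  rw [cl_congr e, cl_mul (mul_mem (lc_succ_le _ h1) (comm_mem hx' hy)) (comm_mem hx hy),
    cl_mul (lc_succ_le _ h1) (comm_mem hx' hy), (cl_eq_zero_iff _).mpr h1, zero_add]
  exact add_comm _ _

theorem comm_mul_right {i j : ℕ} {x y y' : G} (hx : x ∈ lc G i) (hy : y ∈ lc G j)
    (hy' : y' ∈ lc G j) (h : ⁅x, y * y'⁆ ∈ lc G (i + j + 1)) :
    cl (i + j + 1) ⁅x, y * y'⁆ h =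
      cl (i + j + 1) ⁅x, y⁆ (comm_mem hx hy) + cl (i + j + 1) ⁅x, y'⁆ (comm_mem hx hy') := by
  have e : ⁅x, y * y'⁆ = ⁅x, y⁆ * (⁅y, ⁅x, y'⁆⁆ * ⁅x, y'⁆) := by
    simp only [commutatorElement_def]; group
  have h1 : ⁅y, ⁅x, y'⁆⁆ ∈ lc G (i + j + 1 + 1) :=
    lc_le (by omega) (comm_mem hy (comm_mem hx hy'))
  rw [cl_congr e, cl_mul (comm_mem hx hy) (mul_mem (lc_succ_le _ h1) (comm_mem hx hy')),
    cl_mul (lc_succ_le _ h1) (comm_mem hx hy'), (cl_eq_zero_iff _).mpr h1, zero_add]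

theorem comm_left_zero {i j : ℕ} {x y : G} (hx : x ∈ lc G (i + 1)) (hy : y ∈ lc G j) :
    ⁅x, y⁆ ∈ lc G (i + j + 1 + 1) :=
  lc_le (by omega) (comm_mem hx hy)

theorem comm_right_zero {i j : ℕ} {x y : G} (hx : x ∈ lc G i) (hy : y ∈ lc G (j + 1)) :
    ⁅x, y⁆ ∈ lc G (i + j + 1 + 1) :=
  lc_le (by omega) (comm_mem hx hy)

/-- the bracket on the factors -/
def brk (i j : ℕ) (a : A G i) (b : A G j) : A G (i + j + 1) :=
  Quotient.liftOn₂' (Additive.toMul a) (Additive.toMul b)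
    (fun x y => cl (i + j + 1) ⁅(x : G), (y : G)⁆ (comm_mem x.2 y.2))
    (by
      intro x y x' y' hx hy
      have hx' : (x : G)⁻¹ * x' ∈ lc G (i + 1) :=
        Subgroup.mem_subgroupOf.mp (QuotientGroup.leftRel_apply.mp hx)
      have hy' : (y : G)⁻¹ * y' ∈ lc G (j + 1) :=
        Subgroup.mem_subgroupOf.mp (QuotientGroup.leftRel_apply.mp hy)
      have e2 : ⁅(x' : G), (y' : G)⁆ =
          ⁅(x : G) * ((x : G)⁻¹ * x'), (y : G) * ((y : G)⁻¹ * y')⁆ := by
        rw [mul_inv_cancel_left, mul_inv_cancel_left]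
      show cl (i + j + 1) ⁅(x : G), (y : G)⁆ _ = cl (i + j + 1) ⁅(x' : G), (y' : G)⁆ _
      rw [cl_congr e2, comm_mul_left x.2 (lc_succ_le _ hx') (mul_mem y.2 (lc_succ_le _ hy')),
        comm_mul_right x.2 y.2 (lc_succ_le _ hy'),
        comm_mul_right (lc_succ_le _ hx') y.2 (lc_succ_le _ hy'),
        (cl_eq_zero_iff _).mpr (comm_right_zero x.2 hy'),
        (cl_eq_zero_iff _).mpr (comm_left_zero hx' y.2),
        (cl_eq_zero_iff _).mpr (comm_left_zero hx' (lc_succ_le _ hy')), add_zero, add_zero,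
        add_zero])

theorem brk_cl {i j : ℕ} {x y : G} (hx : x ∈ lc G i) (hy : y ∈ lc G j) :
    brk i j (cl i x hx) (cl j y hy) = cl (i + j + 1) ⁅x, y⁆ (comm_mem hx hy) := rfl

theorem brk_add_left (i j : ℕ) (a a' : A G i) (b : A G j) :
    brk i j (a + a') b = brk i j a b + brk i j a' b := by
  obtain ⟨x, hx, rfl⟩ := cl_surj a
  obtain ⟨x', hx', rfl⟩ := cl_surj a'
  obtain ⟨y, hy, rfl⟩ := cl_surj b
  rw [← cl_mul hx hx' (mul_mem hx hx'), brk_cl, brk_cl, brk_cl, comm_mul_left hx hx' hy]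

theorem brk_add_right (i j : ℕ) (a : A G i) (b b' : A G j) :
    brk i j a (b + b') = brk i j a b + brk i j a b' := by
  obtain ⟨x, hx, rfl⟩ := cl_surj a
  obtain ⟨y, hy, rfl⟩ := cl_surj b
  obtain ⟨y', hy', rfl⟩ := cl_surj b'
  rw [← cl_mul hy hy' (mul_mem hy hy'), brk_cl, brk_cl, brk_cl, comm_mul_right hx hy hy']

theorem brk_zero_left (i j : ℕ) (b : A G j) : brk i j (0 : A G i) b = 0 := by
  have := brk_add_left i j (0 : A G i) 0 b
  rw [add_zero] at this
  exact left_eq_add.mp this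

theorem brk_zero_right (i j : ℕ) (a : A G i) : brk i j a (0 : A G j) = 0 := by
  have := brk_add_right i j a (0 : A G j) 0
  rw [add_zero] at this
  exact left_eq_add.mp this

/-- index type: `ℕ` with the shifted addition `a + b + 1` -/
structure SN where
  /-- the underlying natural number -/
  val : ℕ
deriving DecidableEq

instance : Add SN := ⟨fun a b => ⟨a.val + b.val + 1⟩⟩

/-- the graded pieces indexed by `SN` -/
abbrev AS (G : Type*) [Group G] (n : SN) : Type _ := A G n.val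

instance instGMulAS : GradedMonoid.GMul (AS G) := ⟨fun {i j} a b => brk i.val j.val a b⟩

instance instGNAS : DirectSum.GNonUnitalNonAssocSemiring (AS G) where
  mul_zero a := brk_zero_right _ _ a
  zero_mul b := brk_zero_left _ _ b
  mul_add a b c := brk_add_right _ _ a b c
  add_mul a b c := brk_add_left _ _ a b c

/-- the associated Lie ring of the lower central series -/
abbrev LG (G : Type*) [Group G] : Type _ := DirectSum SN (AS G)

/-- the class of an element of `γ_{n+1}` in the associated Lie ring -/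
def clL (n : ℕ) (x : G) (hx : x ∈ lc G n) : LG G := DirectSum.of (AS G) ⟨n⟩ (cl n x hx)

theorem clL_congr {n m : ℕ} (h : n = m) {x : G} (hx : x ∈ lc G n) :
    clL n x hx = clL m x (h ▸ hx) := by subst h; rfl

theorem clL_congr' {n : ℕ} {x y : G} (h : x = y) (hx : x ∈ lc G n) :
    clL n x hx = clL n y (h ▸ hx) := by subst h; rfl

theorem clL_mul {n : ℕ} {x y : G} (hx : x ∈ lc G n) (hy : y ∈ lc G n)
    (hxy : x * y ∈ lc G n) : clL n (x * y) hxy = clL n x hx + clL n y hy := by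
  unfold clL
  rw [cl_mul hx hy, map_add]

theorem clL_one (n : ℕ) (h : (1 : G) ∈ lc G n) : clL n (1 : G) h = 0 := by
  unfold clL
  rw [cl_one, map_zero]

theorem clL_inv {n : ℕ} {x : G} (hx : x ∈ lc G n) (hx' : x⁻¹ ∈ lc G n) :
    clL n x⁻¹ hx' = - clL n x hx := by
  unfold clL
  rw [cl_inv hx, map_neg]

theorem clL_eq_zero_iff {n : ℕ} {x : G} (hx : x ∈ lc G n) :
    clL n x hx = 0 ↔ x ∈ lc G (n + 1) := by
  unfold clL
  rw [← cl_eq_zero_iff hx]
  constructor
  · intro h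
    exact DirectSum.of_injective (β := AS G) ⟨n⟩ (by rw [h, map_zero])
  · intro h
    rw [h, map_zero]

theorem clL_of_mem {n : ℕ} {x : G} (hx : x ∈ lc G n) (h : x ∈ lc G (n + 1)) :
    clL n x hx = 0 := (clL_eq_zero_iff hx).mpr h

theorem clL_mul_clL {i j : ℕ} {x y : G} (hx : x ∈ lc G i) (hy : y ∈ lc G j) :
    clL i x hx * clL j y hy = clL (i + j + 1) ⁅x, y⁆ (comm_mem hx hy) := by
  unfold clL
  rw [DirectSum.of_mul_of]
  rfl

theorem clL_conj {n : ℕ} {t : G} (ht : t ∈ lc G n) (g : G) (h : g * t * g⁻¹ ∈ lc G n) :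
    clL n (g * t * g⁻¹) h = clL n t ht := by
  have e : g * t * g⁻¹ = ⁅g, t⁆ * t := by simp only [commutatorElement_def]; group
  rw [clL_congr' e, clL_mul (lc_succ_le _ (comm_mem_succ ht g)) ht,
    clL_of_mem _ (comm_mem_succ ht g), zero_add]

theorem LG_induction {P : LG G → Prop} (h0 : P 0) (hcl : ∀ n x hx, P (clL n x hx))
    (hadd : ∀ a b, P a → P b → P (a + b)) (z : LG G) : P z := by
  refine DirectSum.induction_on z h0 ?_ hadd
  intro i a
  obtain ⟨x, hx, rfl⟩ := cl_surj a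
  exact hcl i.val x hx

theorem anti (a b : LG G) : a * b + b * a = 0 := by
  refine LG_induction (P := fun a => a * b + b * a = 0) (by rw [zero_mul, mul_zero, add_zero])
    ?_ ?_ a
  · intro i x hx
    refine LG_induction (P := fun b => clL i x hx * b + b * clL i x hx = 0)
      (by rw [zero_mul, mul_zero, add_zero]) ?_ ?_ b
    · intro j y hy
      rw [clL_mul_clL, clL_mul_clL, clL_congr (show j + i + 1 = i + j + 1 by omega),
        ← clL_mul (comm_mem hx hy) _ (mul_mem (comm_mem hx hy)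
          (by have := comm_mem hy hx; rwa [show j + i + 1 = i + j + 1 by omega] at this))]
      have e : ⁅x, y⁆ * ⁅y, x⁆ = 1 := by rw [← commutatorElement_inv, inv_mul_cancel]
      rw [clL_congr' e, clL_one]
    · intro b1 b2 h1 h2
      rw [mul_add, add_mul, add_add_add_comm, h1, h2, add_zero]
  · intro a1 a2 h1 h2
    rw [add_mul, mul_add, add_add_add_comm, h1, h2, add_zero]

theorem sq_zero (a : LG G) : a * a = 0 := by
  refine LG_induction (P := fun a => a * a = 0) (by rw [zero_mul]) ?_ ?_ a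
  · intro i x hx
    rw [clL_mul_clL, clL_congr' (commutatorElement_self (g := x)), clL_one]
  · intro a1 a2 h1 h2
    rw [add_mul, mul_add, mul_add, h1, h2, zero_add, add_zero, anti]

theorem LG_neg_mul (a b : LG G) : (-a) * b = -(a * b) := by
  apply eq_neg_of_add_eq_zero_left
  rw [← add_mul, neg_add_cancel, zero_mul]

theorem LG_mul_neg (a b : LG G) : a * (-b) = -(a * b) := by
  apply eq_neg_of_add_eq_zero_left
  rw [← mul_add, neg_add_cancel, mul_zero]

theorem hall_witt (x y z : G) :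
    y * ⁅⁅y⁻¹, x⁆, z⁆ * y⁻¹ * (z * ⁅⁅z⁻¹, y⁆, x⁆ * z⁻¹) * (x * ⁅⁅x⁻¹, z⁆, y⁆ * x⁻¹) = 1 := by
  simp only [commutatorElement_def]
  group

theorem jacobi_cl {i j k : ℕ} {x y z : G} (hx : x ∈ lc G i) (hy : y ∈ lc G j)
    (hz : z ∈ lc G k) :
    (clL j y hy * clL i x hx) * clL k z hz + (clL k z hz * clL j y hy) * clL i x hx +
      (clL i x hx * clL k z hz) * clL j y hy = 0 := by
  have hy' : y⁻¹ ∈ lc G j := inv_mem hy
  have hz' : z⁻¹ ∈ lc G k := inv_mem hz
  have hx' : x⁻¹ ∈ lc G i := inv_mem hx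
  have e1 : (clL j y hy * clL i x hx) * clL k z hz =
      - clL (j + i + 1 + k + 1) ⁅⁅y⁻¹, x⁆, z⁆ (comm_mem (comm_mem hy' hx) hz) := by
    have : clL (j + i + 1 + k + 1) ⁅⁅y⁻¹, x⁆, z⁆ (comm_mem (comm_mem hy' hx) hz) =
        (clL j y⁻¹ hy' * clL i x hx) * clL k z hz := by
      rw [clL_mul_clL hy' hx, clL_mul_clL (comm_mem hy' hx) hz]
    rw [this, clL_inv hy hy', LG_neg_mul, LG_neg_mul, neg_neg]
  have e2 : (clL k z hz * clL j y hy) * clL i x hx =
      - clL (k + j + 1 + i + 1) ⁅⁅z⁻¹, y⁆, x⁆ (comm_mem (comm_mem hz' hy) hx) := by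
    have : clL (k + j + 1 + i + 1) ⁅⁅z⁻¹, y⁆, x⁆ (comm_mem (comm_mem hz' hy) hx) =
        (clL k z⁻¹ hz' * clL j y hy) * clL i x hx := by
      rw [clL_mul_clL hz' hy, clL_mul_clL (comm_mem hz' hy) hx]
    rw [this, clL_inv hz hz', LG_neg_mul, LG_neg_mul, neg_neg]
  have e3 : (clL i x hx * clL k z hz) * clL j y hy =
      - clL (i + k + 1 + j + 1) ⁅⁅x⁻¹, z⁆, y⁆ (comm_mem (comm_mem hx' hz) hy) := by
    have : clL (i + k + 1 + j + 1) ⁅⁅x⁻¹, z⁆, y⁆ (comm_mem (comm_mem hx' hz) hy) =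
        (clL i x⁻¹ hx' * clL k z hz) * clL j y hy := by
      rw [clL_mul_clL hx' hz, clL_mul_clL (comm_mem hx' hz) hy]
    rw [this, clL_inv hx hx', LG_neg_mul, LG_neg_mul, neg_neg]
  have d2 : k + j + 1 + i + 1 = j + i + 1 + k + 1 := by omega
  have d3 : i + k + 1 + j + 1 = j + i + 1 + k + 1 := by omega
  have m1 : ⁅⁅y⁻¹, x⁆, z⁆ ∈ lc G (j + i + 1 + k + 1) := comm_mem (comm_mem hy' hx) hz
  have m2 : ⁅⁅z⁻¹, y⁆, x⁆ ∈ lc G (j + i + 1 + k + 1) := d2 ▸ comm_mem (comm_mem hz' hy) hx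
  have m3 : ⁅⁅x⁻¹, z⁆, y⁆ ∈ lc G (j + i + 1 + k + 1) := d3 ▸ comm_mem (comm_mem hx' hz) hy
  have c1 : y * ⁅⁅y⁻¹, x⁆, z⁆ * y⁻¹ ∈ lc G (j + i + 1 + k + 1) :=
    (inferInstance : (lc G (j + i + 1 + k + 1)).Normal).conj_mem _ m1 y
  have c2 : z * ⁅⁅z⁻¹, y⁆, x⁆ * z⁻¹ ∈ lc G (j + i + 1 + k + 1) :=
    (inferInstance : (lc G (j + i + 1 + k + 1)).Normal).conj_mem _ m2 z
  have c3 : x * ⁅⁅x⁻¹, z⁆, y⁆ * x⁻¹ ∈ lc G (j + i + 1 + k + 1) :=
    (inferInstance : (lc G (j + i + 1 + k + 1)).Normal).conj_mem _ m3 x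
  have hw := clL_one (G := G) (j + i + 1 + k + 1) (one_mem _)
  rw [clL_congr' (hall_witt x y z).symm, clL_mul (mul_mem c1 c2) c3, clL_mul c1 c2,
    clL_conj m1, clL_conj m2, clL_conj m3] at hw
  rw [e1, e2, e3, clL_congr d2, clL_congr d3, ← neg_add, ← neg_add, hw, neg_zero]

theorem jacobi_cyc (a b c : LG G) : (b * a) * c + (c * b) * a + (a * c) * b = 0 := by
  refine LG_induction (P := fun a => (b * a) * c + (c * b) * a + (a * c) * b = 0) ?_ ?_ ?_ a
  · simp only [mul_zero, zero_mul, add_zero]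
  · intro i x hx
    refine LG_induction
      (P := fun b => (b * clL i x hx) * c + (c * b) * clL i x hx + (clL i x hx * c) * b = 0)
      ?_ ?_ ?_ b
    · simp only [mul_zero, zero_mul, add_zero]
    · intro j y hy
      refine LG_induction
        (P := fun c => (clL j y hy * clL i x hx) * c + (c * clL j y hy) * clL i x hx +
          (clL i x hx * c) * clL j y hy = 0) ?_ ?_ ?_ c
      · simp only [mul_zero, zero_mul, add_zero]
      · intro k z hz
        exact jacobi_cl hx hy hz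
      · intro c1 c2 h1 h2
        have : (clL j y hy * clL i x hx) * (c1 + c2) + ((c1 + c2) * clL j y hy) * clL i x hx +
            (clL i x hx * (c1 + c2)) * clL j y hy =
            ((clL j y hy * clL i x hx) * c1 + (c1 * clL j y hy) * clL i x hx +
              (clL i x hx * c1) * clL j y hy) +
            ((clL j y hy * clL i x hx) * c2 + (c2 * clL j y hy) * clL i x hx +
              (clL i x hx * c2) * clL j y hy) := by
          simp only [mul_add, add_mul]; abel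
        rw [this, h1, h2, add_zero]
    · intro b1 b2 h1 h2
      have : ((b1 + b2) * clL i x hx) * c + (c * (b1 + b2)) * clL i x hx +
          (clL i x hx * c) * (b1 + b2) =
          ((b1 * clL i x hx) * c + (c * b1) * clL i x hx + (clL i x hx * c) * b1) +
          ((b2 * clL i x hx) * c + (c * b2) * clL i x hx + (clL i x hx * c) * b2) := by
        simp only [mul_add, add_mul]; abel
      rw [this, h1, h2, add_zero]
  · intro a1 a2 h1 h2
    have : (b * (a1 + a2)) * c + (c * b) * (a1 + a2) + ((a1 + a2) * c) * b =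
        ((b * a1) * c + (c * b) * a1 + (a1 * c) * b) +
        ((b * a2) * c + (c * b) * a2 + (a2 * c) * b) := by
      simp only [mul_add, add_mul]; abel
    rw [this, h1, h2, add_zero]

theorem leibniz (a b c : LG G) : a * (b * c) = (a * b) * c + b * (a * c) := by
  have hJ := jacobi_cyc a b c
  have h1 : b * a = -(a * b) := eq_neg_of_add_eq_zero_left (anti b a)
  have h2 : c * b = -(b * c) := eq_neg_of_add_eq_zero_left (anti c b)
  have h3 : (b * c) * a = -(a * (b * c)) := eq_neg_of_add_eq_zero_left (anti (b * c) a)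
  have h4 : (a * c) * b = -(b * (a * c)) := eq_neg_of_add_eq_zero_left (anti (a * c) b)
  rw [h1, h2, LG_neg_mul, LG_neg_mul, h3, neg_neg, h4] at hJ
  calc a * (b * c) = (-(a * b * c) + a * (b * c) + -(b * (a * c))) + (a * b * c + b * (a * c)) := by
        abel
    _ = (a * b) * c + b * (a * c) := by rw [hJ, zero_add]

instance instBracketLG : Bracket (LG G) (LG G) := ⟨fun a b => a * b⟩

theorem lie_def (a b : LG G) : ⁅a, b⁆ = a * b := rfl

instance instLieRingLG : LieRing (LG G) where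
  add_lie := add_mul
  lie_add := mul_add
  lie_self := sq_zero
  leibniz_lie := leibniz

theorem clL_lie {i j : ℕ} {x y : G} (hx : x ∈ lc G i) (hy : y ∈ lc G j) :
    ⁅clL i x hx, clL j y hy⁆ = clL (i + j + 1) ⁅x, y⁆ (comm_mem hx hy) :=
  clL_mul_clL hx hy

end Cfsg.Agent.Lib.Helper68.LieGr
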