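import Mathlib
import Cfsg.Agent.Lib.Helper68.LieGrA
import Cfsg.Agent.Lib.Helper68.LieFamB

set_option autoImplicit false
set_option maxHeartbeats 400000
open scoped commutatorElement

/-! Automorphisms of the associated Lie ring of a group induced by group automorphisms, the
fixed-point-free case, and the passage from nilpotency of the Lie ring to nilpotency class of
the group (helper68). -/

namespace Cfsg.Agent.Lib.Helper68.LieGr

open Cfsg.Agent.Lib.Helper68.LieFam

variable {G : Type*} [Group G] (α : G ≃* G)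

theorem lc_map (n : ℕ) {x : G} (hx : x ∈ lc G n) : α x ∈ lc G n := by
  have h : (lc G n).map α.toMonoidHom = lc G n := by
    rw [Subgroup.map_lowerCentralSeries, Subgroup.map_top_of_surjective _ α.surjective]
  rw [← h]
  exact Subgroup.mem_map_of_mem _ hx

theorem iter_mem (k : ℕ) {n : ℕ} {x : G} (hx : x ∈ lc G n) : (⇑α)^[k] x ∈ lc G n := by
  induction k with
  | zero => exact hx
  | succ k ih => rw [Function.iterate_succ_apply']; exact lc_map α n ih

/-- restriction of `α` to a term of the lower central series -/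
def resHom (n : ℕ) : ↥(lc G n) →* ↥(lc G n) :=
  (α.toMonoidHom.comp (lc G n).subtype).codRestrict (lc G n) (fun x => lc_map α n x.2)

/-- the induced map on a factor of the lower central series -/
def phiQ (n : ℕ) : Q G n →* Q G n :=
  QuotientGroup.map _ _ (resHom α n) (by
    intro x hx
    rw [Subgroup.mem_comap, Subgroup.mem_subgroupOf]
    exact lc_map α (n + 1) (Subgroup.mem_subgroupOf.mp hx))

/-- the induced additive map on a factor of the lower central series -/
def phiA (n : ℕ) : A G n →+ A G n := MonoidHom.toAdditive (phiQ α n)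

theorem phiA_cl (n : ℕ) (x : G) (hx : x ∈ lc G n) :
    phiA α n (cl n x hx) = cl n (α x) (lc_map α n hx) := rfl

/-- the induced additive map on the associated Lie ring -/
def phiL : LG G →+ LG G := DirectSum.map (fun n : SN => phiA α n.val)

theorem phiL_clL (n : ℕ) (x : G) (hx : x ∈ lc G n) :
    phiL α (clL n x hx) = clL n (α x) (lc_map α n hx) := by
  unfold phiL clL
  rw [DirectSum.map_of]
  rfl

theorem phiL_mul (a b : LG G) : phiL α (a * b) = phiL α a * phiL α b := by
  refine LG_induction (P := fun a => phiL α (a * b) = phiL α a * phiL α b) ?_ ?_ ?_ a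
  · rw [zero_mul, map_zero, zero_mul]
  · intro i x hx
    refine LG_induction
      (P := fun b => phiL α (clL i x hx * b) = phiL α (clL i x hx) * phiL α b) ?_ ?_ ?_ b
    · rw [mul_zero, map_zero, mul_zero]
    · intro j y hy
      rw [clL_mul_clL, phiL_clL, phiL_clL, phiL_clL, clL_mul_clL]
      exact clL_congr' (map_commutatorElement ..) _
    · intro b1 b2 h1 h2
      rw [mul_add, map_add, map_add, mul_add, h1, h2]
  · intro a1 a2 h1 h2
    rw [add_mul, map_add, map_add, add_mul, h1, h2]

theorem phiL_lie (a b : LG G) : phiL α ⁅a, b⁆ = ⁅phiL α a, phiL α b⁆ := phiL_mul α a b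

theorem phiL_iter (k : ℕ) (n : ℕ) (x : G) (hx : x ∈ lc G n) :
    (⇑(phiL α))^[k] (clL n x hx) = clL n ((⇑α)^[k] x) (iter_mem α k hx) := by
  induction k with
  | zero => rfl
  | succ k ih =>
    rw [Function.iterate_succ_apply', ih, phiL_clL]
    exact clL_congr' (Function.iterate_succ_apply' ..).symm _

theorem phiL_iter_eq (k : ℕ) (hk : (⇑α)^[k] = id) (z : LG G) : (⇑(phiL α))^[k] z = z := by
  refine LG_induction (P := fun z => (⇑(phiL α))^[k] z = z) ?_ ?_ ?_ z
  · exact iterate_map_zero _ _
  · intro n x hx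
    rw [phiL_iter]
    exact clL_congr' (by rw [hk]; rfl) _
  · intro a b ha hb
    rw [iterate_map_add, ha, hb]

theorem quot_fpf [Finite G] (hfix : ∀ g, α g = g → g = 1) (N : Subgroup G)
    (hN : ∀ x ∈ N, α x ∈ N) {x : G} (h : x⁻¹ * α x ∈ N) : x ∈ N := by
  let f : N → N := fun m => ⟨(m : G)⁻¹ * α m, N.mul_mem (N.inv_mem m.2) (hN m m.2)⟩
  have hinj : Function.Injective f := by
    intro m m' hmm
    have h1 : (m : G)⁻¹ * α m = (m' : G)⁻¹ * α m' := congrArg Subtype.val hmm
    have h2 : α ((m' : G) * (m : G)⁻¹) = (m' : G) * (m : G)⁻¹ := by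
      rw [map_mul, map_inv]
      have : α (m : G) = (m : G) * ((m' : G)⁻¹ * α m') := by rw [← h1, mul_inv_cancel_left]
      rw [this]
      group
    have h3 := hfix _ h2
    rw [mul_inv_eq_one] at h3
    exact Subtype.ext h3.symm
  have hsurj := Finite.surjective_of_injective hinj
  obtain ⟨m, hm⟩ := hsurj ⟨x⁻¹ * α x, h⟩
  have h1 : (m : G)⁻¹ * α m = x⁻¹ * α x := congrArg Subtype.val hm
  have h2 : α (x * (m : G)⁻¹) = x * (m : G)⁻¹ := by
    rw [map_mul, map_inv]
    have : α x = x * ((m : G)⁻¹ * α m) := by rw [h1, mul_inv_cancel_left]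
    rw [this]
    group
  have h3 := hfix _ h2
  rw [mul_inv_eq_one] at h3
  rw [h3]
  exact m.2

theorem phiA_fpf [Finite G] (hfix : ∀ g, α g = g → g = 1) (n : ℕ) (a : A G n)
    (h : phiA α n a = a) : a = 0 := by
  obtain ⟨x, hx, rfl⟩ := cl_surj a
  rw [phiA_cl, cl_eq_iff] at h
  rw [cl_eq_zero_iff]
  apply quot_fpf α hfix (lc G (n + 1)) (fun y hy => lc_map α (n + 1) hy)
  have := inv_mem h
  rwa [mul_inv_rev, inv_inv] at this

theorem phiL_fpf [Finite G] (hfix : ∀ g, α g = g → g = 1) (z : LG G) (h : phiL α z = z) :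
    z = 0 := by
  apply DFinsupp.ext
  intro i
  have := congrArg (fun w : LG G => w i) h
  simp only [phiL, DirectSum.map_apply] at this
  exact phiA_fpf α hfix i.val (z i) this

theorem clL_pow {n : ℕ} {x : G} (hx : x ∈ lc G n) (m : ℕ) :
    clL n (x ^ m) (pow_mem hx m) = m • clL n x hx := by
  induction m with
  | zero => rw [zero_smul, clL_congr' (pow_zero x), clL_one]
  | succ m ih => rw [clL_congr' (pow_succ x m), clL_mul (pow_mem hx m) hx, ih, succ_nsmul]

theorem card_smul [Finite G] (z : LG G) : Nat.card G • z = 0 := by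
  refine LG_induction (P := fun z => Nat.card G • z = 0) (smul_zero _) ?_ ?_ z
  · intro n x hx
    rw [← clL_pow hx, clL_congr' (pow_card_eq_one' (G := G)), clL_one]
  · intro a b ha hb
    rw [smul_add, ha, hb, add_zero]

theorem coprime_card [Finite G] {p : ℕ} [Fact p.Prime] (hfix : ∀ g, α g = g → g = 1)
    (hp : (⇑α)^[p] = id) : Nat.Coprime p (Nat.card G) := by
  classical
  cases nonempty_fintype G
  let f : Function.End G := (⇑α : G → G)
  have hpow : ∀ k : ℕ, (f ^ k : Function.End G) = ((⇑α)^[k] : G → G) := by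
    intro k
    induction k with
    | zero => rw [pow_zero]; rfl
    | succ k ih => rw [pow_succ', ih, Function.iterate_succ']; rfl
  have h := Equiv.Perm.card_fixedPoints_modEq (f := f) (p := p) (n := 1)
    (by rw [pow_one, hpow, hp]; rfl)
  have hfp : Fintype.card (Function.fixedPoints f) = 1 := by
    rw [Fintype.card_eq_one_iff]
    refine ⟨⟨1, map_one α⟩, ?_⟩
    rintro ⟨y, hy⟩
    exact Subtype.ext (hfix y hy)
  rw [hfp, ← Nat.card_eq_fintype_card] at h
  have hp2 := (Fact.out : p.Prime).two_le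
  rw [Nat.Prime.coprime_iff_not_dvd Fact.out]
  intro hd
  have h0 : Nat.card G % p = 0 := Nat.mod_eq_zero_of_dvd hd
  have h1 : Nat.card G % p = 1 % p := h
  rw [h0, Nat.mod_eq_of_lt (by omega)] at h1
  exact absurd h1 (by norm_num)

/-- the induced `ℤ`-linear endomorphism -/
def phiLin : LG G →ₗ[ℤ] LG G := (phiL α).toIntLinearMap

theorem phiLin_apply (z : LG G) : phiLin α z = phiL α z := rfl

theorem phiLin_pow_apply (k : ℕ) (z : LG G) : (phiLin α ^ k) z = (⇑(phiL α))^[k] z := by
  rw [Module.End.pow_apply]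
  rfl

theorem phiLin_pow {p : ℕ} (hp : (⇑α)^[p] = id) : phiLin α ^ p = 1 := by
  apply LinearMap.ext
  intro z
  rw [phiLin_pow_apply, phiL_iter_eq α p hp]
  rfl

theorem phiLin_sum [Finite G] {p : ℕ} (hfix : ∀ g, α g = g → g = 1) (hp : (⇑α)^[p] = id) :
    ∑ k ∈ Finset.range p, phiLin α ^ k = 0 := by
  have h1 := Finset.sum_range_succ (fun k : ℕ => phiLin α ^ k) p
  have h2 := Finset.sum_range_succ' (fun k : ℕ => phiLin α ^ k) p
  rw [h1] at h2
  simp only [phiLin_pow α hp, pow_zero] at h2
  have h3 : phiLin α * ∑ k ∈ Finset.range p, phiLin α ^ k = ∑ k ∈ Finset.range p, phiLin α ^ k := by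
    rw [Finset.mul_sum]
    have : ∀ k ∈ Finset.range p, phiLin α * phiLin α ^ k = phiLin α ^ (k + 1) :=
      fun k _ => (pow_succ' _ _).symm
    rw [Finset.sum_congr rfl this]
    exact (add_right_cancel h2).symm
  apply LinearMap.ext
  intro z
  have h4 := congrArg (fun f : Module.End ℤ (LG G) => f z) h3
  simp only [Module.End.mul_apply] at h4
  exact phiL_fpf α hfix _ h4

/-- span of left-normed brackets of `k+1` classes of degree one -/
def S1 (G : Type*) [Group G] (k : ℕ) : AddSubgroup (LG G) :=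
  AddSubgroup.closure {z | ∃ (x : G) (l : List (LG G)),
    (∀ a ∈ l, ∃ g : G, a = clL 0 g (Subgroup.mem_top g)) ∧ l.length = k ∧
      lb (clL 0 x (Subgroup.mem_top x)) l = z}

theorem S1_lie {k : ℕ} {u : LG G} (hu : u ∈ S1 G k) (g : G) :
    ⁅u, clL 0 g (Subgroup.mem_top g)⁆ ∈ S1 G (k + 1) := by
  unfold S1 at hu
  induction hu using AddSubgroup.closure_induction with
  | mem z hz =>
    obtain ⟨x, l, hl, hlen, rfl⟩ := hz
    refine AddSubgroup.subset_closure ⟨x, l ++ [clL 0 g (Subgroup.mem_top g)], ?_,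
      by simp [hlen], lb_snoc _ _ _⟩
    intro a ha
    rcases List.mem_append.mp ha with h | h
    · exact hl a h
    · exact ⟨g, List.mem_singleton.mp h⟩
  | zero => rw [zero_lie]; exact zero_mem _
  | add x y _ _ hx hy => rw [add_lie]; exact add_mem hx hy
  | neg x _ hx => rw [neg_lie]; exact neg_mem hx

theorem clL_mem_S1 : ∀ (k : ℕ) (y : G) (hy : y ∈ lc G k), clL k y hy ∈ S1 G k := by
  intro k
  induction k with
  | zero =>
    intro y hy
    exact AddSubgroup.subset_closure ⟨y, [], by simp, rfl, rfl⟩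
  | succ k ih =>
    intro y hy
    have hy' := (Subgroup.mem_lowerCentralSeries_succ_iff ⊤ k y).mp hy
    have key : ∀ (h : y ∈ lc G (k + 1)), clL (k + 1) y h ∈ S1 G (k + 1) := by
      refine Subgroup.closure_induction
        (p := fun g _ => ∀ h : g ∈ lc G (k + 1), clL (k + 1) g h ∈ S1 G (k + 1)) ?_ ?_ ?_ ?_ hy'
      · rintro z ⟨u, hu, g, hg, rfl⟩ h
        have e : clL (k + 1) ⁅u, g⁆ h = ⁅clL k u hu, clL 0 g (Subgroup.mem_top g)⁆ :=
          (clL_lie (i := k) (j := 0) hu (Subgroup.mem_top g)).symm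
        rw [e]
        exact S1_lie (ih u hu) g
      · intro h
        rw [clL_one]
        exact zero_mem _
      · intro a b ha hb iha ihb h
        have ha' : a ∈ lc G (k + 1) := (Subgroup.mem_lowerCentralSeries_succ_iff ⊤ k a).mpr ha
        have hb' : b ∈ lc G (k + 1) := (Subgroup.mem_lowerCentralSeries_succ_iff ⊤ k b).mpr hb
        rw [clL_mul ha' hb']
        exact add_mem (iha ha') (ihb hb')
      · intro a ha iha h
        have ha' : a ∈ lc G (k + 1) := (Subgroup.mem_lowerCentralSeries_succ_iff ⊤ k a).mpr ha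
        rw [clL_inv ha']
        exact neg_mem (iha ha')
    exact key hy

/-- if all left-normed brackets of `c+1` elements of the associated Lie ring vanish and the
group is nilpotent, then its class is at most `c` -/
theorem lc_eq_bot_of_lb (hnil : Group.IsNilpotent G) (c : ℕ)
    (h : ∀ (v : LG G) (l : List (LG G)), l.length = c → lb v l = 0) : lc G c = ⊥ := by
  have hS : S1 G c = ⊥ := by
    rw [eq_bot_iff]
    unfold S1
    rw [AddSubgroup.closure_le]
    rintro z ⟨x, l, -, hlen, rfl⟩
    exact AddSubgroup.mem_bot.mpr (h _ l hlen)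
  have hle : lc G c ≤ lc G (c + 1) := by
    intro y hy
    have := clL_mem_S1 c y hy
    rw [hS] at this
    exact (clL_eq_zero_iff hy).mp (AddSubgroup.mem_bot.mp this)
  have hstep : ∀ m, c ≤ m → lc G c ≤ lc G m := by
    intro m hm
    induction m, hm using Nat.le_induction with
    | base => exact le_rfl
    | succ m hm ih => exact hle.trans (Subgroup.commutator_mono ih le_rfl)
  obtain ⟨n, hn⟩ := Subgroup.nilpotent_iff_lowerCentralSeries.mp hnil
  have := (hstep (max n c) (le_max_right _ _)).trans (lc_le (le_max_left n c))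
  have hn' : lc G n = ⊥ := hn
  rw [hn'] at this
  exact le_bot_iff.mp this

end Cfsg.Agent.Lib.Helper68.LieGr
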