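import Mathlib
import Cfsg.Agent.Lib.Helper81.SlSylB
import Cfsg.Agent.Lib.Helper68.OmegaArith

/-! VAL (job board piece for S2249, poster helper45): the `2`-adic valuation of `|GL_n(q)|`
according to `q mod 4`. -/

set_option maxHeartbeats 400000
set_option autoImplicit false

namespace Cfsg.Agent.Lib.Helper68.NRank

open Matrix

universe u

theorem val_two_factorial (n : ℕ) :
    padicValNat 2 n.factorial = n / 2 + padicValNat 2 (n / 2).factorial := by
  have h1 : n = 2 * (n / 2) + n % 2 := by omega
  have h2 : n % 2 < 2 := Nat.mod_lt _ (by norm_num)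
  have h3 : padicValNat 2 (2 * (n / 2) + n % 2).factorial
      = n / 2 + padicValNat 2 (n / 2).factorial := by
    rw [padicValNat_factorial_mul_add (n / 2) h2, padicValNat_factorial_mul]
    omega
  rw [← h1] at h3
  exact h3

theorem val_gl_one {F : Type u} [Field F] [Fintype F] (h4 : Fintype.card F % 4 = 1) (n : ℕ) :
    (Nat.card (GL (Fin n) F)).factorization 2 =
      n * padicValNat 2 (Fintype.card F - 1) + padicValNat 2 n.factorial := by
  have hodd : Odd (Fintype.card F) := Nat.odd_iff.mpr (by omega)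
  have hq1 : 1 < Fintype.card F := Fintype.one_lt_card
  rw [Cfsg.Agent.Lib.Helper81.SlSyl.val_card_gl_field hodd n,
    Cfsg.Agent.Lib.Helper81.ValTwo.val_sq_sub_one hq1 hodd,
    Cfsg.Agent.Lib.Helper68.OmegaArith.val_of_mod_four (x := Fintype.card F + 1) (by omega),
    val_two_factorial n]
  have h : n - n / 2 + n / 2 = n := by omega
  generalize padicValNat 2 (Fintype.card F - 1) = a
  generalize padicValNat 2 (n / 2).factorial = w
  have e : (n - n / 2) * a + n / 2 * (1 + a) = (n - n / 2 + n / 2) * a + n / 2 := by ring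
  rw [e, h]
  ring

theorem val_gl_three_even {F : Type u} [Field F] [Fintype F] (h4 : Fintype.card F % 4 = 3)
    (m : ℕ) :
    (Nat.card (GL (Fin (2 * m)) F)).factorization 2 =
      m * (padicValNat 2 (Fintype.card F - 1) + padicValNat 2 (Fintype.card F ^ 2 - 1)) +
        padicValNat 2 m.factorial := by
  have hodd : Odd (Fintype.card F) := Nat.odd_iff.mpr (by omega)
  rw [Cfsg.Agent.Lib.Helper81.SlSyl.val_card_gl_field hodd (2 * m)]
  have h1 : 2 * m / 2 = m := by omega
  have h2 : 2 * m - 2 * m / 2 = m := by omega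
  rw [h2, h1]
  ring

theorem val_gl_three_odd {F : Type u} [Field F] [Fintype F] (h4 : Fintype.card F % 4 = 3)
    (m : ℕ) :
    (Nat.card (GL (Fin (2 * m + 1)) F)).factorization 2 =
      m * (padicValNat 2 (Fintype.card F - 1) + padicValNat 2 (Fintype.card F ^ 2 - 1)) +
        padicValNat 2 m.factorial + 1 := by
  have hodd : Odd (Fintype.card F) := Nat.odd_iff.mpr (by omega)
  rw [Cfsg.Agent.Lib.Helper81.SlSyl.val_card_gl_field hodd (2 * m + 1)]
  have h1 : (2 * m + 1) / 2 = m := by omega
  have h2 : 2 * m + 1 - (2 * m + 1) / 2 = m + 1 := by omega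
  rw [h2, h1,
    Cfsg.Agent.Lib.Helper68.OmegaArith.val_of_mod_four (x := Fintype.card F - 1) (by omega)]
  ring

end Cfsg.Agent.Lib.Helper68.NRank
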