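import Mathlib
import Cfsg.Agent.Lib.Helper82.ResMult
import Cfsg.Agent.Lib.Helper22.WeakOrth
import Cfsg.Agent.Lib.Helper20.LinChar
import Cfsg.Agent.Lib.Helper83.Quot
import Cfsg.Agent.Lib.Helper79.Blk2

/-!
# Principal block characters restricting irreducibly to the Sylow normalizer (helper68)

Let `P` be a Sylow `p`-subgroup of `G` such that every member of the principal block of `G`
restricts irreducibly to `N_G(P)`, and `K` the normal closure of `P`.  Then every linear
character of `P` extends to a linear character of `K` (`exists_extension`).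
-/

set_option autoImplicit false

namespace Cfsg.Agent.Lib.Helper68

open Cfsg Cfsg.Agent.Lib
open scoped ComplexConjugate

universe u

section PLB

variable {G : Type u} [Group G] [Fintype G]

theorem sum_subgroupOf (H K : Subgroup G) (h : H ≤ K) [Fintype H] [Fintype (H.subgroupOf K)]
    (f : G → ℂ) : ∑ x : H.subgroupOf K, f ((x : K) : G) = ∑ x : H, f x :=
  Fintype.sum_equiv (Subgroup.subgroupOfEquivOfLe h).toEquiv _ _ (fun _ => rfl)

/-- The sum of an irreducible character against a linear character of a subgroup is `|H|` times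
a natural number. -/
theorem sum_res_lin (H : Subgroup G) [Fintype H] (θ : IrrCharacter G) (l : H →* ℂˣ) :
    ∃ n : ℕ, ∑ h : H, (θ : G → ℂ) h * conj ((l h : ℂˣ) : ℂ) = (Nat.card H : ℂ) * n := by
  obtain ⟨n, hn⟩ := Helper82.exists_resMult H θ
    ⟨fun h => ((l h : ℂˣ) : ℂ), Helper83.isIrr_of_hom l⟩
  refine ⟨n, ?_⟩
  unfold classInner at hn
  have hne : (Nat.card H : ℂ) ≠ 0 := by
    exact_mod_cast (Nat.card_pos (α := H)).ne'
  rw [← hn, mul_inv_cancel_left₀ hne]

variable {p : ℕ} [Fact p.Prime] {M : Ideal AlgInt}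

theorem eq_triv_of_sum_ne_zero (hM : IsPModular p M) (P : Sylow p G)
    (hres : ∀ χ ∈ principalBlock M G,
      IsIrrCharacter ↥(Subgroup.normalizer ((P : Subgroup G) : Set G))
        (fun n : ↥(Subgroup.normalizer ((P : Subgroup G) : Set G)) => (χ : G → ℂ) n))
    (K : Subgroup G) [K.Normal] (hPK : (P : Subgroup G) ≤ K)
    (hKmin : ∀ L : Subgroup G, L.Normal → (P : Subgroup G) ≤ L → K ≤ L) [Fintype K]
    [Fintype ((P : Subgroup G).subgroupOf K)]
    (θ : IrrCharacter K) (hθ : θ ∈ principalBlock M K)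
    (hsum : ∑ h : ((P : Subgroup G).subgroupOf K), (θ : K → ℂ) h ≠ 0) :
    (θ : K → ℂ) = fun _ => 1 := by
  classical
  haveI := Helper4.irr_finite (G := K)
  letI := Fintype.ofFinite (IrrCharacter K)
  letI : Fintype (P : Subgroup G) := Fintype.ofFinite _
  obtain ⟨χ, hχB, hχθ⟩ := Helper82.exists_over_principal K hM θ hθ
  have hexp := Helper4.classFunction_expansion (fun k : K => (χ : G → ℂ) k)
    (Helper22.isClassFunction_res K _ (Helper4.isClassFunction_irr χ))
  have hval : ∀ x : K, (χ : G → ℂ) x =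
      ∑ θ' : IrrCharacter K, (Helper82.resMult K χ θ' : ℂ) * (θ' : K → ℂ) x := by
    intro x
    have h := congrFun hexp x
    simp only [Finset.sum_apply, Pi.smul_apply, smul_eq_mul] at h
    rw [h]
    refine Finset.sum_congr rfl fun θ' _ => ?_
    rw [Helper82.resMult_spec]
  have hS : ∀ θ' : IrrCharacter K, ∃ n : ℕ,
      ∑ h : ((P : Subgroup G).subgroupOf K), (θ' : K → ℂ) h = (Nat.card ((P : Subgroup G).subgroupOf K) : ℂ) * n := by
    intro θ'
    obtain ⟨n, hn⟩ := sum_res_lin ((P : Subgroup G).subgroupOf K) θ' 1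
    exact ⟨n, by simpa using hn⟩
  choose nn hnn using hS
  have hcardne : (Nat.card ((P : Subgroup G).subgroupOf K) : ℂ) ≠ 0 := by
    exact_mod_cast (Nat.card_pos (α := ((P : Subgroup G).subgroupOf K))).ne'
  have hsumχ : ∑ h : ((P : Subgroup G).subgroupOf K), (χ : G → ℂ) ((h : K) : G) = (Nat.card ((P : Subgroup G).subgroupOf K) : ℂ) *
      ((∑ θ' : IrrCharacter K, Helper82.resMult K χ θ' * nn θ' : ℕ) : ℂ) := by
    have hv : ∀ h : ((P : Subgroup G).subgroupOf K), (χ : G → ℂ) ((h : K) : G) =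
        ∑ θ' : IrrCharacter K, (Helper82.resMult K χ θ' : ℂ) * (θ' : K → ℂ) h := fun h => hval h
    rw [Finset.sum_congr rfl (fun h _ => hv h), Finset.sum_comm]
    push_cast
    rw [Finset.mul_sum]
    refine Finset.sum_congr rfl fun θ' _ => ?_
    rw [← Finset.mul_sum, hnn θ']
    ring
  have hpos : (∑ θ' : IrrCharacter K, Helper82.resMult K χ θ' * nn θ') ≠ 0 := by
    intro h0
    have h := (Finset.sum_eq_zero_iff.mp h0) θ (Finset.mem_univ _)
    rcases Nat.mul_eq_zero.mp h with h | h
    · exact hχθ h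
    · apply hsum
      rw [hnn θ, h]
      simp
  have hsumχ_ne : ∑ h : ((P : Subgroup G).subgroupOf K), (χ : G → ℂ) ((h : K) : G) ≠ 0 := by
    rw [hsumχ]
    exact mul_ne_zero hcardne (Nat.cast_ne_zero.mpr hpos)
  set N := Subgroup.normalizer ((P : Subgroup G) : Set G) with hN
  set PN := (P : Subgroup G).subgroupOf N with hPNdef
  haveI : PN.Normal := Subgroup.normal_in_normalizer
  letI : Fintype PN := Fintype.ofFinite _
  have hξ := hres χ hχB
  have hreindex : ∑ n : PN, (χ : G → ℂ) ((n : N) : G) = ∑ h : ((P : Subgroup G).subgroupOf K), (χ : G → ℂ) ((h : K) : G) := by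
    rw [sum_subgroupOf (P : Subgroup G) N Subgroup.le_normalizer (χ : G → ℂ),
      sum_subgroupOf (P : Subgroup G) K hPK (χ : G → ℂ)]
  have hker : ∀ x ∈ (P : Subgroup G), (χ : G → ℂ) x = (χ : G → ℂ) 1 := by
    intro x hx
    by_contra hne
    have hxN : x ∈ N := Subgroup.le_normalizer hx
    have h := Helper83.irr_sum_normal_eq_zero PN hξ ⟨x, hxN⟩ hx hne 1
    apply hsumχ_ne
    rw [← hreindex]
    simpa using h
  have hKker : K ≤ Helper83.irrKer χ :=
    hKmin _ inferInstance (fun x hx => (Helper83.mem_irrKer χ x).mpr (hker x hx))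
  have hKval : ∀ k : K, (χ : G → ℂ) k = (χ : G → ℂ) 1 :=
    fun k => (Helper83.mem_irrKer χ k).mp (hKker k.2)
  by_contra hne
  apply hχθ
  have h1 := Helper82.resMult_spec K χ θ
  have h2 : classInner (fun k : K => (χ : G → ℂ) k) (θ : K → ℂ) =
      (χ : G → ℂ) 1 * conj (classInner (θ : K → ℂ) (fun _ => (1 : ℂ))) := by
    have e : (fun k : K => (χ : G → ℂ) k) = fun _ => (χ : G → ℂ) 1 := funext hKval
    rw [e]
    unfold classInner
    simp only [map_mul, map_inv₀, map_natCast, map_sum, map_one, mul_one]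
    rw [← Finset.mul_sum]
    ring
  have h3 : classInner (θ : K → ℂ) (fun _ => (1 : ℂ)) = 0 := by
    have h := Helper35.classInner_irr' θ.2 (Helper83.isIrr_one (G := K))
    rw [h, if_neg hne]
  rw [h2, h3, map_zero, mul_zero] at h1
  exact_mod_cast h1.symm

end PLB

end Cfsg.Agent.Lib.Helper68
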