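import Mathlib
import Cfsg.Agent.Lib.Helper68.PLenBlockA

/-!
# Extension of linear characters of a Sylow subgroup to its normal closure (helper68)
-/

set_option autoImplicit false

namespace Cfsg.Agent.Lib.Helper68

open Cfsg Cfsg.Agent.Lib
open scoped ComplexConjugate

universe u

section PLB2

variable {G : Type u} [Group G] [Fintype G] {p : ℕ} [Fact p.Prime] {M : Ideal AlgInt}

theorem exists_extension (hM : IsPModular p M) (P : Sylow p G)
    (hres : ∀ χ ∈ principalBlock M G,
      IsIrrCharacter ↥(Subgroup.normalizer ((P : Subgroup G) : Set G))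
        (fun n : ↥(Subgroup.normalizer ((P : Subgroup G) : Set G)) => (χ : G → ℂ) n))
    (K : Subgroup G) [K.Normal] (hPK : (P : Subgroup G) ≤ K)
    (hKmin : ∀ L : Subgroup G, L.Normal → (P : Subgroup G) ≤ L → K ≤ L) [Fintype K]
    [Fintype ((P : Subgroup G).subgroupOf K)]
    (l : ((P : Subgroup G).subgroupOf K) →* ℂˣ) :
    ∃ f : K →* ℂˣ, ∀ x : ((P : Subgroup G).subgroupOf K), f (x : K) = l x := by
  classical
  haveI := Helper4.irr_finite (G := K)
  letI := Fintype.ofFinite (IrrCharacter K)
  have hp : p.Prime := Fact.out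
  have hB : IsPBlock M (principalBlock M K) := Helper79.isPBlock_principalBlock
  have hd : ∀ θ : IrrCharacter K, ((charDegree (θ : K → ℂ) : ℕ) : ℂ) = (θ : K → ℂ) 1 :=
    fun θ => (Helper82.irr_charDegree θ).1
  have hcardne : (Nat.card ((P : Subgroup G).subgroupOf K) : ℂ) ≠ 0 := by
    exact_mod_cast (Nat.card_pos (α := ((P : Subgroup G).subgroupOf K))).ne'
  -- vanishing of the block sum on p-singular elements
  have hvan : ∀ y : K, p ∣ orderOf y → ∑ θ : IrrCharacter K,
      (if θ ∈ principalBlock M K then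
        ((charDegree (θ : K → ℂ) : ℕ) : ℂ) * conj ((θ : K → ℂ) y) else 0) = 0 := by
    intro y hy
    have h := Helper22.weak_block_orth hM (principalBlock M K) hB 1 y
      (by rw [orderOf_one]; exact hp.not_dvd_one) hy
    rw [Helper79.finsum_mem_eq_sum_filter_univ, Finset.sum_filter] at h
    refine Eq.trans ?_ h
    refine Finset.sum_congr rfl fun θ _ => ?_
    by_cases hθ : θ ∈ principalBlock M K
    · rw [if_pos hθ, if_pos hθ, hd]
    · rw [if_neg hθ, if_neg hθ]
  -- elements of P are p-singular
  have hsing : ∀ h : ((P : Subgroup G).subgroupOf K), h ≠ 1 → p ∣ orderOf (h : K) := by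
    intro h hne
    have hPg : IsPGroup p ((P : Subgroup G).subgroupOf K) := (P.subtype hPK).isPGroup'
    obtain ⟨k, hk⟩ := hPg h
    rw [Subgroup.orderOf_coe]
    obtain ⟨j, -, hj⟩ := (Nat.dvd_prime_pow hp).mp (orderOf_dvd_of_pow_eq_one hk)
    rw [hj]
    rcases Nat.eq_zero_or_pos j with h0 | h0
    · exfalso
      apply hne
      rw [h0, pow_zero] at hj
      exact orderOf_eq_one_iff.mp hj
    · exact dvd_pow_self p h0.ne'
  -- the key identity
  have key : ∀ (l : ((P : Subgroup G).subgroupOf K) →* ℂˣ) (n : IrrCharacter K → ℕ),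
      (∀ θ : IrrCharacter K, ∑ h : ((P : Subgroup G).subgroupOf K),
        (θ : K → ℂ) h * conj ((l h : ℂˣ) : ℂ) =
          (Nat.card ((P : Subgroup G).subgroupOf K) : ℂ) * n θ) →
      (∑ θ : IrrCharacter K, if θ ∈ principalBlock M K then
        ((charDegree (θ : K → ℂ) : ℕ) : ℂ) * ((charDegree (θ : K → ℂ) : ℕ) : ℂ) else 0) =
      (Nat.card ((P : Subgroup G).subgroupOf K) : ℂ) *
        ((∑ θ : IrrCharacter K, if θ ∈ principalBlock M K then
          charDegree (θ : K → ℂ) * n θ else 0 : ℕ) : ℂ) := by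
    intro l n hn
    have hT1 : ∑ h : ((P : Subgroup G).subgroupOf K), (∑ θ : IrrCharacter K,
        (if θ ∈ principalBlock M K then
          ((charDegree (θ : K → ℂ) : ℕ) : ℂ) * conj ((θ : K → ℂ) h) else 0)) *
          ((l h : ℂˣ) : ℂ) =
        ∑ θ : IrrCharacter K, if θ ∈ principalBlock M K then
          ((charDegree (θ : K → ℂ) : ℕ) : ℂ) * ((charDegree (θ : K → ℂ) : ℕ) : ℂ) else 0 := by
      rw [Finset.sum_eq_single (1 : ((P : Subgroup G).subgroupOf K))]
      · rw [map_one, Units.val_one, mul_one]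
        refine Finset.sum_congr rfl fun θ _ => ?_
        by_cases hθ : θ ∈ principalBlock M K
        · rw [if_pos hθ, if_pos hθ]
          have : (θ : K → ℂ) ((1 : ((P : Subgroup G).subgroupOf K)) : K) = (θ : K → ℂ) 1 := rfl
          rw [this, ← hd, Complex.conj_natCast]
        · rw [if_neg hθ, if_neg hθ]
      · intro h _ hne
        rw [hvan (h : K) (hsing h hne), zero_mul]
      · intro h
        exact absurd (Finset.mem_univ _) h
    have hT2 : ∑ h : ((P : Subgroup G).subgroupOf K), (∑ θ : IrrCharacter K,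
        (if θ ∈ principalBlock M K then
          ((charDegree (θ : K → ℂ) : ℕ) : ℂ) * conj ((θ : K → ℂ) h) else 0)) *
          ((l h : ℂˣ) : ℂ) =
        (Nat.card ((P : Subgroup G).subgroupOf K) : ℂ) *
          ((∑ θ : IrrCharacter K, if θ ∈ principalBlock M K then
            charDegree (θ : K → ℂ) * n θ else 0 : ℕ) : ℂ) := by
      simp_rw [Finset.sum_mul]
      rw [Finset.sum_comm]
      push_cast
      rw [Finset.mul_sum]
      refine Finset.sum_congr rfl fun θ _ => ?_
      by_cases hθ : θ ∈ principalBlock M K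
      · simp only [if_pos hθ]
        have e : ∀ h : ((P : Subgroup G).subgroupOf K),
            ((charDegree (θ : K → ℂ) : ℕ) : ℂ) * conj ((θ : K → ℂ) h) * ((l h : ℂˣ) : ℂ) =
            ((charDegree (θ : K → ℂ) : ℕ) : ℂ) *
              conj ((θ : K → ℂ) h * conj ((l h : ℂˣ) : ℂ)) := by
          intro h
          rw [map_mul, Complex.conj_conj, mul_assoc]
        rw [Finset.sum_congr rfl (fun h _ => e h), ← Finset.mul_sum, ← map_sum, hn θ, map_mul,
          Complex.conj_natCast, Complex.conj_natCast]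
        ring
      · simp only [if_neg hθ, zero_mul, Finset.sum_const_zero, Nat.cast_zero, mul_zero]
    rw [← hT1, hT2]
  have hS : ∀ (l : ((P : Subgroup G).subgroupOf K) →* ℂˣ) (θ : IrrCharacter K), ∃ n : ℕ,
      ∑ h : ((P : Subgroup G).subgroupOf K), (θ : K → ℂ) h * conj ((l h : ℂˣ) : ℂ) =
        (Nat.card ((P : Subgroup G).subgroupOf K) : ℂ) * n :=
    fun l θ => sum_res_lin ((P : Subgroup G).subgroupOf K) θ l
  choose nn hnn using hS
  have h1 := key 1 (nn 1) (hnn 1)
  have htrivB : Helper83.trivIrr K ∈ principalBlock M K := Helper79.trivIrr_mem_principalBlock hM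
  have hone : (∑ θ : IrrCharacter K, if θ ∈ principalBlock M K then
      charDegree (θ : K → ℂ) * nn 1 θ else 0) = 1 := by
    rw [Finset.sum_eq_single (Helper83.trivIrr K)]
    · rw [if_pos htrivB]
      have hdeg : charDegree (Helper83.trivIrr K : K → ℂ) = 1 := by
        apply Nat.cast_injective (R := ℂ)
        rw [hd]
        simp [Helper83.trivIrr_apply]
      have hn1 : nn 1 (Helper83.trivIrr K) = 1 := by
        have h := hnn 1 (Helper83.trivIrr K)
        simp only [Helper83.trivIrr_apply, MonoidHom.one_apply, Units.val_one, map_one, mul_one,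
          Finset.sum_const, Finset.card_univ, nsmul_eq_mul] at h
        rw [← Nat.card_eq_fintype_card] at h
        have h' : (Nat.card ((P : Subgroup G).subgroupOf K) : ℂ) * 1 =
            (Nat.card ((P : Subgroup G).subgroupOf K) : ℂ) * (nn 1 (Helper83.trivIrr K) : ℂ) := by
          rw [mul_one]; exact h
        have := mul_left_cancel₀ hcardne h'
        exact_mod_cast this.symm
      rw [hdeg, hn1]
    · intro θ _ hne
      by_cases hθ : θ ∈ principalBlock M K
      · rw [if_pos hθ]
        by_contra h0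
        apply hne
        have hsum : ∑ h : ((P : Subgroup G).subgroupOf K), (θ : K → ℂ) h ≠ 0 := by
          have h := hnn 1 θ
          simp only [MonoidHom.one_apply, Units.val_one, map_one, mul_one] at h
          rw [h]
          exact mul_ne_zero hcardne
            (Nat.cast_ne_zero.mpr (fun h' => h0 (by rw [h', mul_zero])))
        exact Subtype.ext (eq_triv_of_sum_ne_zero hM P hres K hPK hKmin θ hθ hsum)
      · rw [if_neg hθ]
    · intro h
      exact absurd (Finset.mem_univ _) h
  have h2 := key l (nn l) (hnn l)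
  rw [h1, hone, Nat.cast_one] at h2
  have hsum1 : (∑ θ : IrrCharacter K, if θ ∈ principalBlock M K then
      charDegree (θ : K → ℂ) * nn l θ else 0) = 1 := by
    have := mul_left_cancel₀ hcardne h2
    exact_mod_cast this.symm
  obtain ⟨θ, -, hθne⟩ := Finset.exists_ne_zero_of_sum_ne_zero
    (by rw [hsum1]; exact one_ne_zero :
      (∑ θ : IrrCharacter K, if θ ∈ principalBlock M K then
        charDegree (θ : K → ℂ) * nn l θ else 0) ≠ 0)
  have hθB : θ ∈ principalBlock M K := by
    by_contra h
    exact hθne (if_neg h)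
  rw [if_pos hθB] at hθne
  have hle : charDegree (θ : K → ℂ) * nn l θ ≤ 1 := by
    rw [← hsum1]
    have := Finset.single_le_sum (f := fun θ : IrrCharacter K =>
      if θ ∈ principalBlock M K then charDegree (θ : K → ℂ) * nn l θ else 0)
      (fun _ _ => Nat.zero_le _) (Finset.mem_univ θ)
    simpa only [if_pos hθB] using this
  have hprod : charDegree (θ : K → ℂ) * nn l θ = 1 := by omega
  have hd1 : charDegree (θ : K → ℂ) = 1 := Nat.eq_one_of_mul_eq_one_right hprod
  have hn1 : nn l θ = 1 := Nat.eq_one_of_mul_eq_one_left hprod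
  have hθ1 : (θ : K → ℂ) 1 = 1 := by
    rw [← hd θ, hd1, Nat.cast_one]
  obtain ⟨f, hf⟩ := Helper20.exists_hom_of_linear (θ : K → ℂ) (Helper4.isCharacter_of_irr θ) hθ1
  refine ⟨f, fun x => ?_⟩
  have hirr1 : IsIrrCharacter ((P : Subgroup G).subgroupOf K)
      (fun h : ((P : Subgroup G).subgroupOf K) => ((f (h : K) : ℂˣ) : ℂ)) :=
    Helper83.isIrr_of_hom (f.comp ((P : Subgroup G).subgroupOf K).subtype)
  have hirr2 : IsIrrCharacter ((P : Subgroup G).subgroupOf K)
      (fun h : ((P : Subgroup G).subgroupOf K) => ((l h : ℂˣ) : ℂ)) := Helper83.isIrr_of_hom l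
  have hinner : classInner (fun h : ((P : Subgroup G).subgroupOf K) => ((f (h : K) : ℂˣ) : ℂ))
      (fun h : ((P : Subgroup G).subgroupOf K) => ((l h : ℂˣ) : ℂ)) ≠ 0 := by
    have e : classInner (fun h : ((P : Subgroup G).subgroupOf K) => ((f (h : K) : ℂˣ) : ℂ))
        (fun h : ((P : Subgroup G).subgroupOf K) => ((l h : ℂˣ) : ℂ)) =
        (Nat.card ((P : Subgroup G).subgroupOf K) : ℂ)⁻¹ *
          ∑ h : ((P : Subgroup G).subgroupOf K), (θ : K → ℂ) h * conj ((l h : ℂˣ) : ℂ) := by
      unfold classInner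
      congr 1
      refine Finset.sum_congr rfl fun h _ => ?_
      show ((f (h : K) : ℂˣ) : ℂ) * _ = _
      rw [hf (h : K)]
    rw [e, hnn l θ, hn1, Nat.cast_one, mul_one, inv_mul_cancel₀ hcardne]
    exact one_ne_zero
  have heq := Helper35.classInner_irr' hirr1 hirr2
  have hfun : (fun h : ((P : Subgroup G).subgroupOf K) => ((f (h : K) : ℂˣ) : ℂ)) =
      (fun h : ((P : Subgroup G).subgroupOf K) => ((l h : ℂˣ) : ℂ)) := by
    by_contra hne
    rw [if_neg hne] at heq
    exact hinner heq
  exact Units.ext (congrFun hfun x)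

end PLB2

end Cfsg.Agent.Lib.Helper68
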