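import Cfsg.Agent.Lib.Helper96.PmGlue
import Cfsg.Agent.Lib.Helper91.PiGLUET

/-!
Project PM (S5991, helper96): PIECE MGLUET, delivered by helper68: the whole space of
`quadFormMinus` has type `-1` (hyperbolic part, orthogonal to an anisotropic plane).
-/

set_option autoImplicit false
set_option linter.unusedSectionVars false
set_option linter.unusedVariables false

namespace Cfsg.Agent.Lib.Helper68.Pm

open Module Cfsg.Agent.Lib.Helper96.Sp Cfsg.Agent.Lib.Helper96.BG Cfsg.Agent.Lib.Helper96.Hy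
  Cfsg.Agent.Lib.Helper96.Pi Cfsg.Agent.Lib.Helper47

universe u

section Concrete

open Matrix
open scoped MatrixGroups

variable {F : Type u} [Field F] [Fintype F]

-- PIECE MGLUET
theorem typ_top_minus (p : ℕ) [Fact p.Prime] [CharP F p] (h2 : (2 : F) ≠ 0) (e : ℕ) (a b : F)
    (hab : ∀ z₁ z₂ : F, z₁ ^ 2 + a * z₁ * z₂ + b * z₂ ^ 2 = 0 → z₁ = 0 ∧ z₂ = 0) :
    Typ (QuadraticMap.polarBilin (Cfsg.Agent.Lib.Helper51.QMinus e F a b)) ⊤ (-1) := by
  classical
  have hS : LinearMap.BilinForm.IsSymm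
      (QuadraticMap.polarBilin (Cfsg.Agent.Lib.Helper51.QMinus e F a b)) := by
    refine ⟨fun x y => ?_⟩
    show QuadraticMap.polarBilin (Cfsg.Agent.Lib.Helper51.QMinus e F a b) x y
      = QuadraticMap.polarBilin (Cfsg.Agent.Lib.Helper51.QMinus e F a b) y x
    rw [QuadraticMap.polarBilin_apply_apply, QuadraticMap.polarBilin_apply_apply,
      QuadraticMap.polar_comm]
  have hN := Cfsg.Agent.Lib.Helper96.Pm.glue_nd_top_minus (F := F) h2 e a b hab
  have hF := Cfsg.Agent.Lib.Helper96.Hy.facts p hS h2 hN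
  have hfin : finrank F ((Fin e ⊕ Fin e) ⊕ Fin 2 → F) = 2 * e + 2 := by
    rw [Module.finrank_fintype_fun_eq_card]
    simp [two_mul]
  have hBQ : ∀ u : (Fin e ⊕ Fin e) ⊕ Fin 2 → F,
      QuadraticMap.polarBilin (Cfsg.Agent.Lib.Helper51.QMinus e F a b) u u = 0 →
      Cfsg.Agent.Lib.Helper51.QMinus e F a b u = 0 := by
    intro u h
    rw [QuadraticMap.polarBilin_apply_apply, QuadraticMap.polar_self] at h
    simp only [nsmul_eq_mul, Nat.cast_ofNat] at h
    exact (mul_eq_zero.1 h).resolve_left h2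
  -- the anisotropic plane
  obtain ⟨L₁, hL₁⟩ : ∃ L₁ : ((Fin e ⊕ Fin e) ⊕ Fin 2 → F) →ₗ[F] (Fin e ⊕ Fin e → F),
      L₁ = LinearMap.funLeft F F Sum.inl := ⟨_, rfl⟩
  have hL₁surj : Function.Surjective L₁ := by
    rw [hL₁]
    exact LinearMap.funLeft_surjective_of_injective F F Sum.inl Sum.inl_injective
  have hAfin : finrank F (LinearMap.ker L₁) = 2 * 0 + 2 := by
    have h1 := LinearMap.finrank_range_add_finrank_ker L₁
    rw [LinearMap.range_eq_top.2 hL₁surj, finrank_top, Module.finrank_fintype_fun_eq_card,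
      Fintype.card_sum, Fintype.card_fin, hfin] at h1
    omega
  have hAmem : ∀ u ∈ LinearMap.ker L₁, ∀ k, u (Sum.inl k) = 0 := by
    intro u hu k
    have h3 : L₁ u k = 0 := by rw [LinearMap.mem_ker.1 hu]; rfl
    rw [hL₁] at h3
    exact h3
  have hAan : ∀ u ∈ LinearMap.ker L₁, Cfsg.Agent.Lib.Helper51.QMinus e F a b u = 0 → u = 0 := by
    intro u hu h
    rw [Cfsg.Agent.Lib.Helper51.QMinus_apply] at h
    have h0 : (∑ i : Fin e, u (Sum.inl (Sum.inl i)) * u (Sum.inl (Sum.inr i))) = 0 :=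
      Finset.sum_eq_zero fun i _ => by rw [hAmem u hu, zero_mul]
    rw [h0, zero_add] at h
    obtain ⟨hz1, hz2⟩ := hab _ _ h
    funext k
    rcases k with k | j
    · exact hAmem u hu k
    · fin_cases j
      · exact hz1
      · exact hz2
  have hA : ND (QuadraticMap.polarBilin (Cfsg.Agent.Lib.Helper51.QMinus e F a b))
      (LinearMap.ker L₁) := by
    intro u hu h
    exact hAan u hu (hBQ u (h u hu))
  have hTA : Typ (QuadraticMap.polarBilin (Cfsg.Agent.Lib.Helper51.QMinus e F a b))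
      (LinearMap.ker L₁) (-1) := by
    rcases hF.typ_ex _ hA 0 hAfin with h1 | h1
    · exfalso
      obtain ⟨-, U, hUA, hUU, hUf⟩ := hF.hyp_of_typ _ hA h1
      have hU1 : finrank F U = 1 := by omega
      have hUne : U ≠ ⊥ := by
        intro h0
        rw [h0, finrank_bot] at hU1
        omega
      obtain ⟨u, hu, hu0⟩ := Submodule.exists_mem_ne_zero_of_ne_bot hUne
      exact hu0 (hAan u (hUA hu) (hBQ u (hUU u hu u hu)))
    · exact h1
  rcases Nat.eq_zero_or_pos e with rfl | he
  · have htop : LinearMap.ker L₁ = ⊤ := by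
      rw [eq_top_iff]
      intro v _
      rw [LinearMap.mem_ker]
      funext k
      rcases k with k | k <;> exact k.elim0
    rw [htop] at hTA
    exact hTA
  · -- the hyperbolic part
    have hrel := Cfsg.Agent.Lib.Helper98.O72.nd_rel hS h2 hA hN le_top
    rw [top_inf_eq] at hrel
    obtain ⟨hH, hsup, hHfin⟩ := hrel
    rw [finrank_top, hfin] at hHfin
    obtain ⟨L₃, hL₃⟩ : ∃ L₃ : ((Fin e ⊕ Fin e) ⊕ Fin 2 → F) →ₗ[F] (Fin e ⊕ Fin 2 → F),
        L₃ = LinearMap.funLeft F F
          (Sum.elim (fun i : Fin e => (Sum.inl (Sum.inr i) : (Fin e ⊕ Fin e) ⊕ Fin 2))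
            (fun j : Fin 2 => (Sum.inr j : (Fin e ⊕ Fin e) ⊕ Fin 2))) := ⟨_, rfl⟩
    have hg : Function.Injective
        (Sum.elim (fun i : Fin e => (Sum.inl (Sum.inr i) : (Fin e ⊕ Fin e) ⊕ Fin 2))
          (fun j : Fin 2 => (Sum.inr j : (Fin e ⊕ Fin e) ⊕ Fin 2))) := by
      rintro (i | j) (i' | j') h
      · simp only [Sum.elim_inl, Sum.inl.injEq, Sum.inr.injEq] at h
        rw [h]
      · simp at h
      · simp at h
      · simp only [Sum.elim_inr, Sum.inr.injEq] at h
        rw [h]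
    have hL₃surj : Function.Surjective L₃ := by
      rw [hL₃]
      exact LinearMap.funLeft_surjective_of_injective F F _ hg
    have hUfin : finrank F (LinearMap.ker L₃) = e := by
      have h1 := LinearMap.finrank_range_add_finrank_ker L₃
      rw [LinearMap.range_eq_top.2 hL₃surj, finrank_top, Module.finrank_fintype_fun_eq_card,
        Fintype.card_sum, Fintype.card_fin, Fintype.card_fin, hfin] at h1
      omega
    have hUmem : ∀ u ∈ LinearMap.ker L₃,
        (∀ i, u (Sum.inl (Sum.inr i)) = 0) ∧ ∀ j, u (Sum.inr j) = 0 := by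
      intro u hu
      constructor
      · intro i
        have h3 : L₃ u (Sum.inl i) = 0 := by rw [LinearMap.mem_ker.1 hu]; rfl
        rw [hL₃] at h3
        exact h3
      · intro j
        have h3 : L₃ u (Sum.inr j) = 0 := by rw [LinearMap.mem_ker.1 hu]; rfl
        rw [hL₃] at h3
        exact h3
    have hHyp : Hyp (QuadraticMap.polarBilin (Cfsg.Agent.Lib.Helper51.QMinus e F a b))
        (LinearMap.BilinForm.orthogonal
          (QuadraticMap.polarBilin (Cfsg.Agent.Lib.Helper51.QMinus e F a b)) (LinearMap.ker L₁)) := by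
      refine ⟨hH, LinearMap.ker L₃, ?_, ?_, ?_⟩
      · intro u hu
        rw [Cfsg.Agent.Lib.Helper98.O72.mem_perp_iff' hS h2]
        intro w hw
        rw [QuadraticMap.polarBilin_apply_apply, Cfsg.Agent.Lib.Helper51.polar_QMinus]
        simp [(hUmem u hu).1, (hUmem u hu).2, hAmem w hw]
      · intro u hu v hv
        rw [QuadraticMap.polarBilin_apply_apply, Cfsg.Agent.Lib.Helper51.polar_QMinus]
        simp [(hUmem u hu).1, (hUmem u hu).2, (hUmem v hv).1, (hUmem v hv).2]
      · rw [hUfin]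
        omega
    have hTH := hF.typ_of_hyp _ hHyp (by omega)
    have hOrth : Orth (QuadraticMap.polarBilin (Cfsg.Agent.Lib.Helper51.QMinus e F a b))
        (LinearMap.BilinForm.orthogonal
          (QuadraticMap.polarBilin (Cfsg.Agent.Lib.Helper51.QMinus e F a b)) (LinearMap.ker L₁)) (LinearMap.ker L₁) := by
      intro u hu v hv
      exact (Cfsg.Agent.Lib.Helper98.O72.mem_perp_iff' hS h2).1 hu v hv
    have hT := hF.typ_sup _ _ 1 (-1) hH hA hOrth hTH hTA
    rw [sup_comm, hsup, one_mul] at hT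
    exact hT

end Concrete

end Cfsg.Agent.Lib.Helper68.Pm
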