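import Mathlib

/-!
# S6002 round 2, piece SM-QD (helper68, for helper98): a word computation
-/

set_option autoImplicit false
set_option linter.unusedSimpArgs false

namespace Cfsg.Agent.Lib.Helper98.SM

theorem gens_of_QD {G : Type*} [Monoid G] [HasDistribNeg G] (q₁ q₂ d₁ d₂ : G)
    (hq11 : q₁ * q₁ = -1) (hq22 : q₂ * q₂ = -1) (hq12 : q₁ * q₂ = -(q₂ * q₁))
    (hd11 : d₁ * d₁ = 1) (hd22 : d₂ * d₂ = 1) (hd12 : d₁ * d₂ = -(d₂ * d₁))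
    (h11 : d₁ * q₁ = q₁ * d₁) (h12 : d₁ * q₂ = q₂ * d₁) (h21 : d₂ * q₁ = q₁ * d₂)
    (h22 : d₂ * q₂ = q₂ * d₂) :
    (q₁ * (d₁ * d₂)) * (q₁ * (d₁ * d₂)) = 1 ∧ (q₂ * (d₁ * d₂)) * (q₂ * (d₁ * d₂)) = 1 ∧
    d₁ * (q₁ * (d₁ * d₂)) = -((q₁ * (d₁ * d₂)) * d₁) ∧
    d₁ * (q₂ * (d₁ * d₂)) = -((q₂ * (d₁ * d₂)) * d₁) ∧
    d₂ * (q₁ * (d₁ * d₂)) = -((q₁ * (d₁ * d₂)) * d₂) ∧
    d₂ * (q₂ * (d₁ * d₂)) = -((q₂ * (d₁ * d₂)) * d₂) ∧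
    (q₁ * (d₁ * d₂)) * (q₂ * (d₁ * d₂)) = -((q₂ * (d₁ * d₂)) * (q₁ * (d₁ * d₂))) := by
  have hq21 : q₂ * q₁ = -(q₁ * q₂) := by rw [hq12, neg_neg]
  have hd21 : d₂ * d₁ = -(d₁ * d₂) := by rw [hd12, neg_neg]
  have aq11 : ∀ x, q₁ * (q₁ * x) = -x := fun x => by rw [← mul_assoc, hq11, neg_mul, one_mul]
  have aq22 : ∀ x, q₂ * (q₂ * x) = -x := fun x => by rw [← mul_assoc, hq22, neg_mul, one_mul]
  have ad11 : ∀ x, d₁ * (d₁ * x) = x := fun x => by rw [← mul_assoc, hd11, one_mul]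
  have ad22 : ∀ x, d₂ * (d₂ * x) = x := fun x => by rw [← mul_assoc, hd22, one_mul]
  have aq21 : ∀ x, q₂ * (q₁ * x) = -(q₁ * (q₂ * x)) := fun x => by
    rw [← mul_assoc, hq21, neg_mul, mul_assoc]
  have ad21 : ∀ x, d₂ * (d₁ * x) = -(d₁ * (d₂ * x)) := fun x => by
    rw [← mul_assoc, hd21, neg_mul, mul_assoc]
  have a11 : ∀ x, d₁ * (q₁ * x) = q₁ * (d₁ * x) := fun x => by rw [← mul_assoc, h11, mul_assoc]
  have a12 : ∀ x, d₁ * (q₂ * x) = q₂ * (d₁ * x) := fun x => by rw [← mul_assoc, h12, mul_assoc]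
  have a21 : ∀ x, d₂ * (q₁ * x) = q₁ * (d₂ * x) := fun x => by rw [← mul_assoc, h21, mul_assoc]
  have a22 : ∀ x, d₂ * (q₂ * x) = q₂ * (d₂ * x) := fun x => by rw [← mul_assoc, h22, mul_assoc]
  refine ⟨?_, ?_, ?_, ?_, ?_, ?_, ?_⟩ <;>
    simp only [mul_assoc, hq11, hq22, hd11, hd22, hq21, hd21, h11, h12, h21, h22, aq11, aq22,
      ad11, ad22, aq21, ad21, a11, a12, a21, a22, neg_mul, mul_neg, neg_neg, mul_one, one_mul]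

end Cfsg.Agent.Lib.Helper98.SM
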