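import Mathlib
import Cfsg.Prelude.Def_GeometricClasses
import Cfsg.Prelude.Def_LieClassical
import Cfsg.Agent.Lib.Helper71.Asch0
import Cfsg.Agent.Lib.Helper29.SPPTens

/-!
# Project SP12 (S5868, architect helper71), piece TEVg (helper68)

In characteristic 2 a group of isometries inside `Sp_d ⊗ O_k` (the symmetric factor not
alternating) is reducible: the vectors `v` with `f₂ v v = 0` form a proper non-zero subspace
invariant under the second factors.  This is helper29's proof of `TEV`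
(`Cfsg/Agent/Lib/Helper29/SPPTEV.lean`) with the first factor of any dimension `d ≥ 1`.
-/

set_option autoImplicit false

namespace Cfsg.Agent.Lib.Helper68.SP12TEVg

open Matrix Cfsg.Geo Cfsg.Agent.Lib.Helper71.Asch
open Cfsg.Agent.Lib.Helper29.SPPTens
open scoped Kronecker

variable {n : ℕ} {F : Type*} [Field F] [Fintype F]

/-- TEVg: in characteristic 2 a group of isometries inside `Sp_d ⊗ O_k` (the symmetric factor not
alternating) is reducible (`TEV` is the case `d = 2`). -/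
theorem TEVg (hq : ¬ Odd (Fintype.card F)) (f : (Fin n → F) → (Fin n → F) → F)
    (H : Subgroup (GL (Fin n) F)) (hfix : FixesForm (matrixSet H) f) {d k : ℕ} (hd : 1 ≤ d)
    (hk : 2 ≤ k) (e : Fin n ≃ Fin d × Fin k) (P : GL (Fin n) F)
    (f₁ : (Fin d → F) → (Fin d → F) → F) (f₂ : (Fin k → F) → (Fin k → F) → F)
    (h1 : IsSymplecticForm f₁) (h2 : IsSymmetricForm f₂) (hne : ∃ v, f₂ v v ≠ 0)
    (ht : IsTensorFormStructure id f f₁ f₂ e P) (hH : H ≤ tensorProductSubgroup d k e P) :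
    ¬ ActsIrreducibly (matrixSet H) := by
  classical
  intro hirr
  -- characteristic 2
  have hchar : ringChar F = 2 := by
    rw [FiniteField.even_card_iff_char_two]
    rcases Nat.even_or_odd (Fintype.card F) with he | ho
    · exact Nat.even_iff.mp he
    · exact absurd ho hq
  have h2F : (2 : F) = 0 := by
    have h3 := (ringChar.spec F 2).2 (by rw [hchar])
    exact_mod_cast h3
  have hsq : ∀ y : F, ∃ t : F, y = t * t := fun y => FiniteField.isSquare_of_char_two hchar y
  have hb2 := h2.bilinear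
  have hδadd : ∀ v w : Fin k → F, f₂ (v + w) (v + w) = f₂ v v + f₂ w w := by
    intro v w
    rw [hb2.add_left, hb2.add_right, hb2.add_right, h2.symm w v]
    linear_combination (f₂ v w) * h2F
  have hδsmul : ∀ (t : F) (v : Fin k → F), f₂ (t • v) (t • v) = t * t * f₂ v v := by
    intro t v
    rw [hb2.smul_left, hb2.smul_right]
    ring
  have hδzero : f₂ 0 0 = 0 := by
    have h3 := hb2.smul_left 0 0 0
    rw [zero_smul, zero_mul] at h3
    exact h3
  let W₀ : Submodule F (Fin k → F) :=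
    { carrier := {v | f₂ v v = 0}
      add_mem' := fun {v w} hv hw => by
        show f₂ (v + w) (v + w) = 0
        rw [hδadd, show f₂ v v = 0 from hv, show f₂ w w = 0 from hw, add_zero]
      zero_mem' := hδzero
      smul_mem' := fun c v hv => by
        show f₂ (c • v) (c • v) = 0
        rw [hδsmul, show f₂ v v = 0 from hv, mul_zero] }
  have hW₀mem : ∀ v, v ∈ W₀ ↔ f₂ v v = 0 := fun v => Iff.rfl
  -- `W₀` is not zero
  have hW₀ne : ∃ v₀, v₀ ∈ W₀ ∧ v₀ ≠ 0 := by
    by_contra hcon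
    have hall : ∀ v : Fin k → F, f₂ v v = 0 → v = 0 := by
      intro v hv
      by_contra hv0
      exact hcon ⟨v, hv, hv0⟩
    have hv₂0 : (Pi.single (⟨1, by omega⟩ : Fin k) 1 : Fin k → F) ≠ 0 := by
      intro h0
      have h3 := congrFun h0 ⟨1, by omega⟩
      simp at h3
    have hδ2 : f₂ (Pi.single (⟨1, by omega⟩ : Fin k) 1) (Pi.single (⟨1, by omega⟩ : Fin k) 1) ≠ 0 :=
      fun h0 => hv₂0 (hall _ h0)
    obtain ⟨t, ht⟩ := hsq (f₂ (Pi.single (⟨0, by omega⟩ : Fin k) 1)
      (Pi.single (⟨0, by omega⟩ : Fin k) 1) /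
      f₂ (Pi.single (⟨1, by omega⟩ : Fin k) 1) (Pi.single (⟨1, by omega⟩ : Fin k) 1))
    have hz : f₂ (Pi.single (⟨0, by omega⟩ : Fin k) 1 + t • Pi.single (⟨1, by omega⟩ : Fin k) 1)
        (Pi.single (⟨0, by omega⟩ : Fin k) 1 + t • Pi.single (⟨1, by omega⟩ : Fin k) 1) = 0 := by
      rw [hδadd, hδsmul, ← ht, div_mul_cancel₀ _ hδ2]
      linear_combination (f₂ (Pi.single (⟨0, by omega⟩ : Fin k) 1)
        (Pi.single (⟨0, by omega⟩ : Fin k) 1)) * h2F
    have h0 := hall _ hz
    have h3 := congrFun h0 ⟨0, by omega⟩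
    simp at h3
  obtain ⟨v₀, hv₀, hv₀0⟩ := hW₀ne
  obtain ⟨v₁, hv₁⟩ := hne
  -- the subspace of vectors with rows in `W₀`
  let R₀ : Submodule F (Fin d × Fin k → F) :=
    ⨅ i : Fin d, W₀.comap (LinearMap.funLeft F F (fun j : Fin k => (i, j)))
  have hR₀ : ∀ x : Fin d × Fin k → F, x ∈ R₀ ↔ ∀ i, (fun j => x (i, j)) ∈ W₀ := by
    intro x
    simp only [R₀, Submodule.mem_iInf, Submodule.mem_comap]
    rfl
  let W : Submodule F (Fin n → F) := R₀.map (tT e P)
  have hinv : ∀ s ∈ matrixSet H, W.map (Matrix.toLin' s) ≤ W := by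
    rintro s ⟨h, hh, rfl⟩ w hw
    obtain ⟨w', hw', rfl⟩ := Submodule.mem_map.mp hw
    obtain ⟨x, hx, rfl⟩ := Submodule.mem_map.mp hw'
    obtain ⟨a, b, lam, hab, hlam, hb⟩ := tens_factor f H hfix (by omega) (by omega) e P f₁ f₂
      h1.bilinear h1.nondegenerate h2.bilinear h2.nondegenerate ht hH h hh
    show h.1 *ᵥ (P.1 *ᵥ (x ∘ e)) ∈ W
    rw [hab, tmat_mulVec]
    refine Submodule.mem_map.mpr ⟨(a.1 ⊗ₖ b.1) *ᵥ x, ?_, rfl⟩
    rw [hR₀]
    intro i
    rw [kron_mulVec_row]
    apply Submodule.sum_mem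
    intro i' _
    apply Submodule.smul_mem
    rw [hW₀mem, hb, (hW₀mem _).1 ((hR₀ x).1 hx i'), mul_zero]
  rcases hirr W hinv with hbot | htop
  · have hx : (fun p : Fin d × Fin k => v₀ p.2) ∈ R₀ := by
      rw [hR₀]
      intro i
      exact hv₀
    have hmem : tT e P (fun p : Fin d × Fin k => v₀ p.2) ∈ W := Submodule.mem_map_of_mem hx
    rw [hbot, Submodule.mem_bot] at hmem
    have h0 : (fun p : Fin d × Fin k => v₀ p.2) = 0 :=
      tT_injective e P (by rw [hmem, map_zero])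
    apply hv₀0
    funext j
    exact congrFun h0 (⟨0, by omega⟩, j)
  · have hmem : tT e P (fun p : Fin d × Fin k => v₁ p.2) ∈ W := by
      rw [htop]
      trivial
    obtain ⟨x, hx, hxe⟩ := Submodule.mem_map.mp hmem
    have hxx := tT_injective e P hxe
    subst hxx
    exact hv₁ ((hR₀ _).1 hx ⟨0, by omega⟩)

end Cfsg.Agent.Lib.Helper68.SP12TEVg
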