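import Mathlib
import Cfsg.Agent.Lib.Helper91.SpU

/-! A1 (job board piece for S5171, poster helper91): the standard unipotent subgroup `U` of
`Sp_{2m}(K)`, `char K = p`, is a `p`-group. -/

set_option maxHeartbeats 400000
set_option autoImplicit false

namespace Cfsg.Agent.Lib.Helper68.SpA1

open Matrix Cfsg.Agent.Lib.Helper91.SpU

/-- An upper unitriangular matrix `A` has `(A - 1) ^ m = 0`. -/
theorem ut_sub_one_pow (m : ℕ) (K : Type*) [Field K] (A : Matrix (Fin m) (Fin m) K)
    (hA : IsUT m K A) : (A - 1) ^ m = 0 := by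
  have hup : A.IsUpperTriangular := fun i j hij => hA.1 i j hij
  have hcp : A.charpoly = (Polynomial.X - Polynomial.C (1 : K)) ^ m := by
    rw [Matrix.charpoly_of_isUpperTriangular A hup,
      Finset.prod_congr rfl (fun i _ => by rw [hA.2 i]), Finset.prod_const, Finset.card_univ,
      Fintype.card_fin]
  have h := Matrix.aeval_self_charpoly A
  rw [hcp] at h
  simpa using h

/-- Powers of block upper triangular matrices. -/
theorem block_pow {n : Type*} [Fintype n] [DecidableEq n] {R : Type*} [CommRing R]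
    (A B D : Matrix n n R) (k : ℕ) :
    ∃ X : Matrix n n R, (fromBlocks A B 0 D) ^ k = fromBlocks (A ^ k) X 0 (D ^ k) := by
  induction k with
  | zero => exact ⟨0, by rw [pow_zero, pow_zero, pow_zero, fromBlocks_one]⟩
  | succ k ih =>
    obtain ⟨X, hX⟩ := ih
    refine ⟨A ^ k * B + X * D, ?_⟩
    rw [pow_succ, hX, fromBlocks_multiply]
    simp [pow_succ]

theorem U_isPGroup (m : ℕ) (K : Type*) [Field K] (p : ℕ) [Fact p.Prime] [CharP K p]
    (U : Subgroup (Matrix.symplecticGroup (Fin m) K)) (hU : ∀ g, g ∈ U ↔ InU m K g) :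
    IsPGroup p U := by
  intro g
  obtain ⟨h21, hA⟩ := (hU g.1).mp g.2
  have key : (g.1.1) ^ p ^ (2 * m) = 1 := by
    rcases Nat.eq_zero_or_pos m with hm | hm
    · subst hm
      exact Subsingleton.elim _ _
    haveI : Nonempty (Fin m ⊕ Fin m) := ⟨Sum.inl ⟨0, hm⟩⟩
    obtain ⟨A, hAdef⟩ : ∃ A, A = g.1.1.toBlocks₁₁ := ⟨_, rfl⟩
    obtain ⟨B, hBdef⟩ : ∃ B, B = g.1.1.toBlocks₁₂ := ⟨_, rfl⟩
    obtain ⟨D, hDdef⟩ : ∃ D, D = g.1.1.toBlocks₂₂ := ⟨_, rfl⟩
    have hblk : g.1.1 = fromBlocks A B 0 D := by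
      rw [hAdef, hBdef, hDdef, ← h21]
      exact (fromBlocks_toBlocks g.1.1).symm
    have hmem : fromBlocks A B 0 D ∈ Matrix.symplecticGroup (Fin m) K := by
      rw [← hblk]
      exact g.1.2
    rw [SymplecticGroup.fromBlocks_mem_iff] at hmem
    obtain ⟨-, -, h3⟩ := hmem
    have hAD : Aᵀ * D = 1 := by simpa using h3
    have hDA : Dᵀ * A = 1 := by
      have h := congrArg transpose hAD
      simpa [transpose_mul] using h
    have hAn : (A - 1) ^ m = 0 := ut_sub_one_pow m K A (hAdef ▸ hA)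
    have hDn : (D - 1) ^ m = 0 := by
      have e : Dᵀ - 1 = Dᵀ * (1 - A) := by rw [mul_sub, mul_one, hDA]
      have hAD' : A * Dᵀ = 1 := mul_eq_one_comm.mp hDA
      have hc : Commute Dᵀ (1 - A) := by
        show Dᵀ * (1 - A) = (1 - A) * Dᵀ
        rw [mul_sub, sub_mul, mul_one, one_mul, hDA, hAD']
      have h1 : (Dᵀ - 1) ^ m = 0 := by
        rw [e, hc.mul_pow]
        have h0 : (1 - A) ^ m = 0 := by
          have e2 : (1 - A) = -(A - 1) := by abel
          rw [e2, neg_pow, hAn, mul_zero]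
        rw [h0, mul_zero]
      have h2 : ((D - 1) ^ m)ᵀ = 0 := by
        rw [transpose_pow, transpose_sub, transpose_one, h1]
      exact transpose_eq_zero.mp h2
    obtain ⟨X, hX⟩ := block_pow (A - 1) B (D - 1) m
    have hN : g.1.1 - 1 = fromBlocks (A - 1) B 0 (D - 1) := by
      rw [hblk, ← fromBlocks_one, sub_eq_add_neg, fromBlocks_neg, fromBlocks_add]
      simp [sub_eq_add_neg]
    have hN2 : (g.1.1 - 1) ^ (2 * m) = 0 := by
      rw [two_mul, pow_add, hN, hX, hAn, hDn, fromBlocks_multiply]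
      simp
    have hNp : (g.1.1 - 1) ^ p ^ (2 * m) = 0 :=
      pow_eq_zero_of_le (le_of_lt (Nat.lt_pow_self (Fact.out : p.Prime).one_lt)) hN2
    have hsplit : g.1.1 = (g.1.1 - 1) + 1 := by abel
    rw [hsplit, add_pow_char_pow_of_commute p (2 * m) (Commute.one_right _), hNp, one_pow,
      zero_add]
  refine ⟨2 * m, ?_⟩
  apply Subtype.ext
  apply Subtype.ext
  simpa using key

end Cfsg.Agent.Lib.Helper68.SpA1
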