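import Mathlib

set_option autoImplicit false

namespace Cfsg.Agent.Lib.Helper68

/-- Separation of points of a finite abelian group by complex characters. -/
theorem sep_dual {A : Type*} [Group A] [Finite A] (hA : ∀ a b : A, a * b = b * a) (a : A)
    (h : ∀ φ : A →* ℂˣ, φ a = 1) : a = 1 := by
  letI : CommGroup A := { (inferInstance : Group A) with mul_comm := hA }
  have : NeZero (Monoid.exponent A) := ⟨Monoid.exponent_ne_zero_of_finite⟩
  exact (CommGroup.forall_apply_eq_apply_iff (G := A) (M := ℂ) (g := a) (g' := 1)).mp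
    (fun φ => by rw [h φ, map_one])

/-- The dual of a finite abelian group has the same cardinality. -/
theorem card_dual {A : Type*} [Group A] [Finite A] (hA : ∀ a b : A, a * b = b * a) :
    Nat.card (A →* ℂˣ) = Nat.card A := by
  letI : CommGroup A := { (inferInstance : Group A) with mul_comm := hA }
  have : NeZero (Monoid.exponent A) := ⟨Monoid.exponent_ne_zero_of_finite⟩
  exact CommGroup.card_monoidHom_of_hasEnoughRootsOfUnity A ℂ

theorem eq_of_le_of_index_eq {G : Type*} [Group G] {H K : Subgroup G} (h : H ≤ K)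
    (hi : H.index = K.index) (h0 : K.index ≠ 0) : H = K := by
  have h1 := Subgroup.relIndex_mul_index h
  rw [hi] at h1
  have h2 : H.relIndex K = 1 := by
    have : H.relIndex K * K.index = 1 * K.index := by rw [h1, one_mul]
    exact Nat.eq_of_mul_eq_mul_right (Nat.pos_of_ne_zero h0) this
  exact le_antisymm h (Subgroup.relIndex_eq_one.mp h2)

theorem eq_or_eq_top_of_index_prime {G : Type*} [Group G] {p : ℕ} (hp : p.Prime)
    {H K : Subgroup G} (hH : H.index = p) (hle : H ≤ K) : K = H ∨ K = ⊤ := by
  have h1 : K.index ∣ p := hH ▸ Subgroup.index_dvd_of_le hle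
  rcases (Nat.dvd_prime hp).mp h1 with h | h
  · right
    exact Subgroup.index_eq_one.mp h
  · left
    exact (eq_of_le_of_index_eq hle (hH.trans h.symm) (by rw [h]; exact hp.ne_zero)).symm

theorem mid_eq {G : Type*} [Group G] {p : ℕ} (hp : p.Prime) {Z K B : Subgroup G}
    (hZ : Z.index = p ^ 2) (hB : B.index = p) (hZK : Z ≤ K) (hKB : K ≤ B) : K = Z ∨ K = B := by
  have h1 : p ∣ K.index := hB ▸ Subgroup.index_dvd_of_le hKB
  have h2 : K.index ∣ p ^ 2 := hZ ▸ Subgroup.index_dvd_of_le hZK
  obtain ⟨j, hj, hj2⟩ := (Nat.dvd_prime_pow hp).mp h2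
  have hj0 : j ≠ 0 := by
    rintro rfl
    rw [hj2, pow_zero] at h1
    exact hp.one_lt.ne' (Nat.dvd_one.mp h1)
  have hj' : j = 1 ∨ j = 2 := by omega
  rcases hj' with rfl | rfl
  · right
    rw [pow_one] at hj2
    exact eq_of_le_of_index_eq hKB (hj2.trans hB.symm) (by rw [hB]; exact hp.ne_zero)
  · left
    exact (eq_of_le_of_index_eq hZK (hZ.trans hj2.symm)
      (by rw [hj2]; exact pow_ne_zero _ hp.ne_zero)).symm

/-- Two subgroups of prime order sharing a nontrivial element are equal. -/
theorem eq_of_card_prime_of_mem {G : Type*} [Group G] {p : ℕ} (hp : p.Prime)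
    {I I' : Subgroup G} (hI : Nat.card I = p) (hI' : Nat.card I' = p) (x : G) (hx : x ∈ I)
    (hx' : x ∈ I') (hx1 : x ≠ 1) : I = I' := by
  have hfin : Finite I := Nat.finite_of_card_ne_zero (by rw [hI]; exact hp.ne_zero)
  have hfin' : Finite I' := Nat.finite_of_card_ne_zero (by rw [hI']; exact hp.ne_zero)
  have key : ∀ J : Subgroup G, Nat.card J = p → x ∈ J → Subgroup.zpowers x = J := by
    intro J hJ hxJ
    have hfJ : Finite J := Nat.finite_of_card_ne_zero (by rw [hJ]; exact hp.ne_zero)
    have hle : Subgroup.zpowers x ≤ J := Subgroup.zpowers_le.mpr hxJ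
    have hdvd : Nat.card (Subgroup.zpowers x) ∣ p := hJ ▸ Subgroup.card_dvd_of_le hle
    rcases (Nat.dvd_prime hp).mp hdvd with h | h
    · exfalso
      rw [Nat.card_zpowers] at h
      exact hx1 (orderOf_eq_one_iff.mp h)
    · exact Subgroup.eq_of_le_of_card_ge hle (by rw [h, hJ])
  rw [← key I hI hx, key I' hI' hx']

/-- The covering lemma: a finite group in which proper subgroups have index at least `p`,
covered by at most `p + 1` proper subgroups. -/
theorem cover_lemma {W : Type*} [Group W] [Finite W] (p : ℕ) (hp : p.Prime)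
    (hW : ∀ D : Subgroup W, D ≠ ⊤ → p ≤ D.index)
    {ι : Type*} [Fintype ι] (D : ι → Subgroup W) (hcard : Fintype.card ι ≤ p + 1)
    (hprop : ∀ i, D i ≠ ⊤) (hcov : ∀ w : W, ∃ i, w ∈ D i) :
    Fintype.card ι = p + 1 ∧ ∀ i, (D i).index = p := by
  classical
  cases nonempty_fintype W
  set N := Nat.card W with hN
  have hNpos : 0 < N := Nat.card_pos
  have hmi : ∀ i, Nat.card (D i) * (D i).index = N := fun i => (D i).card_mul_index
  have hmpos : ∀ i, 0 < Nat.card (D i) := fun i => Nat.card_pos
  have hpm : ∀ i, p * Nat.card (D i) ≤ N := by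
    intro i
    rw [← hmi i, mul_comm]
    exact Nat.mul_le_mul_left _ (hW (D i) (hprop i))
  have key : ∀ i0 : ι, Fintype.card ι = p + 1 ∧ ∀ i, i ≠ i0 → (D i).index = p := by
    intro i0
    let S : ι → Finset W := fun i => Finset.univ.filter (fun w => w ∈ D i)
    have hScard : ∀ i, (S i).card = Nat.card (D i) := by
      intro i
      rw [Nat.card_eq_fintype_card, Fintype.card_subtype]
    have hSinter : ∀ i j, (S i ∩ S j).card = Nat.card (D i ⊓ D j : Subgroup W) := by
      intro i j
      rw [Nat.card_eq_fintype_card, Fintype.card_subtype]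
      congr 1
      ext w
      simp [S, Subgroup.mem_inf]
    have hsub : (Finset.univ : Finset W) ⊆
        S i0 ∪ (Finset.univ.erase i0).biUnion (fun i => S i \ S i0) := by
      intro w _
      obtain ⟨i, hi⟩ := hcov w
      by_cases hw : w ∈ D i0
      · exact Finset.mem_union_left _ (by simp [S, hw])
      · apply Finset.mem_union_right
        rw [Finset.mem_biUnion]
        refine ⟨i, ?_, ?_⟩
        · rw [Finset.mem_erase]
          refine ⟨?_, Finset.mem_univ _⟩
          rintro rfl
          exact hw hi
        · simp [S, hi, hw]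
    have h1 : N ≤ (S i0).card + ∑ i ∈ Finset.univ.erase i0, (S i \ S i0).card := by
      have h := Finset.card_le_card hsub
      rw [Finset.card_univ, ← Nat.card_eq_fintype_card] at h
      exact h.trans ((Finset.card_union_le _ _).trans
        (Nat.add_le_add_left Finset.card_biUnion_le _))
    -- product inequality
    have hprod : ∀ i, Nat.card (D i) * Nat.card (D i0) ≤ Nat.card (D i ⊓ D i0 : Subgroup W) * N := by
      intro i
      have ha := hmi i
      have hb := hmi i0
      have hc := (D i ⊓ D i0).card_mul_index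
      have hle := Subgroup.index_inf_le (H := D i) (K := D i0)
      have hcpos : 0 < (D i ⊓ D i0).index := by
        rcases Nat.eq_zero_or_pos (D i ⊓ D i0).index with h0 | h0
        · rw [h0, mul_zero] at hc
          omega
        · exact h0
      have h3 : Nat.card (D i) * Nat.card (D i0) * (D i ⊓ D i0).index ≤
          Nat.card (D i ⊓ D i0 : Subgroup W) * N * (D i ⊓ D i0).index := by
        calc Nat.card (D i) * Nat.card (D i0) * (D i ⊓ D i0).index
            ≤ Nat.card (D i) * Nat.card (D i0) * ((D i).index * (D i0).index) :=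
              Nat.mul_le_mul_left _ hle
          _ = (Nat.card (D i) * (D i).index) * (Nat.card (D i0) * (D i0).index) := by ring
          _ = N * N := by rw [ha, hb]
          _ = (Nat.card (D i ⊓ D i0 : Subgroup W) * (D i ⊓ D i0).index) * N := by rw [hc]
          _ = Nat.card (D i ⊓ D i0 : Subgroup W) * N * (D i ⊓ D i0).index := by ring
      exact Nat.le_of_mul_le_mul_right h3 hcpos
    set m0 := Nat.card (D i0) with hm0
    set T := ∑ i ∈ Finset.univ.erase i0, Nat.card (D i) with hT
    set C := ∑ i ∈ Finset.univ.erase i0, Nat.card (D i ⊓ D i0 : Subgroup W) with hC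
    have h2 : N + C ≤ m0 + T := by
      have h3 : ∑ i ∈ Finset.univ.erase i0, (S i \ S i0).card + C = T := by
        rw [hC, hT, ← Finset.sum_add_distrib]
        refine Finset.sum_congr rfl fun i _ => ?_
        rw [← hSinter i i0, ← hScard i]
        exact Finset.card_sdiff_add_card_inter _ _
      rw [hScard i0] at h1
      omega
    have h4 : m0 * T ≤ C * N := by
      rw [hT, hC, Finset.mul_sum, Finset.sum_mul]
      refine Finset.sum_le_sum fun i _ => ?_
      rw [mul_comm]
      exact hprod i
    have hm0lt : m0 < N := by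
      have h5 := hpm i0
      have h6 := hmpos i0
      have h7 := hp.two_le
      nlinarith
    have hNT : N ≤ T := by
      by_contra hcon
      push_neg at hcon
      have h5 : N * N + m0 * T ≤ N * m0 + N * T := by nlinarith
      nlinarith
    have hpT : p * T ≤ (Fintype.card ι - 1) * N := by
      rw [hT, Finset.mul_sum]
      calc ∑ i ∈ Finset.univ.erase i0, p * Nat.card (D i)
          ≤ ∑ i ∈ Finset.univ.erase i0, N := Finset.sum_le_sum fun i _ => hpm i
        _ = (Fintype.card ι - 1) * N := by
            rw [Finset.sum_const, Finset.card_erase_of_mem (Finset.mem_univ _), Finset.card_univ,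
              smul_eq_mul]
    have hι1 : Fintype.card ι - 1 ≤ p := by omega
    have h8 : p * N ≤ (Fintype.card ι - 1) * N := (Nat.mul_le_mul_left _ hNT).trans hpT
    have h9 : p ≤ Fintype.card ι - 1 := Nat.le_of_mul_le_mul_right h8 hNpos
    have hιeq : Fintype.card ι - 1 = p := le_antisymm hι1 h9
    have hιpos : 0 < Fintype.card ι := Fintype.card_pos_iff.mpr ⟨i0⟩
    refine ⟨by omega, ?_⟩
    -- equality in the sum
    have hsumeq : ∑ i ∈ Finset.univ.erase i0, p * Nat.card (D i) =
        ∑ i ∈ Finset.univ.erase i0, N := by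
      apply le_antisymm (Finset.sum_le_sum fun i _ => hpm i)
      rw [Finset.sum_const, Finset.card_erase_of_mem (Finset.mem_univ _), Finset.card_univ,
        smul_eq_mul, hιeq, ← Finset.mul_sum]
      exact Nat.mul_le_mul_left _ hNT
    have hall := (Finset.sum_eq_sum_iff_of_le (fun i _ => hpm i)).mp hsumeq
    intro i hi
    have h10 : p * Nat.card (D i) = N := hall i (Finset.mem_erase.mpr ⟨hi, Finset.mem_univ _⟩)
    have h11 := hmi i
    rw [← h10, mul_comm p] at h11
    exact Nat.eq_of_mul_eq_mul_left (hmpos i) h11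
  obtain ⟨i1, -⟩ := hcov 1
  have hc := (key i1).1
  refine ⟨hc, fun i => ?_⟩
  have h1 : 1 < Fintype.card ι := by
    have := hp.two_le
    omega
  obtain ⟨j, hj⟩ := Fintype.exists_ne_of_one_lt_card h1 i
  exact (key j).2 i hj.symm

end Cfsg.Agent.Lib.Helper68
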