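import Cfsg.Agent.Lib.Helper68.TwoDegA

set_option autoImplicit false

namespace Cfsg.Agent.Lib.Helper68

section abs

variable {P : Type*} [Group P] {W : Type*} [CommGroup W] (act : P → W →* W)
  (act_one : ∀ w, act 1 w = w) (act_mul : ∀ u v w, act (u * v) w = act v (act u w))

/-- The stabilizer of a point. -/
def stabA (w : W) : Subgroup P where
  carrier := {u | act u w = w}
  mul_mem' := by
    intro a b ha hb
    show act (a * b) w = w
    rw [act_mul, (show act a w = w from ha), (show act b w = w from hb)]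
  one_mem' := act_one w
  inv_mem' := by
    intro a ha
    show act a⁻¹ w = w
    have h := act_mul a a⁻¹ w
    rw [mul_inv_cancel, act_one, (show act a w = w from ha)] at h
    exact h.symm

/-- The points fixed by a subgroup. -/
def fixA (B : Subgroup P) : Subgroup W where
  carrier := {w | ∀ u ∈ B, act u w = w}
  mul_mem' := by
    intro a b ha hb u hu
    rw [map_mul, ha u hu, hb u hu]
  one_mem' := fun u _ => map_one _
  inv_mem' := by
    intro a ha u hu
    rw [map_inv, ha u hu]

include act_one act_mul in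
/-- The abstract covering theorem. -/
theorem cover_abstract [Finite P] [Finite W] (p : ℕ) (hp : p.Prime) (hP : IsPGroup p P)
    (hWp : IsPGroup p W) (Z : Subgroup P) [Z.Normal] (hidx : Z.index = p ^ 2)
    (hZfix : ∀ z ∈ Z, ∀ w, act z w = w)
    (hcov : ∀ w : W, ∃ u : P, u ∉ Z ∧ act u w = w)
    (hprop : ∀ B : Subgroup P, Z ≤ B → B.index = p → ∃ u ∈ B, ∃ w, act u w ≠ w) :
    ∃ I : Subgroup W, Nat.card I = p ∧ ∀ (x : P) (w : W), act x w / w ∈ I := by
  classical
  haveI : Fact p.Prime := ⟨hp⟩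
  have hidx0 : ∀ K : Subgroup P, K.index ≠ 0 := fun K => Subgroup.index_ne_zero_of_finite
  have hWidx0 : ∀ K : Subgroup W, K.index ≠ 0 := fun K => Subgroup.index_ne_zero_of_finite
  have hst : ∀ (w : W) (u : P), u ∈ stabA act act_one act_mul w ↔ act u w = w :=
    fun _ _ => Iff.rfl
  have hfx : ∀ (B : Subgroup P) (w : W), w ∈ fixA act B ↔ ∀ u ∈ B, act u w = w :=
    fun _ _ => Iff.rfl
  -- the quotient is abelian
  have hK0 : ∀ u v : P, u * v * u⁻¹ * v⁻¹ ∈ Z := by
    intro u v
    have hc : Nat.card (P ⧸ Z) = p ^ 2 := by rw [← Subgroup.index_eq_card, hidx]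
    have hcm := (IsPGroup.isMulCommutative_of_card_eq_prime_sq (p := p) hc).is_comm.comm
      (u : P ⧸ Z) (v : P ⧸ Z)
    rw [← QuotientGroup.eq_one_iff]
    simp only [QuotientGroup.mk_mul, QuotientGroup.mk_inv]
    rw [hcm]
    group
  have hcomm : ∀ (u v : P) (w : W), act u (act v w) = act v (act u w) := by
    intro u v w
    rw [← act_mul, ← act_mul]
    have h1 : v * u = (v * u * v⁻¹ * u⁻¹) * (u * v) := by group
    rw [h1, act_mul, hZfix _ (hK0 v u)]
  have hZstab : ∀ w : W, Z ≤ stabA act act_one act_mul w := fun w z hz => hZfix z hz w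
  -- the index set
  let ι := {B : Subgroup P // Z ≤ B ∧ B.index = p}
  haveI : Fintype ι := Fintype.ofFinite ι
  let D : ι → Subgroup W := fun B => fixA act B.1
  have hD : ∀ (B : ι) (w : W), w ∈ D B ↔ ∀ u ∈ B.1, act u w = w := fun _ _ => Iff.rfl
  have hBZ : ∀ B : ι, ∃ b ∈ B.1, b ∉ Z := by
    intro B
    by_contra hcon
    push_neg at hcon
    have h0 : B.1 = Z := le_antisymm hcon B.2.1
    have h1 := B.2.2
    rw [h0, hidx] at h1
    have h2 : p * p = p * 1 := by rw [← sq, h1, mul_one]
    exact hp.one_lt.ne' (Nat.eq_of_mul_eq_mul_left hp.pos h2)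
  have hgen : ∀ (B : ι) (b : P), b ∈ B.1 → b ∉ Z → Z ⊔ Subgroup.zpowers b = B.1 := by
    intro B b hb hbZ
    rcases mid_eq hp hidx B.2.2 (le_sup_left : Z ≤ Z ⊔ Subgroup.zpowers b)
      (sup_le B.2.1 (Subgroup.zpowers_le.mpr hb)) with h | h
    · exfalso
      apply hbZ
      rw [← h]
      exact (le_sup_right : Subgroup.zpowers b ≤ _) (Subgroup.mem_zpowers b)
    · exact h
  have hBB : ∀ B B' : ι, B ≠ B' → B.1 ⊓ B'.1 = Z ∧ B.1 ⊔ B'.1 = ⊤ := by
    intro B B' hne
    have hnle : ¬ B.1 ≤ B'.1 := by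
      intro hle
      apply hne
      exact Subtype.ext (eq_of_le_of_index_eq hle (B.2.2.trans B'.2.2.symm) (hidx0 _))
    constructor
    · rcases mid_eq hp hidx B.2.2 (le_inf B.2.1 B'.2.1) inf_le_left with h | h
      · exact h
      · exact absurd (h.symm.le.trans inf_le_right) hnle
    · rcases eq_or_eq_top_of_index_prime hp B'.2.2 (le_sup_right : B'.1 ≤ B.1 ⊔ B'.1) with h | h
      · exact absurd (le_sup_left.trans h.le) hnle
      · exact h
  have hstabtop : ∀ (B : ι) (w : W) (x : P), w ∈ D B → x ∈ stabA act act_one act_mul w →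
      x ∉ B.1 → w ∈ fixA act ⊤ := by
    intro B w x hw hx hxB
    rcases eq_or_eq_top_of_index_prime hp B.2.2
      (show B.1 ≤ stabA act act_one act_mul w from hw) with h | h
    · rw [h] at hx
      exact absurd hx hxB
    · intro u _
      have h1 : u ∈ stabA act act_one act_mul w := by rw [h]; exact Subgroup.mem_top u
      exact h1
  -- the cardinality bound
  have hcard : Fintype.card ι ≤ p + 1 := by
    let f : (Σ B : ι, {x : P // x ∈ B.1 ∧ x ∉ Z}) → {x : P // x ∉ Z} :=
      fun s => ⟨s.2.1, s.2.2.2⟩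
    have hf : Function.Injective f := by
      rintro ⟨B, x, hxB, hxZ⟩ ⟨B', x', hxB', hxZ'⟩ h
      have hxx : x = x' := congrArg Subtype.val h
      subst hxx
      have hB : B = B' := by
        by_contra hne
        have h1 := (hBB B B' hne).1
        apply hxZ
        rw [← h1]
        exact Subgroup.mem_inf.mpr ⟨hxB, hxB'⟩
      subst hB
      rfl
    have h1 := Nat.card_le_card_of_injective f hf
    rw [Nat.card_sigma] at h1
    have hZB : ∀ B : ι, Nat.card B.1 = p * Nat.card Z := by
      intro B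
      have h2 := B.1.card_mul_index
      have h3 := Z.card_mul_index
      rw [B.2.2] at h2
      rw [hidx] at h3
      have h4 : Nat.card B.1 * p = (p * Nat.card Z) * p := by
        rw [h2, ← h3]; ring
      exact Nat.eq_of_mul_eq_mul_right hp.pos h4
    have hfib : ∀ B : ι, Nat.card {x : P // x ∈ B.1 ∧ x ∉ Z} + Nat.card Z = p * Nat.card Z := by
      intro B
      have h2 : Nat.card {x : P // x ∈ B.1 ∧ x ∉ Z} = ((B.1 : Set P) \ (Z : Set P)).ncard := by
        rw [← Nat.card_coe_set_eq]
        rfl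
      have h3 : ((B.1 : Set P) \ (Z : Set P)).ncard + (Z : Set P).ncard = (B.1 : Set P).ncard :=
        Set.ncard_sdiff_add_ncard_of_subset B.2.1 (Set.toFinite _)
      have h4 : (Z : Set P).ncard = Nat.card Z := (Nat.card_coe_set_eq _).symm
      have h5 : (B.1 : Set P).ncard = Nat.card B.1 := (Nat.card_coe_set_eq _).symm
      rw [h2, ← h4, h3, h5, hZB B, h4]
    have htot : Nat.card {x : P // x ∉ Z} + Nat.card Z = p ^ 2 * Nat.card Z := by
      have h2 : Nat.card {x : P // x ∉ Z} = ((Set.univ : Set P) \ (Z : Set P)).ncard := by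
        rw [← Nat.card_coe_set_eq]
        apply Nat.card_congr
        exact Equiv.subtypeEquivRight (fun x => by simp)
      have h3 : ((Set.univ : Set P) \ (Z : Set P)).ncard + (Z : Set P).ncard =
          (Set.univ : Set P).ncard :=
        Set.ncard_sdiff_add_ncard_of_subset (Set.subset_univ _) (Set.toFinite _)
      have h4 : (Z : Set P).ncard = Nat.card Z := (Nat.card_coe_set_eq _).symm
      rw [h2, ← h4, h3, Set.ncard_univ, h4, ← Z.card_mul_index, hidx, mul_comm]
    set z := Nat.card Z with hz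
    have hzpos : 0 < z := Nat.card_pos
    -- common fibre size
    obtain ⟨c, hc⟩ : ∃ c, c + z = p * z := ⟨p * z - z, by
      have : z ≤ p * z := Nat.le_mul_of_pos_left z hp.pos
      omega⟩
    have hfibc : ∀ B : ι, Nat.card {x : P // x ∈ B.1 ∧ x ∉ Z} = c := by
      intro B
      have := hfib B
      omega
    rw [Finset.sum_congr rfl (fun B _ => hfibc B), Finset.sum_const, Finset.card_univ,
      smul_eq_mul] at h1
    set t := Nat.card {x : P // x ∉ Z} with ht
    have e1 : p ^ 2 * z = p * (p * z) := by ring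
    have e2 : (p + 1) * c = p * c + c := by ring
    have e3 : p * c + p * z = p * (p * z) := by rw [← mul_add, hc]
    have hct : (p + 1) * c = t := by linarith
    have hcpos : 0 < c := by
      have h2 : 2 * z ≤ p * z := Nat.mul_le_mul_right z hp.two_le
      omega
    rw [← hct] at h1
    exact Nat.le_of_mul_le_mul_right h1 hcpos
  -- properness
  have hpropD : ∀ B : ι, D B ≠ ⊤ := by
    intro B hB
    obtain ⟨u, hu, w, hw⟩ := hprop B.1 B.2.1 B.2.2
    apply hw
    have h1 : w ∈ D B := by rw [hB]; exact Subgroup.mem_top w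
    exact h1 u hu
  -- nonemptiness
  have hιne : Nonempty ι := by
    obtain ⟨n, hn⟩ := (IsPGroup.iff_card (p := p) (G := Z)).mp (hP.to_subgroup Z)
    have hcP : Nat.card P = p ^ (n + 2) := by
      rw [← Z.card_mul_index, hn, hidx, pow_add]
    obtain ⟨K, hK, hZK⟩ := Sylow.exists_subgroup_card_pow_prime_le p
      (show p ^ (n + 1) ∣ Nat.card P by rw [hcP]; exact pow_dvd_pow p (by omega)) Z hn
      (Nat.le_succ n)
    refine ⟨⟨K, hZK, ?_⟩⟩
    have h1 := K.card_mul_index
    rw [hK, hcP] at h1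
    have h2 : p ^ (n + 1) * K.index = p ^ (n + 1) * p := by rw [h1]; ring
    exact Nat.eq_of_mul_eq_mul_left (pow_pos hp.pos _) h2
  -- covering
  have hcover : ∀ w : W, ∃ B : ι, w ∈ D B := by
    intro w
    obtain ⟨u, huZ, hu⟩ := hcov w
    have hus : u ∈ stabA act act_one act_mul w := hu
    by_cases htop : stabA act act_one act_mul w = ⊤
    · obtain ⟨B⟩ := hιne
      refine ⟨B, fun v _ => ?_⟩
      have h1 : v ∈ stabA act act_one act_mul w := by rw [htop]; exact Subgroup.mem_top v
      exact h1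
    · have h1 : (stabA act act_one act_mul w).index ∣ p ^ 2 :=
        hidx ▸ Subgroup.index_dvd_of_le (hZstab w)
      obtain ⟨j, hj, hj2⟩ := (Nat.dvd_prime_pow hp).mp h1
      have hj0 : j ≠ 0 := by
        rintro rfl
        exact htop (Subgroup.index_eq_one.mp (by rw [hj2, pow_zero]))
      have hj2' : j ≠ 2 := by
        rintro rfl
        have h2 := eq_of_le_of_index_eq (hZstab w) (hidx.trans hj2.symm) (hidx0 _)
        apply huZ
        rw [h2]
        exact hus
      have hj1 : j = 1 := by omega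
      rw [hj1, pow_one] at hj2
      exact ⟨⟨stabA act act_one act_mul w, hZstab w, hj2⟩, fun v hv => hv⟩
  have hWp' : ∀ D' : Subgroup W, D' ≠ ⊤ → p ≤ D'.index := by
    intro D' hD'
    obtain ⟨n, hn⟩ := (IsPGroup.iff_card (p := p) (G := W)).mp hWp
    have h1 : D'.index ∣ p ^ n := by
      rw [← hn]; exact Subgroup.index_dvd_card D'
    obtain ⟨j, -, hj2⟩ := (Nat.dvd_prime_pow hp).mp h1
    have hj0 : j ≠ 0 := by
      rintro rfl
      exact hD' (Subgroup.index_eq_one.mp (by rw [hj2, pow_zero]))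
    rw [hj2]
    calc p = p ^ 1 := (pow_one p).symm
      _ ≤ p ^ j := Nat.pow_le_pow_right hp.pos (Nat.one_le_iff_ne_zero.mpr hj0)
  obtain ⟨hι, hidxD⟩ := cover_lemma p hp hWp' D hcard hpropD hcover
  -- the fixed points of everything
  have hDPle : ∀ B : ι, fixA act ⊤ ≤ D B := fun B w hw u _ => hw u (Subgroup.mem_top u)
  have hinter : ∀ B B' : ι, B ≠ B' → D B ⊓ D B' ≤ fixA act ⊤ := by
    intro B B' hne w hw u _
    have h1 : B.1 ⊔ B'.1 ≤ stabA act act_one act_mul w := sup_le hw.1 hw.2
    rw [(hBB B B' hne).2] at h1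
    exact h1 (Subgroup.mem_top u)
  have hDPne : ∀ B : ι, D B ≠ fixA act ⊤ := by
    intro B hB
    have h1 : (fixA act (⊤ : Subgroup P)).index = p := by rw [← hB]; exact hidxD B
    have h2 : ∀ B' : ι, D B' = fixA act ⊤ := fun B' =>
      (eq_of_le_of_index_eq (hDPle B') (h1.trans (hidxD B').symm)
        (by rw [hidxD]; exact hp.ne_zero)).symm
    have h3 : fixA act (⊤ : Subgroup P) = ⊤ := by
      rw [eq_top_iff]
      intro w _
      obtain ⟨B', hB'⟩ := hcover w
      rw [h2 B'] at hB'
      exact hB'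
    rw [h3, Subgroup.index_top] at h1
    exact hp.one_lt.ne h1
  have hsupD : ∀ B B' : ι, B ≠ B' → D B ⊔ D B' = ⊤ := by
    intro B B' hne
    rcases eq_or_eq_top_of_index_prime hp (hidxD B) (le_sup_left : D B ≤ D B ⊔ D B') with h | h
    · exfalso
      have h1 : D B' ≤ D B := le_sup_right.trans h.le
      have h2 : D B' = D B := eq_of_le_of_index_eq h1 ((hidxD B').trans (hidxD B).symm)
        (by rw [hidxD]; exact hp.ne_zero)
      apply hDPne B
      apply le_antisymm _ (hDPle B)
      calc D B = D B ⊓ D B' := by rw [h2, inf_idem]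
        _ ≤ fixA act ⊤ := hinter B B' hne
    · exact h
  have hthird : ∀ B B' : ι, ∃ B'' : ι, B'' ≠ B ∧ B'' ≠ B' := by
    intro B B'
    by_contra hcon
    push_neg at hcon
    have h1 : Fintype.card ι ≤ 2 := by
      have hsub : (Finset.univ : Finset ι) ⊆ {B, B'} := by
        intro x _
        by_cases hx : x = B
        · simp [hx]
        · simp [hcon x hx]
      calc Fintype.card ι = (Finset.univ : Finset ι).card := Finset.card_univ.symm
        _ ≤ ({B, B'} : Finset ι).card := Finset.card_le_card hsub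
        _ ≤ 2 := Finset.card_le_two
    have := hp.two_le
    omega
  -- tau
  have htau1 : ∀ (u : P) (w : W), act u w / w = 1 ↔ act u w = w := fun u w => div_eq_one
  have hfixtau : ∀ (B : ι) (u : P), u ∈ B.1 → ∀ δ ∈ D B, act u δ / δ = 1 := by
    intro B u hu δ hδ
    rw [htau1]
    exact hδ u hu
  have htauB : ∀ (B : ι) (u : P), u ∈ B.1 → ∀ w : W, act u w / w ∈ fixA act ⊤ := by
    intro B u hu w
    have hstep : ∀ B' : ι, B' ≠ B → act u w / w ∈ D B' := by
      intro B' hne
      have hw : w ∈ D B ⊔ D B' := by rw [hsupD B B' hne.symm]; exact Subgroup.mem_top w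
      obtain ⟨δ, hδ, δ', hδ', rfl⟩ := Subgroup.mem_sup.mp hw
      have h1 : act u (δ * δ') / (δ * δ') = (act u δ / δ) * (act u δ' / δ') := by
        rw [map_mul, mul_div_mul_comm]
      rw [h1, hfixtau B u hu δ hδ, one_mul]
      intro v hv
      rw [map_div, hcomm v u δ', hδ' v hv]
    obtain ⟨B', hB'⟩ : ∃ B' : ι, B' ≠ B := by
      obtain ⟨B', h1, -⟩ := hthird B B
      exact ⟨B', h1⟩
    obtain ⟨B'', h1, h2⟩ := hthird B B'
    exact hinter B' B'' h2.symm ⟨hstep B' hB', hstep B'' h1⟩
  have htaumul : ∀ (u v : P) (w : W), act (u * v) w / w = (act v (act u w) / act u w) *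
      (act u w / w) := by
    intro u v w
    rw [act_mul, div_mul_div_cancel]
  obtain ⟨B0, B1, hne01⟩ : ∃ B B' : ι, B ≠ B' := by
    obtain ⟨B⟩ := hιne
    obtain ⟨B', h, -⟩ := hthird B B
    exact ⟨B, B', h.symm⟩
  have htauDP : ∀ (x : P) (w : W), act x w / w ∈ fixA act ⊤ := by
    let S : Subgroup P :=
      { carrier := {x | ∀ w : W, act x w / w ∈ fixA act ⊤}
        mul_mem' := by
          intro a b ha hb w
          rw [htaumul]
          exact (fixA act ⊤).mul_mem (hb _) (ha _)
        one_mem' := by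
          intro w
          rw [act_one, div_self']
          exact (fixA act ⊤).one_mem
        inv_mem' := by
          intro a ha w
          have h := htaumul a⁻¹ a w
          rw [inv_mul_cancel, act_one, div_self'] at h
          have h2 : act a⁻¹ w / w = (act a (act a⁻¹ w) / act a⁻¹ w)⁻¹ :=
            eq_inv_of_mul_eq_one_right h.symm
          rw [h2]
          exact (fixA act ⊤).inv_mem (ha _) }
    have hS : S = ⊤ := by
      rw [eq_top_iff, ← (hBB B0 B1 hne01).2]
      exact sup_le (fun u hu => htauB B0 u hu) (fun u hu => htauB B1 u hu)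
    intro x w
    have h1 : x ∈ S := by rw [hS]; exact Subgroup.mem_top x
    exact h1 w
  have hbim : ∀ (x y : P) (w : W), act (x * y) w / w = (act x w / w) * (act y w / w) := by
    intro x y w
    rw [htaumul]
    have h1 : act x w = w * (act x w / w) := by rw [mul_div_cancel]
    have h2 : act y (act x w / w) = act x w / w := htauDP x w y (Subgroup.mem_top y)
    have h3 : act y (act x w) / act x w = act y w / w := by
      conv_lhs => rw [h1]
      rw [map_mul, h2, mul_div_mul_right_eq_div]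
    rw [h3, mul_comm]
  have htauZ : ∀ z ∈ Z, ∀ w : W, act z w / w = 1 := fun z hz w => by
    rw [hZfix z hz w, div_self']
  have htauinv : ∀ (x : P) (w : W), act x⁻¹ w / w = (act x w / w)⁻¹ := by
    intro x w
    have h := hbim x x⁻¹ w
    rw [mul_inv_cancel, act_one, div_self'] at h
    exact eq_inv_of_mul_eq_one_right h.symm
  -- the commutator homomorphisms
  let T : P → W →* W := fun u => act u / MonoidHom.id W
  have hT : ∀ (u : P) (w : W), T u w = act u w / w := fun _ _ => rfl
  have hker : ∀ (B : ι) (u : P), u ∈ B.1 → u ∉ Z → (T u).ker = D B := by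
    intro B u hu huZ
    ext w
    rw [MonoidHom.mem_ker, hT, htau1]
    constructor
    · intro h
      have h1 : Z ⊔ Subgroup.zpowers u ≤ stabA act act_one act_mul w :=
        sup_le (hZstab w) (Subgroup.zpowers_le.mpr h)
      rw [hgen B u hu huZ] at h1
      exact h1
    · intro h
      exact h u hu
  have hrange : ∀ (B : ι) (u : P), u ∈ B.1 → u ∉ Z → Nat.card (T u).range = p := by
    intro B u hu huZ
    rw [← Subgroup.index_ker, hker B u hu huZ, hidxD]
  obtain ⟨u0, hu0, hu0Z⟩ := hBZ B0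
  refine ⟨(T u0).range, hrange B0 u0 hu0 hu0Z, ?_⟩
  have hIcard := hrange B0 u0 hu0 hu0Z
  let S' : Subgroup P :=
    { carrier := {x | ∀ w : W, act x w / w ∈ (T u0).range}
      mul_mem' := by
        intro a b ha hb w
        rw [hbim]
        exact (T u0).range.mul_mem (ha w) (hb w)
      one_mem' := by
        intro w
        rw [htauZ 1 Z.one_mem]
        exact (T u0).range.one_mem
      inv_mem' := by
        intro a ha w
        rw [htauinv]
        exact (T u0).range.inv_mem (ha w) }
  have hB0S : B0.1 ≤ S' := by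
    rw [← hgen B0 u0 hu0 hu0Z]
    refine sup_le ?_ ?_
    · intro z hz w
      rw [htauZ z hz]
      exact (T u0).range.one_mem
    · rw [Subgroup.zpowers_le]
      intro w
      exact ⟨w, rfl⟩
  obtain ⟨δ, hδ, hδP⟩ : ∃ δ ∈ D B0, δ ∉ fixA act ⊤ := by
    by_contra hcon
    push_neg at hcon
    exact hDPne B0 (le_antisymm hcon (hDPle B0))
  obtain ⟨δ', hδ', hδ'P⟩ : ∃ δ ∈ D B1, δ ∉ fixA act ⊤ := by
    by_contra hcon
    push_neg at hcon
    exact hDPne B1 (le_antisymm hcon (hDPle B1))
  obtain ⟨w0, hwZ, hws⟩ := hcov (δ * δ')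
  haveI hB0n : B0.1.Normal := ⟨fun b hb x => by
    have h1 : x * b * x⁻¹ = (x * b * x⁻¹ * b⁻¹) * b := by group
    rw [h1]
    exact B0.1.mul_mem (B0.2.1 (hK0 x b)) hb⟩
  have hwmem : w0 ∈ (↑(B0.1 ⊔ B1.1) : Set P) := by
    rw [(hBB B0 B1 hne01).2]
    exact Set.mem_univ w0
  rw [Subgroup.normal_mul] at hwmem
  obtain ⟨b, hb, b', hb', rfl⟩ := Set.mem_mul.mp hwmem
  have hprodone : (act b δ' / δ') * (act b' δ / δ) = 1 := by
    have h1 : act (b * b') (δ * δ') / (δ * δ') = 1 := (htau1 _ _).mpr hws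
    rw [hbim] at h1
    have h2 : act b (δ * δ') / (δ * δ') = (act b δ / δ) * (act b δ' / δ') := by
      rw [map_mul, mul_div_mul_comm]
    have h3 : act b' (δ * δ') / (δ * δ') = (act b' δ / δ) * (act b' δ' / δ') := by
      rw [map_mul, mul_div_mul_comm]
    rw [h2, h3, hfixtau B0 b hb δ hδ, hfixtau B1 b' hb' δ' hδ', one_mul, mul_one] at h1
    exact h1
  have hb'Z : b' ∉ Z := by
    intro hb'Z
    rw [htauZ b' hb'Z, mul_one] at hprodone
    have hbs : b ∈ stabA act act_one act_mul δ' := (htau1 b δ').mp hprodone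
    have hbB1 : b ∈ B1.1 := by
      by_contra hcon
      exact hδ'P (hstabtop B1 δ' b hδ' hbs hcon)
    have hbZ : b ∈ Z := by
      rw [← (hBB B0 B1 hne01).1]
      exact ⟨hb, hbB1⟩
    exact hwZ (Z.mul_mem hbZ hb'Z)
  have hb'B0 : b' ∉ B0.1 := by
    intro h
    apply hb'Z
    rw [← (hBB B0 B1 hne01).1]
    exact ⟨h, hb'⟩
  have hν1 : act b' δ / δ ≠ 1 := by
    intro h
    have hbs : b' ∈ stabA act act_one act_mul δ := (htau1 b' δ).mp h
    exact hδP (hstabtop B0 δ b' hδ hbs hb'B0)
  have hνI : act b' δ / δ ∈ (T u0).range := by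
    have h1 : act b' δ / δ = (act b δ' / δ')⁻¹ := eq_inv_of_mul_eq_one_right hprodone
    rw [h1]
    exact (T u0).range.inv_mem (hB0S hb δ')
  have hI' : (T b').range = (T u0).range :=
    eq_of_card_prime_of_mem hp (hrange B1 b' hb' hb'Z) hIcard (act b' δ / δ) ⟨δ, rfl⟩ hνI hν1
  have hb'S : b' ∈ S' := by
    intro w
    rw [← hI']
    exact ⟨w, rfl⟩
  have hS'top : S' = ⊤ := by
    rcases eq_or_eq_top_of_index_prime hp B0.2.2 hB0S with h | h
    · rw [h] at hb'S
      exact absurd hb'S hb'B0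
    · exact h
  intro x w
  have h1 : x ∈ S' := by rw [hS'top]; exact Subgroup.mem_top x
  exact h1 w

include act_one act_mul in
/-- The abstract covering theorem, with a generator. -/
theorem cover_abstract' [Finite P] [Finite W] (p : ℕ) (hp : p.Prime) (hP : IsPGroup p P)
    (hWp : IsPGroup p W) (Z : Subgroup P) [Z.Normal] (hidx : Z.index = p ^ 2)
    (hZfix : ∀ z ∈ Z, ∀ w, act z w = w)
    (hcov : ∀ w : W, ∃ u : P, u ∉ Z ∧ act u w = w)
    (hprop : ∀ B : Subgroup P, Z ≤ B → B.index = p → ∃ u ∈ B, ∃ w, act u w ≠ w) :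
    ∃ ν : W, ν ^ p = 1 ∧ ∀ (x : P) (w : W), ∃ k : ℕ, act x w / w = ν ^ k := by
  obtain ⟨I, hIcard, hI⟩ :=
    cover_abstract act act_one act_mul p hp hP hWp Z hidx hZfix hcov hprop
  obtain ⟨ν, hνI, hν1⟩ : ∃ ν ∈ I, ν ≠ 1 := by
    by_contra hcon
    push_neg at hcon
    have h0 : I = ⊥ := by
      rw [eq_bot_iff]
      intro x hx
      rw [Subgroup.mem_bot]
      exact hcon x hx
    rw [h0, Subgroup.card_bot] at hIcard
    exact hp.one_lt.ne hIcard
  have hzp : Subgroup.zpowers ν = I := by
    have hle : Subgroup.zpowers ν ≤ I := Subgroup.zpowers_le.mpr hνI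
    have hdvd : Nat.card (Subgroup.zpowers ν) ∣ p := hIcard ▸ Subgroup.card_dvd_of_le hle
    rcases (Nat.dvd_prime hp).mp hdvd with h | h
    · exfalso
      rw [Nat.card_zpowers] at h
      exact hν1 (orderOf_eq_one_iff.mp h)
    · exact Subgroup.eq_of_le_of_card_ge hle (by rw [h, hIcard])
  have hνp : ν ^ p = 1 := by
    have h1 : orderOf ν = p := by rw [← Nat.card_zpowers, hzp, hIcard]
    rw [← h1]
    exact pow_orderOf_eq_one ν
  refine ⟨ν, hνp, fun x w => ?_⟩
  have h1 : act x w / w ∈ Subgroup.zpowers ν := by rw [hzp]; exact hI x w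
  rw [← mem_powers_iff_mem_zpowers] at h1
  obtain ⟨k, hk⟩ := (Submonoid.mem_powers_iff _ _).mp h1
  exact ⟨k, hk.symm⟩

end abs

end Cfsg.Agent.Lib.Helper68
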