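import Cfsg.Agent.Lib.Helper68.TwoDegB

set_option autoImplicit false

namespace Cfsg.Agent.Lib.Helper68

section conc

variable {P : Type*} [Group P] (Z : Subgroup P) [hZn : Z.Normal]

/-- The action of `P` on the characters of the normal subgroup `Z`. -/
noncomputable def act (u : P) : (Z →* ℂˣ) →* (Z →* ℂˣ) where
  toFun φ := φ.comp (MulAut.conjNormal u : Z ≃* Z).toMonoidHom
  map_one' := rfl
  map_mul' _ _ := rfl

theorem act_apply (u : P) (φ : Z →* ℂˣ) (z : Z) :
    act Z u φ z = φ ((MulAut.conjNormal u : Z ≃* Z) z) := rfl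

theorem act_one (φ : Z →* ℂˣ) : act Z 1 φ = φ := by
  ext z
  rw [act_apply, map_one]
  rfl

theorem act_mul (u v : P) (φ : Z →* ℂˣ) : act Z (u * v) φ = act Z v (act Z u φ) := by
  ext z
  simp only [act_apply, map_mul]
  rfl

/-- A `p`-group with an abelian normal subgroup of index `p ^ 2` all of whose characters have
nontrivial stabilizer modulo the subgroup, and without abelian subgroups of index `p`, has
centre of index dividing `p ^ 3`. -/
theorem cover_main [Finite P] (p : ℕ) (hp : p.Prime) (hP : IsPGroup p P)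
    (hZab : ∀ a ∈ Z, ∀ b ∈ Z, a * b = b * a) (hidx : Z.index = p ^ 2)
    (hcov : ∀ φ : Z →* ℂˣ, ∃ u : P, u ∉ Z ∧
      ∀ z : Z, φ ((MulAut.conjNormal u : Z ≃* Z) z) = φ z)
    (hnoab : ¬ ∃ B : Subgroup P, (∀ a ∈ B, ∀ b ∈ B, a * b = b * a) ∧ B.index = p) :
    (Subgroup.center P).index ∣ p ^ 3 := by
  classical
  have hZab' : ∀ a b : Z, a * b = b * a := fun a b => Subtype.ext (hZab a a.2 b b.2)
  have hsep : ∀ z : Z, (∀ φ : Z →* ℂˣ, φ z = 1) → z = 1 := fun z h => sep_dual hZab' z h
  have hcardW : Nat.card (Z →* ℂˣ) = Nat.card Z := card_dual hZab'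
  haveI hWfin : Finite (Z →* ℂˣ) :=
    Nat.finite_of_card_ne_zero (by rw [hcardW]; exact Nat.card_pos.ne')
  haveI : Fact p.Prime := ⟨hp⟩
  have hWp : IsPGroup p (Z →* ℂˣ) := by
    obtain ⟨n, hn⟩ := (IsPGroup.iff_card (p := p) (G := Z)).mp (hP.to_subgroup Z)
    exact IsPGroup.of_card (n := n) (by rw [hcardW, hn])
  have hZfix : ∀ z ∈ Z, ∀ φ : Z →* ℂˣ, act Z z φ = φ := by
    intro z hz φ
    ext y
    rw [act_apply]
    have h1 : (MulAut.conjNormal z : Z ≃* Z) y = y := by
      apply Subtype.ext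
      rw [MulAut.conjNormal_apply, hZab z hz y y.2, mul_inv_cancel_right]
    rw [h1]
  have hcentz : ∀ (u : P) (z : Z),
      (∀ φ : Z →* ℂˣ, φ ((MulAut.conjNormal u : Z ≃* Z) z) = φ z) →
      u * (z : P) = (z : P) * u := by
    intro u z hu
    have h1 : (MulAut.conjNormal u : Z ≃* Z) z * z⁻¹ = 1 := by
      apply hsep
      intro φ
      rw [map_mul, hu φ, map_inv, mul_inv_cancel]
    have h2 : (MulAut.conjNormal u : Z ≃* Z) z = z := mul_inv_eq_one.mp h1
    have h3 := congrArg Subtype.val h2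
    rw [MulAut.conjNormal_apply] at h3
    calc u * (z : P) = u * z * u⁻¹ * u := by group
      _ = z * u := by rw [h3]
  have hcov' : ∀ φ : Z →* ℂˣ, ∃ u : P, u ∉ Z ∧ act Z u φ = φ := by
    intro φ
    obtain ⟨u, huZ, hu⟩ := hcov φ
    exact ⟨u, huZ, MonoidHom.ext hu⟩
  have hprop : ∀ B : Subgroup P, Z ≤ B → B.index = p →
      ∃ u ∈ B, ∃ φ : Z →* ℂˣ, act Z u φ ≠ φ := by
    intro B hZB hBidx
    by_contra hcon
    push_neg at hcon
    apply hnoab
    refine ⟨B, ?_, hBidx⟩
    have hall : ∀ u ∈ B, ∀ z : Z, u * (z : P) = (z : P) * u := by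
      intro u hu z
      apply hcentz
      intro φ
      have h2 := congrArg (fun ψ : Z →* ℂˣ => ψ z) (hcon u hu φ)
      exact h2
    obtain ⟨b, hb, hbZ⟩ : ∃ b ∈ B, b ∉ Z := by
      by_contra hc2
      push_neg at hc2
      have h0 : B = Z := le_antisymm hc2 hZB
      rw [h0, hidx] at hBidx
      have h2 : p * p = p * 1 := by rw [← sq, hBidx, mul_one]
      exact hp.one_lt.ne' (Nat.eq_of_mul_eq_mul_left hp.pos h2)
    have hg : Z ⊔ Subgroup.zpowers b = B := by
      rcases mid_eq hp hidx hBidx (le_sup_left : Z ≤ Z ⊔ Subgroup.zpowers b)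
        (sup_le hZB (Subgroup.zpowers_le.mpr hb)) with h | h
      · exfalso
        apply hbZ
        rw [← h]
        exact (le_sup_right : Subgroup.zpowers b ≤ _) (Subgroup.mem_zpowers b)
      · exact h
    have h1 : B ≤ Subgroup.centralizer ({b} : Set P) := by
      rw [← hg]
      refine sup_le ?_ ?_
      · intro z hz
        rw [Subgroup.mem_centralizer_iff]
        intro h hh
        rw [Set.mem_singleton_iff.mp hh]
        exact hall b hb ⟨z, hz⟩
      · rw [Subgroup.zpowers_le, Subgroup.mem_centralizer_iff]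
        intro h hh
        rw [Set.mem_singleton_iff.mp hh]
    have c1 : ∀ a ∈ B, b * a = a * b := by
      intro a ha
      exact Subgroup.mem_centralizer_iff.mp (h1 ha) b rfl
    have h2 : Z ⊔ Subgroup.zpowers b ≤ Subgroup.centralizer (B : Set P) := by
      refine sup_le ?_ ?_
      · intro z hz
        rw [Subgroup.mem_centralizer_iff]
        intro h hh
        exact hall h hh ⟨z, hz⟩
      · rw [Subgroup.zpowers_le, Subgroup.mem_centralizer_iff]
        intro h hh
        exact (c1 h hh).symm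
    intro a ha a' ha'
    have h3 : a' ∈ Subgroup.centralizer (B : Set P) := h2 (by rw [hg]; exact ha')
    exact Subgroup.mem_centralizer_iff.mp h3 a ha
  obtain ⟨ν, hνp, hν⟩ := cover_abstract' (act Z) (act_one Z) (act_mul Z) p hp hP hWp Z hidx
    hZfix hcov' hprop
  have hCcenter : (ν.ker).map Z.subtype ≤ Subgroup.center P := by
    rintro _ ⟨z, hz, rfl⟩
    rw [Subgroup.mem_center_iff]
    intro x
    show x * (z : P) = (z : P) * x
    apply hcentz
    intro φ
    obtain ⟨k, hk⟩ := hν x φ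
    have h2 : (act Z x φ / φ) z = (ν ^ k) z := congrArg (fun ψ : Z →* ℂˣ => ψ z) hk
    have h3 : (act Z x φ / φ) z = φ ((MulAut.conjNormal x : Z ≃* Z) z) / φ z := rfl
    have h4 : (ν ^ k) z = (ν z) ^ k := rfl
    have h5 : ν z = 1 := hz
    rw [h3, h4, h5, one_pow] at h2
    exact div_eq_one.mp h2
  have hCidx : ((ν.ker).map Z.subtype).index ∣ p ^ 3 := by
    rw [Subgroup.index_map_subtype, hidx, Subgroup.index_ker]
    have h2 : ν.range ≤ rootsOfUnity p ℂ := by
      rintro _ ⟨z, rfl⟩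
      rw [mem_rootsOfUnity]
      have h3 := congrArg (fun ψ : Z →* ℂˣ => ψ z) hνp
      exact h3
    haveI : NeZero p := ⟨hp.ne_zero⟩
    have h3 : Nat.card ν.range ∣ p := by
      have h4 := Subgroup.card_dvd_of_le h2
      rwa [Complex.card_rootsOfUnity] at h4
    calc Nat.card ν.range * p ^ 2 ∣ p * p ^ 2 := Nat.mul_dvd_mul_right h3 _
      _ = p ^ 3 := by ring
  exact (Subgroup.index_dvd_of_le hCcenter).trans hCidx

end conc

end Cfsg.Agent.Lib.Helper68
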