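import Cfsg.Agent.Lib.Helper68.TwoDegC
import Cfsg.Agent.Lib.Helper4.MonoNilp
import Cfsg.Agent.Lib.Helper20.Ito
import Cfsg.Agent.Lib.Helper20.Clifford
import Cfsg.Agent.Lib.Helper20.CliffordRel
import Cfsg.Agent.Lib.Helper20.ExtPrime
import Cfsg.Agent.Lib.Helper20.NormalInd
import Cfsg.Agent.Lib.Helper20.LinChar
import Cfsg.Agent.Lib.Helper83.Central
import Cfsg.Agent.Lib.Helper83.IrrBasic
import Cfsg.Agent.Lib.Helper83.LinearCount

set_option autoImplicit false

namespace Cfsg.Agent.Lib.Helper68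

open Cfsg Cfsg.Agent.Lib
open scoped ComplexConjugate commutatorElement

/-- A nonabelian finite group has a nonlinear irreducible character. -/
theorem exists_nonlinear {G : Type*} [Group G] [Finite G] (hG : ∃ a b : G, a * b ≠ b * a) :
    ∃ χ : IrrCharacter G, charDegree (χ : G → ℂ) ≠ 1 := by
  classical
  by_contra hcon
  push_neg at hcon
  obtain ⟨a, b, hab⟩ := hG
  apply hab
  have h1 := Helper83.card_linear' (G := G)
  have h2 : Nat.card {χ : IrrCharacter G // charDegree (χ : G → ℂ) = 1} =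
      Nat.card (IrrCharacter G) := Nat.card_congr (Equiv.subtypeUnivEquiv hcon)
  cases nonempty_fintype G
  letI : Fintype (IrrCharacter G) := Fintype.ofFinite _
  have h3 := Helper4.sum_sq_irr (G := G)
  have h4 : ∑ χ : IrrCharacter G, (χ : G → ℂ) 1 ^ 2 = (Nat.card (IrrCharacter G) : ℂ) := by
    have h5 : ∀ χ : IrrCharacter G, (χ : G → ℂ) 1 ^ 2 = 1 := by
      intro χ
      rw [(Helper83.irr_degree χ.2).2, hcon χ]
      simp
    rw [Finset.sum_congr rfl (fun χ _ => h5 χ), Finset.sum_const, Finset.card_univ,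
      Nat.card_eq_fintype_card]
    simp
  have h5 : Nat.card (IrrCharacter G) = Nat.card G := by
    have : (Nat.card (IrrCharacter G) : ℂ) = (Nat.card G : ℂ) := by rw [← h4, h3]
    exact_mod_cast this
  have h6 : (commutator G).index = Nat.card G := by rw [← h1, h2, h5]
  have h7 : Nat.card (commutator G) = 1 := by
    have h8 := (commutator G).card_mul_index
    rw [h6] at h8
    have h9 : Nat.card (commutator G) * Nat.card G = 1 * Nat.card G := by rw [h8, one_mul]
    exact Nat.eq_of_mul_eq_mul_right Nat.card_pos h9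
  have h8 : commutator G = ⊥ := Subgroup.eq_bot_of_card_eq _ h7
  have h9 : ⁅a, b⁆ ∈ commutator G := by
    rw [commutator_def]
    exact Subgroup.commutator_mem_commutator (Subgroup.mem_top a) (Subgroup.mem_top b)
  rw [h8, Subgroup.mem_bot] at h9
  exact (commutatorElement_eq_one_iff_mul_comm.mp h9)

/-- When all character degrees are `1` or `p`, a nonlinear irreducible character of a normal
subgroup has degree `p` and is invariant. -/
theorem inv_of_nonlinear {P : Type*} [Group P] [Fintype P] (p : ℕ) (hp : p.Prime)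
    (hcd : ∀ χ : IrrCharacter P, charDegree (χ : P → ℂ) = 1 ∨ charDegree (χ : P → ℂ) = p)
    (H : Subgroup P) [hH : H.Normal] [Fintype H] {ψ : H → ℂ} (hψ : IsIrrCharacter H ψ)
    (h1 : charDegree ψ ≠ 1) :
    charDegree ψ = p ∧ ∀ g : P, Helper20.conjFun H ψ g = ψ := by
  obtain ⟨χ, hχ, hcon⟩ := Helper20.exists_irr_over H hψ
  have hdeg := Helper20.clifford_degree H hψ hχ hcon (Helper20.inertia H ψ)
    (fun g => Helper20.mem_inertia H ψ g)
  obtain ⟨k, hk⟩ := Helper35.classInner_char_nat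
    (Helper35.isCharacter_res H (Helper35.isChar_of_irr hχ)) (Helper35.isChar_of_irr hψ)
  have hk' : classInner (fun h : H => χ h) ψ = k := hk
  rw [hk', (Helper83.irr_degree hχ).2, (Helper83.irr_degree hψ).2] at hdeg
  have hnat : charDegree χ = k * (Helper20.inertia H ψ).index * charDegree ψ := by
    exact_mod_cast hdeg
  rcases hcd ⟨χ, hχ⟩ with h | h
  · exfalso
    have h2 : charDegree (χ : P → ℂ) = 1 := h
    rw [h2] at hnat
    exact h1 (Nat.dvd_one.mp (Dvd.intro_left _ hnat.symm))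
  · have h2 : charDegree (χ : P → ℂ) = p := h
    rw [h2] at hnat
    have hd : charDegree ψ ∣ p := Dvd.intro_left _ hnat.symm
    have hdp : charDegree ψ = p := ((Nat.dvd_prime hp).mp hd).resolve_left h1
    refine ⟨hdp, ?_⟩
    rw [hdp] at hnat
    have h3 : k * (Helper20.inertia H ψ).index = 1 := by
      have h4 : k * (Helper20.inertia H ψ).index * p = 1 * p := by rw [← hnat, one_mul]
      exact Nat.eq_of_mul_eq_mul_right hp.pos h4
    have h4 : (Helper20.inertia H ψ).index = 1 := Nat.dvd_one.mp (Dvd.intro_left _ h3)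
    have h5 : Helper20.inertia H ψ = ⊤ := Subgroup.index_eq_one.mp h4
    intro g
    have h6 : g ∈ Helper20.inertia H ψ := by rw [h5]; exact Subgroup.mem_top g
    exact (Helper20.mem_inertia H ψ g).mp h6

/-- A nonlinear irreducible character of a normal subgroup vanishes where a linear character
is not invariant. -/
theorem vanish_off {P : Type*} [Group P] [Fintype P] (p : ℕ) (hp : p.Prime)
    (hcd : ∀ χ : IrrCharacter P, charDegree (χ : P → ℂ) = 1 ∨ charDegree (χ : P → ℂ) = p)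
    (H : Subgroup P) [hH : H.Normal] [Fintype H] {θ ψ : H → ℂ} (hθ : IsIrrCharacter H θ)
    (hθ1 : θ 1 = 1) (hψ : IsIrrCharacter H ψ) (h1 : charDegree ψ ≠ 1) (h : H) (hh : ψ h ≠ 0)
    (x : P) : θ ⟨x * h * x⁻¹, hH.conj_mem (h : P) h.2 x⟩ = θ h := by
  have hψ' : IsIrrCharacter H (θ * ψ) := Helper20.irr_linear_mul_irr hθ hθ1 hψ
  have hdeg : charDegree (θ * ψ) = charDegree ψ := by
    show ⌊((θ * ψ) 1).re⌋₊ = ⌊(ψ 1).re⌋₊
    rw [Pi.mul_apply, hθ1, one_mul]
  have h2 := (inv_of_nonlinear p hp hcd H hψ' (by rw [hdeg]; exact h1)).2 x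
  have h3 := (inv_of_nonlinear p hp hcd H hψ h1).2 x
  have h4 := congrFun h2 h
  have h5 := congrFun h3 h
  rw [Helper20.conjFun_apply] at h4 h5
  rw [Pi.mul_apply, Pi.mul_apply, h5] at h4
  exact mul_right_cancel₀ hh h4

/-- A central subgroup together with one more element generates an abelian group. -/
theorem abelian_sup_zpowers {G : Type*} [Group G] (C : Subgroup G)
    (hC : C ≤ Subgroup.center G) (x : G) :
    ∀ a ∈ C ⊔ Subgroup.zpowers x, ∀ b ∈ C ⊔ Subgroup.zpowers x, a * b = b * a := by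
  have h1 : C ⊔ Subgroup.zpowers x ≤ Subgroup.centralizer ({x} : Set G) := by
    refine sup_le ?_ ?_
    · intro c hc
      rw [Subgroup.mem_centralizer_iff]
      intro h hh
      rw [Set.mem_singleton_iff.mp hh]
      exact Subgroup.mem_center_iff.mp (hC hc) x
    · rw [Subgroup.zpowers_le, Subgroup.mem_centralizer_iff]
      intro h hh
      rw [Set.mem_singleton_iff.mp hh]
  have h2 : C ⊔ Subgroup.zpowers x ≤
      Subgroup.centralizer ((C ⊔ Subgroup.zpowers x : Subgroup G) : Set G) := by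
    refine sup_le ?_ ?_
    · intro c hc
      rw [Subgroup.mem_centralizer_iff]
      intro h _
      exact Subgroup.mem_center_iff.mp (hC hc) h
    · rw [Subgroup.zpowers_le, Subgroup.mem_centralizer_iff]
      intro h hh
      exact (Subgroup.mem_centralizer_iff.mp (h1 hh) x rfl).symm
  intro a ha b hb
  exact Subgroup.mem_centralizer_iff.mp (h2 hb) a ha

/-- The final step: the index of the centre is exactly `p ^ 3`. -/
theorem center_final {P : Type*} [Group P] [Finite P] (p : ℕ) (hp : p.Prime)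
    (hnab : ∃ a b : P, a * b ≠ b * a)
    (hnoab : ¬ ∃ B : Subgroup P, (∀ a ∈ B, ∀ b ∈ B, a * b = b * a) ∧ B.index = p)
    (hdvd : (Subgroup.center P).index ∣ p ^ 3) : (Subgroup.center P).index = p ^ 3 := by
  obtain ⟨a, b, hab⟩ := hnab
  have haZ : a ∉ Subgroup.center P := by
    intro h
    exact hab (Subgroup.mem_center_iff.mp h b).symm
  set B := Subgroup.center P ⊔ Subgroup.zpowers a with hB
  have hBab : ∀ a' ∈ B, ∀ b' ∈ B, a' * b' = b' * a' :=
    abelian_sup_zpowers (Subgroup.center P) le_rfl a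
  have hle : Subgroup.center P ≤ B := le_sup_left
  have haB : a ∈ B := (le_sup_right : Subgroup.zpowers a ≤ B) (Subgroup.mem_zpowers a)
  have hBtop : B ≠ ⊤ := by
    intro h
    apply hab
    exact hBab a haB b (by rw [h]; exact Subgroup.mem_top b)
  have hBidx1 : B.index ≠ 1 := fun h => hBtop (Subgroup.index_eq_one.mp h)
  have hBidxp : B.index ≠ p := fun h => hnoab ⟨B, hBab, h⟩
  have hBne : B.index ≠ (Subgroup.center P).index := by
    intro h
    have h1 := eq_of_le_of_index_eq hle h.symm Subgroup.index_ne_zero_of_finite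
    exact haZ (by rw [h1]; exact haB)
  have hBdvd : B.index ∣ (Subgroup.center P).index := Subgroup.index_dvd_of_le hle
  obtain ⟨j, hj, hj2⟩ := (Nat.dvd_prime_pow hp).mp hdvd
  rw [hj2] at hBdvd hBne
  obtain ⟨i, hi, hi2⟩ := (Nat.dvd_prime_pow hp).mp hBdvd
  have hi0 : i ≠ 0 := by
    rintro rfl
    exact hBidx1 (by rw [hi2, pow_zero])
  have hi1 : i ≠ 1 := by
    rintro rfl
    exact hBidxp (by rw [hi2, pow_one])
  have hij : i ≠ j := by
    rintro rfl
    exact hBne hi2
  have hj3 : j = 3 := by omega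
  rw [hj2, hj3]

/-- A linear character is trivial on commutators. -/
theorem lin_comm_one {A : Type*} [Group A] (φ : IrrCharacter A) (h1 : (φ : A → ℂ) 1 = 1)
    (a b : A) : (φ : A → ℂ) (a * b * a⁻¹ * b⁻¹) = 1 := by
  have hm := Helper4.irr_mul_of_one φ h1
  have h3 : (φ : A → ℂ) a * (φ : A → ℂ) a⁻¹ = 1 := by rw [← hm, mul_inv_cancel, h1]
  have h4 : (φ : A → ℂ) b * (φ : A → ℂ) b⁻¹ = 1 := by rw [← hm, mul_inv_cancel, h1]
  rw [hm, hm, hm]
  calc (φ : A → ℂ) a * (φ : A → ℂ) b * (φ : A → ℂ) a⁻¹ * (φ : A → ℂ) b⁻¹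
      = ((φ : A → ℂ) a * (φ : A → ℂ) a⁻¹) * ((φ : A → ℂ) b * (φ : A → ℂ) b⁻¹) := by ring
    _ = 1 := by rw [h3, h4, mul_one]

/-- An element on which all irreducible characters take their degree is trivial. -/
theorem eq_one_of_all_irr {A : Type*} [Group A] [Finite A] (c : A)
    (h : ∀ φ : IrrCharacter A, (φ : A → ℂ) c = (φ : A → ℂ) 1) : c = 1 := by
  classical
  cases nonempty_fintype A
  letI : Fintype (IrrCharacter A) := Fintype.ofFinite _
  by_contra hne
  have h1 := Helper4.col_orth_one (G := A) c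
  rw [if_neg hne] at h1
  have h2 : ∑ χ : IrrCharacter A, (χ : A → ℂ) c * (χ : A → ℂ) 1 =
      ∑ χ : IrrCharacter A, (χ : A → ℂ) 1 ^ 2 :=
    Finset.sum_congr rfl fun χ _ => by rw [h χ, sq]
  rw [h2, Helper4.sum_sq_irr] at h1
  have h3 : Nat.card A = 0 := by exact_mod_cast h1
  exact Nat.card_pos.ne' h3

/-- The `p`-group case. -/
theorem pgroup_main {P : Type*} [Group P] [Finite P] (p : ℕ) (hp : p.Prime) (hP : IsPGroup p P)
    (hcd : ∀ χ : IrrCharacter P, charDegree (χ : P → ℂ) = 1 ∨ charDegree (χ : P → ℂ) = p)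
    (hnab : ∃ a b : P, a * b ≠ b * a) :
    (∃ B : Subgroup P, (∀ a ∈ B, ∀ b ∈ B, a * b = b * a) ∧ B.index = p) ∨
      (Subgroup.center P).index = p ^ 3 := by
  classical
  by_cases hnoab : ∃ B : Subgroup P, (∀ a ∈ B, ∀ b ∈ B, a * b = b * a) ∧ B.index = p
  · exact Or.inl hnoab
  right
  apply center_final p hp hnab hnoab
  cases nonempty_fintype P
  haveI : Fact p.Prime := ⟨hp⟩
  haveI : Group.IsNilpotent P := hP.isNilpotent
  obtain ⟨χ, hχ1⟩ := exists_nonlinear hnab
  have hχp : charDegree (χ : P → ℂ) = p := (hcd χ).resolve_left hχ1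
  have hχ1' : (χ : P → ℂ) 1 ≠ 1 := by
    rw [(Helper83.irr_degree χ.2).2]
    exact_mod_cast hχ1
  obtain ⟨l, hl1, hl⟩ := Helper4.exists_lin_stab_nilpotent χ hχ1'
  obtain ⟨μ, r, hr, hμ, hstab⟩ := Helper4.lin_stab_prime_of_lin_stab (χ : P → ℂ) l hl1 hl
  have hidxr : μ.ker.index = r := Helper4.index_ker_of_orderOf_prime μ r hr hμ
  have hrp : r = p := by
    obtain ⟨n, hn⟩ := (IsPGroup.iff_card (p := p) (G := P)).mp hP
    have h1 : r ∣ p ^ n := by rw [← hn, ← hidxr]; exact Subgroup.index_dvd_card _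
    exact (Nat.prime_dvd_prime_iff_eq hr hp).mp (hr.dvd_of_dvd_pow h1)
  rw [hrp] at hidxr
  obtain ⟨H, hHdef⟩ : ∃ H : Subgroup P, H = μ.ker := ⟨_, rfl⟩
  haveI hHn : H.Normal := by rw [hHdef]; exact MonoidHom.normal_ker μ
  have hHidx : H.index = p := by rw [hHdef]; exact hidxr
  letI : Fintype H := Fintype.ofFinite H
  have hvan : ∀ g, g ∉ H → (χ : P → ℂ) g = 0 := by
    intro g hg
    have h2 : (μ g : ℂ) ≠ 1 := by
      intro h
      apply hg
      rw [hHdef, MonoidHom.mem_ker]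
      exact Units.ext h
    have h3 : ((μ g : ℂ) - 1) * (χ : P → ℂ) g = 0 := by
      rw [sub_mul, hstab g, one_mul, sub_self]
    rcases mul_eq_zero.mp h3 with h | h
    · exact absurd (sub_eq_zero.mp h) h2
    · exact h
  obtain ⟨θ, hθ⟩ := Helper4.exists_ind_of_vanish H p hp hHidx χ hvan
  have hp0 : (p : ℂ) ≠ 0 := Nat.cast_ne_zero.mpr hp.ne_zero
  have hθ1 : (θ : H → ℂ) 1 = 1 := by
    have h1 := Helper35.indFun_one_eq H (θ : H → ℂ)
    rw [← hθ, hHidx, (Helper83.irr_degree χ.2).2, hχp] at h1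
    have h2 : (p : ℂ) * 1 = (p : ℂ) * (θ : H → ℂ) 1 := by rw [mul_one]; exact h1
    exact (mul_left_cancel₀ hp0 h2).symm
  have hθninv : ¬ ∀ (g : P) (n : H),
      (θ : H → ℂ) ⟨g * n * g⁻¹, hHn.conj_mem (n : P) n.2 g⟩ = (θ : H → ℂ) n := by
    intro hinv
    have h1 := Helper20.classInner_indFun_of_invariant H (θ : H → ℂ) (θ : H → ℂ) hinv
    rw [← hθ, Helper35.classInner_irr' χ.2 χ.2, Helper35.classInner_irr' θ.2 θ.2, hHidx,
      if_pos rfl, if_pos rfl, mul_one] at h1
    have hp1 : p = 1 := by exact_mod_cast h1.symm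
    exact hp.one_lt.ne' hp1
  have hHnab : ∃ a b : H, a * b ≠ b * a := by
    by_contra hc
    push_neg at hc
    exact hnoab ⟨H, fun a ha b hb => congrArg Subtype.val (hc ⟨a, ha⟩ ⟨b, hb⟩), hHidx⟩
  obtain ⟨ψ0, hψ0⟩ := exists_nonlinear hHnab
  obtain ⟨f, hf⟩ := Helper20.exists_hom_of_linear (θ : H → ℂ) (Helper35.isChar_of_irr θ.2) hθ1
  -- the subgroup on which `θ` is invariant
  let ZH : Subgroup H :=
    { carrier := {h | ∀ x : P, f ((MulAut.conjNormal x : H ≃* H) h) = f h}
      mul_mem' := by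
        intro a b ha hb x
        simp only [map_mul, ha x, hb x]
      one_mem' := by
        intro x
        simp only [map_one]
      inv_mem' := by
        intro a ha x
        simp only [map_inv, ha x] }
  have hZH : ∀ h : H, h ∈ ZH ↔ ∀ x : P, f ((MulAut.conjNormal x : H ≃* H) h) = f h :=
    fun _ => Iff.rfl
  haveI hZHn : ZH.Normal := by
    constructor
    intro a ha k x
    simp only [map_mul, map_inv]
    rw [ha x, mul_comm (f _) (f a), mul_inv_cancel_right, mul_comm (f k) (f a),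
      mul_inv_cancel_right]
  obtain ⟨Z, hZdef⟩ : ∃ Z : Subgroup P, Z = ZH.map H.subtype := ⟨_, rfl⟩
  have hZmem : ∀ z : P, z ∈ Z ↔ ∃ hz : z ∈ H, (⟨z, hz⟩ : H) ∈ ZH := by
    intro z
    rw [hZdef]
    constructor
    · rintro ⟨h, hh, rfl⟩
      exact ⟨h.2, hh⟩
    · rintro ⟨hz, hh⟩
      exact ⟨⟨z, hz⟩, hh, rfl⟩
  have hconj : ∀ (x : P) (h : H), (MulAut.conjNormal x : H ≃* H) h =
      ⟨x * h * x⁻¹, hHn.conj_mem (h : P) h.2 x⟩ := by
    intro x h
    apply Subtype.ext
    rw [MulAut.conjNormal_apply]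
  haveI hZn : Z.Normal := by
    constructor
    intro z hz y
    obtain ⟨hzH, hzZ⟩ := (hZmem z).mp hz
    rw [hZmem]
    refine ⟨hHn.conj_mem z hzH y, ?_⟩
    intro x
    have h1 : (MulAut.conjNormal x : H ≃* H) ⟨y * z * y⁻¹, hHn.conj_mem z hzH y⟩ =
        (MulAut.conjNormal (x * y) : H ≃* H) ⟨z, hzH⟩ := by
      apply Subtype.ext
      rw [MulAut.conjNormal_apply, MulAut.conjNormal_apply]
      simp only [mul_inv_rev]
      group
    have h2 : (⟨y * z * y⁻¹, hHn.conj_mem z hzH y⟩ : H) =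
        (MulAut.conjNormal y : H ≃* H) ⟨z, hzH⟩ := by
      apply Subtype.ext
      rw [MulAut.conjNormal_apply]
    rw [h1, hzZ (x * y), h2, hzZ y]
  have hvanψ : ∀ ψ : H → ℂ, IsIrrCharacter H ψ → charDegree ψ ≠ 1 → ∀ h : H, ψ h ≠ 0 →
      h ∈ ZH := by
    intro ψ hψ hψ1 h hh x
    have h1 := vanish_off p hp hcd H θ.2 hθ1 hψ hψ1 h hh x
    apply Units.ext
    rw [hf, hf, hconj]
    exact h1
  have hsum : ∀ ψ : H → ℂ, IsIrrCharacter H ψ → charDegree ψ ≠ 1 →
      ∑ h ∈ Finset.univ.filter (fun h : H => h ∈ ZH), ‖ψ h‖ ^ 2 = (Nat.card H : ℝ) := by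
    intro ψ hψ hψ1
    rw [← Helper83.sum_normsq_eq ⟨ψ, hψ⟩]
    apply Finset.sum_subset (Finset.filter_subset _ _)
    intro h _ hh
    have hnot : h ∉ ZH := by simpa using hh
    have h0 : ψ h = 0 := by
      by_contra hne
      exact hnot (hvanψ ψ hψ hψ1 h hne)
    show ‖ψ h‖ ^ 2 = 0
    rw [h0]
    simp
  have hnormle : ∀ ψ : H → ℂ, IsIrrCharacter H ψ → charDegree ψ ≠ 1 → ∀ h : H,
      ‖ψ h‖ ^ 2 ≤ (p : ℝ) ^ 2 := by
    intro ψ hψ hψ1 h
    have h1 := Helper83.irr_norm_le hψ h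
    rw [(inv_of_nonlinear p hp hcd H hψ hψ1).1] at h1
    exact pow_le_pow_left₀ (norm_nonneg _) h1 2
  have hcardfilter : (Finset.univ.filter (fun h : H => h ∈ ZH)).card = Nat.card ZH := by
    rw [Nat.card_eq_fintype_card, Fintype.card_subtype]
  have hHle : Nat.card H ≤ Nat.card ZH * p ^ 2 := by
    have h1 := hsum ψ0 ψ0.2 hψ0
    have h2 : ∑ h ∈ Finset.univ.filter (fun h : H => h ∈ ZH), ‖(ψ0 : H → ℂ) h‖ ^ 2 ≤
        ∑ _h ∈ Finset.univ.filter (fun h : H => h ∈ ZH), (p : ℝ) ^ 2 :=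
      Finset.sum_le_sum fun h _ => hnormle ψ0 ψ0.2 hψ0 h
    rw [h1, Finset.sum_const, hcardfilter, nsmul_eq_mul] at h2
    exact_mod_cast h2
  have hq : ZH.index ∣ Nat.card H := Subgroup.index_dvd_card ZH
  obtain ⟨m, hm⟩ := (IsPGroup.iff_card (p := p) (G := H)).mp (hP.to_subgroup H)
  rw [hm] at hq
  obtain ⟨j, -, hj⟩ := (Nat.dvd_prime_pow hp).mp hq
  have hjle : j ≤ 2 := by
    have h1 := ZH.card_mul_index
    rw [hj] at h1
    have h2 : Nat.card ZH * p ^ j ≤ Nat.card ZH * p ^ 2 := by rw [h1]; exact hHle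
    have h3 : p ^ j ≤ p ^ 2 := Nat.le_of_mul_le_mul_left h2 Nat.card_pos
    exact (Nat.pow_le_pow_iff_right hp.one_lt).mp h3
  have hj0 : j ≠ 0 := by
    rintro rfl
    rw [pow_zero] at hj
    have htop : ZH = ⊤ := Subgroup.index_eq_one.mp hj
    apply hθninv
    intro g n
    have h1 : n ∈ ZH := by rw [htop]; exact Subgroup.mem_top n
    have h2 := h1 g
    rw [hconj] at h2
    rw [← hf, ← hf, h2]
  have hZidx : Z.index = p ^ j * p := by
    rw [hZdef, Subgroup.index_map_subtype, hj, hHidx]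
  rcases (show j = 1 ∨ j = 2 by omega) with rfl | rfl
  · -- the abelian case
    rw [pow_one] at hj hZidx
    have hZHab : ∀ a ∈ ZH, ∀ b ∈ ZH, a * b = b * a := by
      intro a ha b hb
      have hc : a * b * a⁻¹ * b⁻¹ = 1 := by
        apply eq_one_of_all_irr
        intro φ
        by_cases hφ1 : charDegree (φ : H → ℂ) = 1
        · have hφ1' : (φ : H → ℂ) 1 = 1 := by
            rw [(Helper83.irr_degree φ.2).2, hφ1]
            simp
          rw [lin_comm_one φ hφ1', hφ1']
        · have hvan' : ∀ g, g ∉ ZH → (φ : H → ℂ) g = 0 := by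
            intro g hg
            by_contra hne
            exact hg (hvanψ φ φ.2 hφ1 g hne)
          letI : Fintype ZH := Fintype.ofFinite ZH
          obtain ⟨η, hη⟩ := Helper4.exists_ind_of_vanish ZH p hp hj φ hvan'
          have hφp : (φ : H → ℂ) 1 = (p : ℂ) := by
            rw [(Helper83.irr_degree φ.2).2, (inv_of_nonlinear p hp hcd H φ.2 hφ1).1]
          have hη1 : (η : ZH → ℂ) 1 = 1 := by
            have h1 := Helper35.indFun_one_eq ZH (η : ZH → ℂ)
            rw [← hη, hj, hφp] at h1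
            have h2 : (p : ℂ) * 1 = (p : ℂ) * (η : ZH → ℂ) 1 := by rw [mul_one]; exact h1
            exact (mul_left_cancel₀ hp0 h2).symm
          have hcmem : a * b * a⁻¹ * b⁻¹ ∈ ZH :=
            ZH.mul_mem (ZH.mul_mem (ZH.mul_mem ha hb) (ZH.inv_mem ha)) (ZH.inv_mem hb)
          have h3 := Helper20.indFun_normal_apply ZH (η : ZH → ℂ) ⟨a * b * a⁻¹ * b⁻¹, hcmem⟩
          have h4 : ∀ x : H,
              Helper20.conjFun ZH (η : ZH → ℂ) x ⟨a * b * a⁻¹ * b⁻¹, hcmem⟩ = 1 := by
            intro x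
            have hirr := Helper20.conjFun_irr ZH η.2 x
            have hone : Helper20.conjFun ZH (η : ZH → ℂ) x 1 = 1 := by
              rw [Helper20.conjFun_apply]
              have e1 : (⟨x * ((1 : ZH) : H) * x⁻¹,
                  hZHn.conj_mem ((1 : ZH) : H) (1 : ZH).2 x⟩ : ZH) = 1 := by
                apply Subtype.ext
                simp
              rw [e1, hη1]
            exact lin_comm_one ⟨_, hirr⟩ hone ⟨a, ha⟩ ⟨b, hb⟩
          rw [Finset.sum_congr rfl (fun x _ => h4 x), Finset.sum_const, Finset.card_univ,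
            nsmul_eq_mul, mul_one] at h3
          have h5 : (φ : H → ℂ) (a * b * a⁻¹ * b⁻¹) = (Nat.card ZH : ℂ)⁻¹ * (Fintype.card H : ℂ) := by
            rw [← h3, hη]
          rw [h5, hφp, ← Nat.card_eq_fintype_card, ← ZH.card_mul_index, hj]
          have hz0 : (Nat.card ZH : ℂ) ≠ 0 := Nat.cast_ne_zero.mpr Nat.card_pos.ne'
          push_cast
          field_simp
      calc a * b = (a * b * a⁻¹ * b⁻¹) * b * a := by group
        _ = b * a := by rw [hc, one_mul]
    have hZab : ∀ a ∈ Z, ∀ b ∈ Z, a * b = b * a := by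
      intro a ha b hb
      obtain ⟨haH, haZ⟩ := (hZmem a).mp ha
      obtain ⟨hbH, hbZ⟩ := (hZmem b).mp hb
      exact congrArg Subtype.val (hZHab ⟨a, haH⟩ haZ ⟨b, hbH⟩ hbZ)
    have hZidx2 : Z.index = p ^ 2 := by rw [hZidx, sq]
    refine cover_main Z p hp hP hZab hZidx2 ?_ hnoab
    intro φ
    letI : Fintype Z := Fintype.ofFinite Z
    have hφirr : IsIrrCharacter Z (fun z => ((φ z : ℂˣ) : ℂ)) := Helper4.isIrrCharacter_lin φ
    obtain ⟨χ', hχ', hcon⟩ := Helper20.exists_irr_over Z hφirr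
    have hdeg := Helper20.clifford_degree Z hφirr hχ' hcon (Helper20.inertia Z _)
      (fun g => Helper20.mem_inertia Z _ g)
    obtain ⟨k, hk⟩ := Helper35.classInner_char_nat
      (Helper35.isCharacter_res Z (Helper35.isChar_of_irr hχ')) (Helper35.isChar_of_irr hφirr)
    have hk' : classInner (fun h : Z => χ' h) (fun z => ((φ z : ℂˣ) : ℂ)) = k := hk
    rw [hk', (Helper83.irr_degree hχ').2] at hdeg
    simp only [map_one, Units.val_one, mul_one] at hdeg
    have hnat : charDegree χ' =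
        k * (Helper20.inertia Z (fun z => ((φ z : ℂˣ) : ℂ))).index := by
      exact_mod_cast hdeg
    have hTle : (Helper20.inertia Z (fun z => ((φ z : ℂˣ) : ℂ))).index ≤ p := by
      have hdvd : (Helper20.inertia Z (fun z => ((φ z : ℂˣ) : ℂ))).index ∣ charDegree χ' :=
        Dvd.intro_left _ hnat.symm
      rcases hcd ⟨χ', hχ'⟩ with h | h
      · rw [show charDegree χ' = 1 from h] at hdvd
        exact (Nat.le_of_dvd one_pos hdvd).trans hp.one_lt.le
      · rw [show charDegree χ' = p from h] at hdvd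
        exact Nat.le_of_dvd hp.pos hdvd
    have hZT : Z ≤ Helper20.inertia Z (fun z => ((φ z : ℂˣ) : ℂ)) :=
      Helper20.le_inertia Z
        (Helper35.isClassFunction_of_isCharacter (Helper35.isChar_of_irr hφirr))
    obtain ⟨u, huT, huZ⟩ : ∃ u ∈ Helper20.inertia Z (fun z => ((φ z : ℂˣ) : ℂ)), u ∉ Z := by
      by_contra hc
      push_neg at hc
      have hTZ : Helper20.inertia Z (fun z => ((φ z : ℂˣ) : ℂ)) = Z := le_antisymm hc hZT
      rw [hTZ, hZidx2] at hTle
      have h1 := hp.one_lt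
      nlinarith
    refine ⟨u, huZ, fun z => ?_⟩
    have h1 := (Helper20.mem_inertia Z _ u).mp huT
    have h2 := congrFun h1 z
    rw [Helper20.conjFun_apply] at h2
    apply Units.ext
    have h3 : (MulAut.conjNormal u : Z ≃* Z) z = ⟨u * z * u⁻¹, hZn.conj_mem (z : P) z.2 u⟩ := by
      apply Subtype.ext
      rw [MulAut.conjNormal_apply]
    rw [h3]
    exact h2
  · -- the central case
    have hcardeq : Nat.card H = Nat.card ZH * p ^ 2 := by
      rw [← hj]
      exact ZH.card_mul_index.symm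
    have hnormeq : ∀ ψ : H → ℂ, IsIrrCharacter H ψ → charDegree ψ ≠ 1 → ∀ h ∈ ZH,
        ‖ψ h‖ = (p : ℝ) := by
      intro ψ hψ hψ1 h hh
      have h1 := hsum ψ hψ hψ1
      have h2 : ∑ h ∈ Finset.univ.filter (fun h : H => h ∈ ZH), ‖ψ h‖ ^ 2 =
          ∑ _h ∈ Finset.univ.filter (fun h : H => h ∈ ZH), (p : ℝ) ^ 2 := by
        rw [h1, Finset.sum_const, hcardfilter, nsmul_eq_mul, hcardeq]
        push_cast
        ring
      have h3 := (Finset.sum_eq_sum_iff_of_le (fun h _ => hnormle ψ hψ hψ1 h)).mp h2 h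
        (by simp [hh])
      exact (sq_eq_sq₀ (norm_nonneg _) (Nat.cast_nonneg p)).mp h3
    have hψ0ne : ∀ h ∈ ZH, (ψ0 : H → ℂ) h ≠ 0 := by
      intro h hh h0
      have h1 := hnormeq ψ0 ψ0.2 hψ0 h hh
      rw [h0, norm_zero] at h1
      exact hp.ne_zero (by exact_mod_cast h1.symm)
    have hallinv : ∀ (φ : IrrCharacter H) (x : P) (h : H), h ∈ ZH →
        (φ : H → ℂ) ⟨x * h * x⁻¹, hHn.conj_mem (h : P) h.2 x⟩ = (φ : H → ℂ) h := by
      intro φ x h hh
      by_cases hφ1 : charDegree (φ : H → ℂ) = 1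
      · have hφ1' : (φ : H → ℂ) 1 = 1 := by
          rw [(Helper83.irr_degree φ.2).2, hφ1]
          simp
        exact vanish_off p hp hcd H φ.2 hφ1' ψ0.2 hψ0 h (hψ0ne h hh) x
      · have h1 := (inv_of_nonlinear p hp hcd H φ.2 hφ1).2 x
        have h2 := congrFun h1 h
        rw [Helper20.conjFun_apply] at h2
        exact h2
    letI : Fintype (IrrCharacter H) := Fintype.ofFinite _
    have hcentH : ∀ h ∈ ZH, ∀ k : H, k * h = h * k := by
      intro h hh k
      have h1 := Helper4.col_orth (G := H) h h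
      rw [if_pos (IsConj.refl h)] at h1
      have h2 : ∀ φ : IrrCharacter H,
          (φ : H → ℂ) h * conj ((φ : H → ℂ) h) = (φ : H → ℂ) 1 ^ 2 := by
        intro φ
        have h3 : ‖(φ : H → ℂ) h‖ = (charDegree (φ : H → ℂ) : ℝ) := by
          by_cases hφ1 : charDegree (φ : H → ℂ) = 1
          · have hφ1' : (φ : H → ℂ) 1 = 1 := by
              rw [(Helper83.irr_degree φ.2).2, hφ1]
              simp
            have hm := Helper4.irr_mul_of_one φ hφ1' h h⁻¹
            rw [mul_inv_cancel, hφ1'] at hm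
            have hn1 := Helper83.irr_norm_le φ.2 h
            have hn2 := Helper83.irr_norm_le φ.2 h⁻¹
            rw [hφ1] at hn1 hn2 ⊢
            have hn3 : ‖(φ : H → ℂ) h‖ * ‖(φ : H → ℂ) h⁻¹‖ = 1 := by
              rw [← norm_mul, ← hm, norm_one]
            have hn4 := norm_nonneg ((φ : H → ℂ) h)
            have hn5 := norm_nonneg ((φ : H → ℂ) h⁻¹)
            push_cast at hn1 hn2 ⊢
            nlinarith
          · rw [hnormeq φ φ.2 hφ1 h hh, (inv_of_nonlinear p hp hcd H φ.2 hφ1).1]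
        rw [Complex.mul_conj, Complex.normSq_eq_norm_sq, h3, (Helper83.irr_degree φ.2).2]
        push_cast
        ring
      rw [Finset.sum_congr rfl (fun φ _ => h2 φ), Helper4.sum_sq_irr] at h1
      have h3 : Nat.card (Subgroup.centralizer ({h} : Set H)) = Nat.card H := by
        exact_mod_cast h1.symm
      have h4 : Subgroup.centralizer ({h} : Set H) = ⊤ := Subgroup.eq_top_of_card_eq _ h3
      have h5 : k ∈ Subgroup.centralizer ({h} : Set H) := by rw [h4]; exact Subgroup.mem_top k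
      exact (Subgroup.mem_centralizer_iff.mp h5 h rfl).symm
    have hZcenter : Z ≤ Subgroup.center P := by
      intro z hz
      obtain ⟨hzH, hzZ⟩ := (hZmem z).mp hz
      rw [Subgroup.mem_center_iff]
      intro x
      have h1 : IsConj (⟨x * z * x⁻¹, hHn.conj_mem z hzH x⟩ : H) ⟨z, hzH⟩ := by
        rw [Helper4.isConj_iff_irr]
        intro φ
        exact hallinv φ x ⟨z, hzH⟩ hzZ
      obtain ⟨k, hk⟩ := isConj_iff.mp h1
      have h2 : (⟨x * z * x⁻¹, hHn.conj_mem z hzH x⟩ : H) ∈ ZH :=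
        ((hZmem _).mp (hZn.conj_mem z hz x)).2
      have h3 := hcentH _ h2 k
      rw [h3, mul_inv_cancel_right] at hk
      have h4 : x * z * x⁻¹ = z := congrArg Subtype.val hk
      calc x * z = x * z * x⁻¹ * x := by group
        _ = z * x := by rw [h4]
    have hZidx3 : Z.index = p ^ 3 := by rw [hZidx]; ring
    rw [← hZidx3]
    exact Subgroup.index_dvd_of_le hZcenter

end Cfsg.Agent.Lib.Helper68
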