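import Mathlib
import Cfsg.Agent.Lib.Helper44.UDDefs

/-!
# S5655 piece MONOEX: a monomial matrix of `SU_n` with prescribed images of two basis vectors
-/

set_option autoImplicit false

namespace Cfsg.Agent.Lib.Helper44.UD

open Matrix Cfsg.Agent.Lib.Helper93 Cfsg.Agent.Lib.Helper18 Cfsg.Agent.Lib.Helper7

/-- `(-1)^(q+1) = 1` in a field of order `q^2` -/
private theorem udmonoex_neg_one_pow {F : Type*} [Field F] [Fintype F] (q : ℕ)
    (hF : Fintype.card F = q ^ 2) : (-1 : F) ^ (q + 1) = 1 := by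
  rcases Nat.even_or_odd q with hq | hq
  · obtain ⟨p, hp⟩ := CharP.exists F
    obtain ⟨e, hpp, hcard⟩ := FiniteField.card F p
    have h2q : 2 ∣ p ^ (e : ℕ) := by
      rw [← hcard, hF]
      exact dvd_pow hq.two_dvd (by norm_num)
    have h2p : 2 ∣ p := Nat.Prime.dvd_of_dvd_pow Nat.prime_two h2q
    have hp2 : p = 2 := ((Nat.prime_dvd_prime_iff_eq Nat.prime_two hpp).mp h2p).symm
    subst hp2
    have h2 : (2 : F) = 0 := by
      have := CharP.cast_eq_zero F 2
      exact_mod_cast this
    have h1 : (-1 : F) = 1 := by linear_combination (-1 : F) * h2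
    rw [h1, one_pow]
  · exact Even.neg_one_pow hq.add_one

theorem ud_monoex {F : Type*} [Field F] [Fintype F] (q : ℕ) : MonoExStmt F q := by
  classical
  intro hF n hn a b c d l m hab hcd hl hm
  -- the permutation
  obtain ⟨σ, hσa, hσb⟩ : ∃ σ : Equiv.Perm (Fin n), σ a = c ∧ σ b = d := by
    refine ⟨Equiv.swap (Equiv.swap a c b) d * Equiv.swap a c, ?_, ?_⟩
    · rw [Equiv.Perm.mul_apply, Equiv.swap_apply_left]
      apply Equiv.swap_apply_of_ne_of_ne
      · intro h
        have h' : Equiv.swap a c c = Equiv.swap a c (Equiv.swap a c b) := congrArg _ h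
        rw [Equiv.swap_apply_self, Equiv.swap_apply_right] at h'
        exact hab h'
      · exact hcd
    · rw [Equiv.Perm.mul_apply, Equiv.swap_apply_left]
  have hinv1 : ∀ x, σ⁻¹ (σ x) = x := fun x => σ.symm_apply_apply x
  have hinv2 : ∀ x, σ (σ⁻¹ x) = x := fun x => σ.apply_symm_apply x
  -- a third index
  obtain ⟨z, hza, hzb⟩ : ∃ z : Fin n, z ≠ a ∧ z ≠ b := by
    by_contra hcon
    push Not at hcon
    have hsub : (Finset.univ : Finset (Fin n)) ⊆ {a, b} := by
      intro z _
      by_cases hz : z = a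
      · simp [hz]
      · simp [hcon z hz]
    have h1 := Finset.card_le_card hsub
    rw [Finset.card_univ, Fintype.card_fin] at h1
    have h2 : ({a, b} : Finset (Fin n)).card ≤ 2 := Finset.card_le_two
    omega
  -- the sign
  obtain ⟨ε, hεdef⟩ : ∃ ε : F, ε = ((σ⁻¹).permMatrix F).det := ⟨_, rfl⟩
  have hε : ε = 1 ∨ ε = -1 := by
    rw [hεdef, Matrix.det_permutation]
    rcases Int.units_eq_one_or (Equiv.Perm.sign σ⁻¹) with h | h <;> rw [h] <;> simp
  have hεq : ε ^ (q + 1) = 1 := by
    rcases hε with h | h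
    · rw [h, one_pow]
    · rw [h]
      exact udmonoex_neg_one_pow q hF
  have hεε : ε * ε = 1 := by
    rcases hε with h | h <;> rw [h] <;> ring
  have hε0 : ε ≠ 0 := by
    intro h
    rw [h, mul_zero] at hεε
    exact zero_ne_one hεε
  have hl0 : l ≠ 0 := by
    intro h
    rw [h, zero_pow (Nat.succ_ne_zero q)] at hl
    exact zero_ne_one hl
  have hm0 : m ≠ 0 := by
    intro h
    rw [h, zero_pow (Nat.succ_ne_zero q)] at hm
    exact zero_ne_one hm
  -- the diagonal
  obtain ⟨δ, hδdef⟩ : ∃ δ : Fin n → F, δ = fun j => (if j = a then l else 1) *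
      (if j = b then m else 1) * (if j = z then (ε * l * m)⁻¹ else 1) := ⟨_, rfl⟩
  have hδa : δ a = l := by
    rw [hδdef]
    simp [hab, hza.symm]
  have hδb : δ b = m := by
    rw [hδdef]
    simp [hab.symm, hzb.symm]
  have hδq : ∀ j, δ j ^ (q + 1) = 1 := by
    intro j
    rw [hδdef]
    simp only
    rw [mul_pow, mul_pow]
    have h1 : (if j = a then l else 1) ^ (q + 1) = (1 : F) := by
      split_ifs
      · exact hl
      · exact one_pow _
    have h2 : (if j = b then m else 1) ^ (q + 1) = (1 : F) := by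
      split_ifs
      · exact hm
      · exact one_pow _
    have h3 : (if j = z then (ε * l * m)⁻¹ else 1) ^ (q + 1) = (1 : F) := by
      split_ifs
      · rw [inv_pow, mul_pow, mul_pow, hεq, hl, hm, one_mul, one_mul, inv_one]
      · exact one_pow _
    rw [h1, h2, h3, one_mul, one_mul]
  have hδprod : ∏ j, δ j = ε := by
    rw [hδdef]
    simp only
    rw [Finset.prod_mul_distrib, Finset.prod_mul_distrib, Finset.prod_ite_eq',
      Finset.prod_ite_eq', Finset.prod_ite_eq']
    simp only [Finset.mem_univ, if_true]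
    have h0 : ε * l * m ≠ 0 := mul_ne_zero (mul_ne_zero hε0 hl0) hm0
    calc l * m * (ε * l * m)⁻¹ = ε * (ε * l * m) * (ε * l * m)⁻¹ := by
          rw [← mul_assoc, ← mul_assoc, hεε, one_mul]
      _ = ε := by rw [mul_assoc, mul_inv_cancel₀ h0, mul_one]
  -- the matrix
  obtain ⟨M, hMdef⟩ : ∃ M : Matrix (Fin n) (Fin n) F,
      M = (σ⁻¹).permMatrix F * Matrix.diagonal δ := ⟨_, rfl⟩
  have hMv : ∀ u : Fin n → F, M *ᵥ u = fun i => δ (σ⁻¹ i) * u (σ⁻¹ i) := by
    intro u
    rw [hMdef, ← Matrix.mulVec_mulVec, Matrix.permMatrix_mulVec]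
    funext i
    simp [Matrix.mulVec_diagonal]
  have hdet : M.det = 1 := by
    rw [hMdef, Matrix.det_mul, Matrix.det_diagonal, hδprod, ← hεdef, hεε]
  have hunit : IsUnit M.det := by
    rw [hdet]
    exact isUnit_one
  refine ⟨Matrix.nonsingInvUnit M hunit, ?_, hdet, ?_, ?_, ?_⟩
  · intro u v
    show Cfsg.hermForm n F q (M *ᵥ u) (M *ᵥ v) = Cfsg.hermForm n F q u v
    rw [hMv, hMv]
    unfold Cfsg.hermForm
    rw [← Equiv.sum_comp σ]
    apply Finset.sum_congr rfl
    intro j _
    simp only [hinv1]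
    have h1 := hδq j
    rw [mul_pow]
    linear_combination (u j * v j ^ q) * h1
  · intro j
    refine ⟨σ j, fun i' h => ?_⟩
    by_contra hne
    apply h
    show M i' j = 0
    rw [hMdef, Matrix.mul_diagonal]
    have h0 : (σ⁻¹).permMatrix F i' j = 0 := by
      rw [Equiv.Perm.permMatrix, PEquiv.toMatrix_apply, if_neg]
      rw [Equiv.toPEquiv_apply, Option.mem_some_iff]
      intro h'
      apply hne
      rw [← h', hinv2]
    rw [h0, zero_mul]
  · show M *ᵥ Pi.single a 1 = l • Pi.single c 1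
    rw [hMv]
    funext i
    simp only [Pi.smul_apply, smul_eq_mul]
    by_cases hi : σ⁻¹ i = a
    · have hic : i = c := by rw [← hσa, ← hi, hinv2]
      rw [hi, hic, Pi.single_eq_same, Pi.single_eq_same, hδa]
    · have hic : i ≠ c := by
        intro h
        apply hi
        rw [h, ← hσa, hinv1]
      rw [Pi.single_eq_of_ne hi, Pi.single_eq_of_ne hic, mul_zero, mul_zero]
  · show M *ᵥ Pi.single b 1 = m • Pi.single d 1
    rw [hMv]
    funext i
    simp only [Pi.smul_apply, smul_eq_mul]
    by_cases hi : σ⁻¹ i = b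
    · have hic : i = d := by rw [← hσb, ← hi, hinv2]
      rw [hi, hic, Pi.single_eq_same, Pi.single_eq_same, hδb]
    · have hic : i ≠ d := by
        intro h
        apply hi
        rw [h, ← hσb, hinv1]
      rw [Pi.single_eq_of_ne hi, Pi.single_eq_of_ne hic, mul_zero, mul_zero]

end Cfsg.Agent.Lib.Helper44.UD
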