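import Mathlib
import Cfsg.Agent.Lib.Helper44.UDDefs
import Cfsg.Agent.Lib.Helper44.UDDefs2

/-!
# S5655 piece STEP5EVEN: glue for the monomial case, `q ≥ 4` even
-/

set_option autoImplicit false

namespace Cfsg.Agent.Lib.Helper44.UD

open Matrix Cfsg.Agent.Lib.Helper93 Cfsg.Agent.Lib.Helper18 Cfsg.Agent.Lib.Helper7

/-- an element of `F_q` other than `0`, `1` (for `q ≥ 3`) -/
private theorem udstep5even_exists_fq {F : Type*} [Field F] [Fintype F] (q : ℕ)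
    (hF : Fintype.card F = q ^ 2) (hq : 3 ≤ q) : ∃ a : F, a ^ q = a ∧ a ≠ 0 ∧ a ≠ 1 := by
  classical
  obtain ⟨g, hg⟩ := IsCyclic.exists_generator (α := Fˣ)
  have hord : orderOf g = q ^ 2 - 1 := by
    rw [orderOf_eq_card_of_forall_mem_zpowers hg, Nat.card_eq_fintype_card, Fintype.card_units, hF]
  have hpow : g ^ (q ^ 2 - 1) = 1 := by
    rw [← hord]
    exact pow_orderOf_eq_one g
  have hq2 : 3 * q ≤ q ^ 2 := by nlinarith
  refine ⟨((g ^ (q + 1) : Fˣ) : F), ?_, Units.ne_zero _, ?_⟩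
  · rw [← Units.val_pow_eq_pow_val, ← pow_mul]
    have e1 : (q + 1) * q = q ^ 2 + q := by ring
    have e : (q + 1) * q = (q ^ 2 - 1) + (q + 1) := by
      rw [e1]
      omega
    rw [e, pow_add, hpow, one_mul]
  · intro h
    have h1 : g ^ (q + 1) = 1 := Units.ext h
    have h2 : orderOf g ∣ q + 1 := orderOf_dvd_of_pow_eq_one h1
    rw [hord] at h2
    have h3 := Nat.le_of_dvd (by omega) h2
    omega

theorem ud_step5even {F : Type*} [Field F] [Fintype F] (q : ℕ) (h1 : E1Stmt F q) (h2 : DHom2Stmt F q) (h3 : LiftStmt F q) (h4 : ThmGStmt F q) (h5 : E5Stmt F q) : Step5EvenStmt F q := by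
  intro hF h2F hq N hN hqN X hX hMon hNC hCZ hRZ y hyX hymono hyz
  obtain ⟨y₁, hy₁X, hy₁mono, hy₁c⟩ := h1 hF h2F N hN hqN X hX hMon hNC hCZ y hyX hymono hyz
  have hXGU : X ≤ Cfsg.GU (N + 2) F q := fun g hg => (hX hg).1
  obtain ⟨Y, hYGU, hYiff, hYex⟩ := h2 hF h2F N X hXGU
  have hMonGU : MonGU q Y := by
    intro A hA hAmono
    obtain ⟨g, hgGU, hgdet, hgmono, hgc, hgblk⟩ := h3 hF h2F N A hA hAmono
    exact (hYiff A).mpr ⟨g, hMon g hgGU hgdet hgmono, hgc, hgblk⟩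
  obtain ⟨A₁, hA₁⟩ := hYex y₁ hy₁X hy₁c
  have hA₁Y : A₁ ∈ Y := (hYiff A₁).mpr ⟨y₁, hy₁X, hy₁c, hA₁⟩
  have hA₁mono : ¬ IsMono (A₁ : Matrix (Fin N) (Fin N) F) := by
    intro hm
    obtain ⟨i, hi⟩ := hm ⟨0, by omega⟩
    obtain ⟨i₁, i₂, h12, h1i, h2i⟩ : ∃ i₁ i₂ : Fin N, i₁ ≠ i₂ ∧ i₁ ≠ i ∧ i₂ ≠ i := by
      by_cases ha : i = ⟨0, by omega⟩
      · exact ⟨⟨1, by omega⟩, ⟨2, by omega⟩, by simp [Fin.ext_iff], by simp [ha, Fin.ext_iff],
          by simp [ha, Fin.ext_iff]⟩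
      · by_cases hb : i = ⟨1, by omega⟩
        · exact ⟨⟨0, by omega⟩, ⟨2, by omega⟩, by simp [Fin.ext_iff], by simp [hb, Fin.ext_iff],
            by simp [hb, Fin.ext_iff]⟩
        · exact ⟨⟨0, by omega⟩, ⟨1, by omega⟩, by simp [Fin.ext_iff], fun h => ha h.symm,
            fun h => hb h.symm⟩
    have hz1 : (A₁ : Matrix (Fin N) (Fin N) F) i₁ ⟨0, by omega⟩ = 0 := by
      by_contra hne
      exact h1i (hi i₁ hne)
    have hz2 : (A₁ : Matrix (Fin N) (Fin N) F) i₂ ⟨0, by omega⟩ = 0 := by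
      by_contra hne
      exact h2i (hi i₂ hne)
    rw [hA₁] at hz1 hz2
    refine hCZ y₁ hy₁X hy₁mono _ i₁.succ.succ i₂.succ.succ ?_ ⟨hz1, hz2⟩
    intro h
    exact h12 (Fin.succ_injective _ (Fin.succ_injective _ h))
  obtain ⟨a, b, ε, hab, hε, hCen⟩ :=
    h4 hF (by omega) N (by omega) Y hYGU hMonGU ⟨A₁, hA₁Y, hA₁mono⟩
  obtain ⟨a', ha'q, ha'0, ha'1⟩ := udstep5even_exists_fq q hF (by omega)
  have ha'L : a' + a' ^ q = 0 := by
    rw [ha'q]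
    linear_combination a' * h2F
  obtain ⟨T, hTY, hT⟩ := hCen.2 a' ha'L
  obtain ⟨g, hgX, hgc, hgblk⟩ := (hYiff T).mp hTY
  exact h5 hF h2F N hN X hX hMon hNC g hgX hgc
    ⟨a, b, ε, a', hab, hε, ha'L, ha'0, ha'1, fun i j => by rw [← hgblk i j, hT]⟩

end Cfsg.Agent.Lib.Helper44.UD
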