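import Mathlib
import Cfsg.Agent.Lib.Helper47.InvSub

/-!
# S5982 (helper96), piece TWOSQ

For `q = q₀²` odd and `v₂(n) ≤ v₂(q - 1)`, a matrix of determinant one whose square is the scalar
`z` has `z` a square.
-/

set_option autoImplicit false

universe u

namespace Cfsg.Agent.Lib.Helper68.Uf

open Polynomial Matrix
open scoped MatrixGroups

theorem twosq_neg_one {F : Type*} [Field F] [Fintype F] (p : ℕ) [Fact p.Prime] [CharP F p]
    (hp2 : p ≠ 2) (q₀ : ℕ) (hq : Fintype.card F = q₀ ^ 2) : ∃ i : F, i ^ 2 = -1 := by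
  obtain ⟨k, hp, hk⟩ := FiniteField.card F p
  have hodd : ¬ 2 ∣ q₀ := by
    intro h2
    have h3 : 2 ∣ q₀ ^ 2 := dvd_pow h2 (by norm_num)
    rw [← hq, hk] at h3
    have h4 : 2 ∣ p := Nat.Prime.dvd_of_dvd_pow Nat.prime_two h3
    exact hp2 ((Nat.prime_dvd_prime_iff_eq Nat.prime_two hp).mp h4).symm
  have h4 : Fintype.card F % 4 ≠ 3 := by
    rw [hq, Nat.pow_mod]
    have h5 : q₀ % 4 < 4 := Nat.mod_lt _ (by norm_num)
    have h6 : q₀ % 4 = 1 ∨ q₀ % 4 = 3 := by omega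
    rcases h6 with h | h <;> rw [h] <;> norm_num
  obtain ⟨i, hi⟩ := FiniteField.isSquare_neg_one_iff.mpr h4
  exact ⟨i, by rw [pow_two, ← hi]⟩

-- PIECE TWOSQ
theorem sq_of_det_one {F : Type*} [Field F] [Fintype F] (p : ℕ) [Fact p.Prime] [CharP F p]
    (hp2 : p ≠ 2) (q₀ : ℕ) (hq : Fintype.card F = q₀ ^ 2) (n : ℕ) (hn : n ≠ 0)
    (hv : padicValNat 2 n ≤ padicValNat 2 (q₀ ^ 2 - 1))
    (M : Matrix (Fin n) (Fin n) F) (z : F) (hz : z ≠ 0)
    (hM : M * M = z • (1 : Matrix (Fin n) (Fin n) F)) (hdet : M.det = 1) :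
    ∃ c : F, c ^ 2 = z := by
  by_contra hns
  push Not at hns
  obtain ⟨m, hm, hdet'⟩ := Cfsg.Agent.Lib.Helper47.det_of_sq_nonsq M z hz hM hns
  rw [hdet] at hdet'
  obtain ⟨i, hi⟩ := twosq_neg_one p hp2 q₀ hq
  have hw : ∀ c : F, c ^ 2 ≠ -z := by
    intro c hc
    apply hns (c * i)
    rw [mul_pow, hc, hi]
    ring
  have hm0 : m ≠ 0 := by omega
  exact Cfsg.Agent.Lib.Helper47.nonsq_pow_ne_one hq (-z) hw m hm0 (by rw [← hm]; exact hv)
    hdet'.symm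

end Cfsg.Agent.Lib.Helper68.Uf
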